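import Mathlib
import Cfsg.Agent.H17.MnDefs

/-!
helper77: piece S5634-BAS1 for helper17: column-monomial invertible matrices are monomial
(scaled permutation matrices).
-/

set_option autoImplicit false

namespace Cfsg.Agent.H77.Mn

open Cfsg Cfsg.Geo Cfsg.Agent.H17.Mn
open scoped MatrixGroups Matrix

variable {ι : Type} [Fintype ι] [DecidableEq ι] {F : Type*} [Field F]

/-- A column-monomial matrix `A` with a left inverse `B`: the rows of the non-zero entries give a
bijection `f`, and column `f j` of `B` is supported on `{j}`. -/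
theorem mon_core_mat (A B : Matrix ι ι F) (hBA : B * A = 1) (h : IsMon A) :
    ∃ f : ι → ι, Function.Bijective f ∧ (∀ i j, A i j ≠ 0 ↔ i = f j) ∧
      (∀ l j, B l (f j) ≠ 0 → l = j) := by
  have hex : ∀ j, ∃ k, A k j ≠ 0 := by
    intro j
    by_contra hne
    have hne' : ∀ k, A k j = 0 := by
      intro k
      by_contra hk
      exact hne ⟨k, hk⟩
    have h1 : (B * A) j j = 1 := by rw [hBA, Matrix.one_apply_eq]
    rw [Matrix.mul_apply] at h1
    have h0 : ∑ k, B j k * A k j = 0 :=
      Finset.sum_eq_zero (fun k _ => by rw [hne' k, mul_zero])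
    rw [h0] at h1
    exact zero_ne_one h1
  choose f hf using hex
  have hiff : ∀ i j, A i j ≠ 0 ↔ i = f j := by
    intro i j
    constructor
    · intro hi
      exact h j i (f j) hi (hf j)
    · intro hi
      rw [hi]
      exact hf j
  have hcol : ∀ l j, (B * A) l j = B l (f j) * A (f j) j := by
    intro l j
    rw [Matrix.mul_apply]
    apply Finset.sum_eq_single (f j)
    · intro k _ hk
      have hz : A k j = 0 := by
        by_contra hne
        exact hk ((hiff k j).1 hne)
      rw [hz, mul_zero]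
    · intro hnm
      exact absurd (Finset.mem_univ _) hnm
  have hB1 : ∀ l j, B l (f j) ≠ 0 → l = j := by
    intro l j hne
    by_contra hlj
    have h1 : (B * A) l j = 0 := by rw [hBA, Matrix.one_apply_ne hlj]
    rw [hcol] at h1
    rcases mul_eq_zero.1 h1 with e | e
    · exact hne e
    · exact hf j e
  have hB2 : ∀ j, B j (f j) ≠ 0 := by
    intro j e
    have h1 : (B * A) j j = 1 := by rw [hBA, Matrix.one_apply_eq]
    rw [hcol, e, zero_mul] at h1
    exact zero_ne_one h1
  have hinj : Function.Injective f := by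
    intro j j' hjj
    exact hB1 j j' (by rw [← hjj]; exact hB2 j)
  exact ⟨f, ⟨hinj, Finite.injective_iff_surjective.1 hinj⟩, hiff, hB1⟩

theorem mem_mono_of_isMon (g : GL ι F) (h : IsMon (g : Matrix ι ι F)) : g ∈ mono ι F := by
  have hBA : ((g⁻¹ : GL ι F) : Matrix ι ι F) * (g : Matrix ι ι F) = 1 := by
    rw [← Units.val_mul, inv_mul_cancel, Units.val_one]
  obtain ⟨f, hbij, -, hB1⟩ := mon_core_mat _ _ hBA h
  refine ⟨h, ?_⟩
  intro i l l' hl hl'
  obtain ⟨j, rfl⟩ := hbij.2 i
  rw [hB1 l j hl, hB1 l' j hl']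

theorem exists_perm_of_mem_mono (g : GL ι F) (h : g ∈ mono ι F) : ∃ π : Equiv.Perm ι, ∀ i j, (g : Matrix ι ι F) i j ≠ 0 ↔ i = π j := by
  have hBA : ((g⁻¹ : GL ι F) : Matrix ι ι F) * (g : Matrix ι ι F) = 1 := by
    rw [← Units.val_mul, inv_mul_cancel, Units.val_one]
  obtain ⟨f, hbij, hiff, -⟩ := mon_core_mat _ _ hBA h.1
  refine ⟨Equiv.ofBijective f hbij, fun i j => ?_⟩
  rw [Equiv.ofBijective_apply]
  exact hiff i j

example (g : GL ι F) (h : IsMon (g : Matrix ι ι F)) : g ∈ mono ι F := mem_mono_of_isMon g h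

example (g : GL ι F) (h : g ∈ mono ι F) : ∃ π : Equiv.Perm ι, ∀ i j, (g : Matrix ι ι F) i j ≠ 0 ↔ i = π j :=
  exists_perm_of_mem_mono g h

end Cfsg.Agent.H77.Mn
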