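import Mathlib
import Cfsg.Agent.H17.MnDefs
import Cfsg.Agent.H77.MnBas1

/-!
helper77: piece S5634-BAS2 for helper17: diagonal elements, signed swaps and elementary
transvections as elements of `GL ι F`.
-/

set_option autoImplicit false

namespace Cfsg.Agent.H77.Mn

open Cfsg Cfsg.Geo Cfsg.Agent.H17.Mn
open scoped MatrixGroups Matrix

variable {ι : Type} [Fintype ι] [DecidableEq ι] {F : Type*} [Field F]

theorem isMon_diagonal (d : ι → F) : IsMon (Matrix.diagonal d) := by
  intro j i i' hi hi'
  have h1 : i = j := by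
    by_contra hne
    exact hi (Matrix.diagonal_apply_ne d hne)
  have h2 : i' = j := by
    by_contra hne
    exact hi' (Matrix.diagonal_apply_ne d hne)
  rw [h1, h2]

theorem exists_diag (d : ι → F) (hd : ∀ i, d i ≠ 0) : ∃ g : GL ι F, (g : Matrix ι ι F) = Matrix.diagonal d ∧ g ∈ mono ι F ∧ (∏ i, d i = 1 → g ∈ monoS ι F) := by
  have h1 : Matrix.diagonal d * Matrix.diagonal (fun i => (d i)⁻¹) = 1 := by
    rw [Matrix.diagonal_mul_diagonal]
    have e : (fun i => d i * (d i)⁻¹) = fun _ => (1 : F) :=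
      funext fun i => mul_inv_cancel₀ (hd i)
    rw [e, Matrix.diagonal_one]
  have h2 : Matrix.diagonal (fun i => (d i)⁻¹) * Matrix.diagonal d = 1 := by
    rw [Matrix.diagonal_mul_diagonal]
    have e : (fun i => (d i)⁻¹ * d i) = fun _ => (1 : F) :=
      funext fun i => inv_mul_cancel₀ (hd i)
    rw [e, Matrix.diagonal_one]
  have hm : (⟨Matrix.diagonal d, Matrix.diagonal (fun i => (d i)⁻¹), h1, h2⟩ : GL ι F) ∈
      mono ι F := ⟨isMon_diagonal d, isMon_diagonal _⟩
  refine ⟨⟨Matrix.diagonal d, Matrix.diagonal (fun i => (d i)⁻¹), h1, h2⟩, rfl, hm,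
    fun hp => ⟨hm, ?_⟩⟩
  apply (Cfsg.Agent.H95.mem_specialLinear_iff _).2
  show (Matrix.diagonal d).det = 1
  rw [Matrix.det_diagonal, hp]

theorem exists_etv (i j : ι) (hij : i ≠ j) (c : F) : ∃ g : GL ι F, (g : Matrix ι ι F) = Matrix.transvection i j c ∧ g ∈ specialLinear ι F := by
  have h1 : Matrix.transvection i j c * Matrix.transvection i j (-c) = 1 := by
    rw [Matrix.transvection_mul_transvection_same i j hij, add_neg_cancel,
      Matrix.transvection_zero]
  have h2 : Matrix.transvection i j (-c) * Matrix.transvection i j c = 1 := by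
    rw [Matrix.transvection_mul_transvection_same i j hij, neg_add_cancel,
      Matrix.transvection_zero]
  refine ⟨⟨Matrix.transvection i j c, Matrix.transvection i j (-c), h1, h2⟩, rfl, ?_⟩
  apply (Cfsg.Agent.H95.mem_specialLinear_iff _).2
  exact Matrix.det_transvection_of_ne i j hij c

/-- `mulVec` by a transvection. -/
theorem tv_mulVec (i j : ι) (t : F) (v : ι → F) (c : ι) :
    (Matrix.transvection i j t *ᵥ v) c = if c = i then v i + t * v j else v c := by
  unfold Matrix.transvection
  rw [Matrix.add_mulVec, Matrix.one_mulVec, Pi.add_apply, Matrix.single_mulVec,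
    Function.update_apply]
  split_ifs with h
  · rw [h]
  · simp

theorem exists_sswap (p q : ι) (hpq : p ≠ q) : ∃ g : GL ι F, g ∈ monoS ι F ∧ (g : Matrix ι ι F) q p = 1 ∧ (g : Matrix ι ι F) p q = -1 ∧ (∀ i, i ≠ q → (g : Matrix ι ι F) i p = 0) ∧ (∀ i, i ≠ p → (g : Matrix ι ι F) i q = 0) ∧ ∀ j, j ≠ p → j ≠ q → ∀ i, (g : Matrix ι ι F) i j = (1 : Matrix ι ι F) i j := by
  obtain ⟨a, ha, haS⟩ := exists_etv (F := F) p q hpq (-1)
  obtain ⟨b, hb, hbS⟩ := exists_etv (F := F) q p hpq.symm 1
  have hgS : a * b * a ∈ specialLinear ι F := mul_mem (mul_mem haS hbS) haS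
  have hent : ∀ i j, ((a * b * a : GL ι F) : Matrix ι ι F) i j =
      if j = p then (if i = q then 1 else 0)
      else if j = q then (if i = p then -1 else 0) else (1 : Matrix ι ι F) i j := by
    intro i j
    have e1 : ((a * b * a : GL ι F) : Matrix ι ι F) = Matrix.transvection p q (-1) *
        Matrix.transvection q p 1 * Matrix.transvection p q (-1) := by
      rw [Units.val_mul, Units.val_mul, ha, hb]
    have e2 : ((a * b * a : GL ι F) : Matrix ι ι F) i j =
        (((a * b * a : GL ι F) : Matrix ι ι F) *ᵥ Pi.single j 1) i := by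
      rw [Matrix.mulVec_single_one]
      rfl
    rw [e2, e1, ← Matrix.mulVec_mulVec, ← Matrix.mulVec_mulVec]
    simp only [tv_mulVec, Pi.single_apply, Matrix.one_apply]
    by_cases hjp : j = p
    · rw [hjp]
      by_cases hiq : i = q
      · rw [hiq]
        simp [hpq, hpq.symm]
      · by_cases hip : i = p
        · rw [hip]
          simp [hpq, hpq.symm]
        · simp [hpq, hpq.symm, hiq, hip]
    · by_cases hjq : j = q
      · rw [hjq]
        by_cases hiq : i = q
        · rw [hiq]
          simp [hpq, hpq.symm]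
        · by_cases hip : i = p
          · rw [hip]
            simp [hpq, hpq.symm]
          · simp [hpq, hpq.symm, hiq, hip]
      · by_cases hiq : i = q
        · rw [hiq]
          simp [hpq, hpq.symm, hjp, hjq, Ne.symm hjp, Ne.symm hjq]
        · by_cases hip : i = p
          · rw [hip]
            simp [hpq, hpq.symm, hjp, hjq, Ne.symm hjp, Ne.symm hjq]
          · simp [hpq, hpq.symm, hiq, hip, hjp, hjq, Ne.symm hjp, Ne.symm hjq]
  have hmon : IsMon ((a * b * a : GL ι F) : Matrix ι ι F) := by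
    intro j i i' hi hi'
    rw [hent] at hi hi'
    by_cases hjp : j = p
    · rw [if_pos hjp] at hi hi'
      have h1 : i = q := by
        by_contra hne
        exact hi (if_neg hne)
      have h2 : i' = q := by
        by_contra hne
        exact hi' (if_neg hne)
      rw [h1, h2]
    · rw [if_neg hjp] at hi hi'
      by_cases hjq : j = q
      · rw [if_pos hjq] at hi hi'
        have h1 : i = p := by
          by_contra hne
          exact hi (if_neg hne)
        have h2 : i' = p := by
          by_contra hne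
          exact hi' (if_neg hne)
        rw [h1, h2]
      · rw [if_neg hjq] at hi hi'
        exact isMon_one j i i' hi hi'
  refine ⟨a * b * a, ⟨mem_mono_of_isMon _ hmon, hgS⟩, ?_, ?_, ?_, ?_, ?_⟩
  · rw [hent, if_pos rfl, if_pos rfl]
  · rw [hent, if_neg hpq.symm, if_pos rfl, if_pos rfl]
  · intro i hi
    rw [hent, if_pos rfl, if_neg hi]
  · intro i hi
    rw [hent, if_neg hpq.symm, if_pos rfl, if_neg hi]
  · intro j hjp hjq i
    rw [hent, if_neg hjp, if_neg hjq]

example (d : ι → F) (hd : ∀ i, d i ≠ 0) : ∃ g : GL ι F, (g : Matrix ι ι F) = Matrix.diagonal d ∧ g ∈ mono ι F ∧ (∏ i, d i = 1 → g ∈ monoS ι F) :=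
  exists_diag d hd

example (p q : ι) (hpq : p ≠ q) : ∃ g : GL ι F, g ∈ monoS ι F ∧ (g : Matrix ι ι F) q p = 1 ∧ (g : Matrix ι ι F) p q = -1 ∧ (∀ i, i ≠ q → (g : Matrix ι ι F) i p = 0) ∧ (∀ i, i ≠ p → (g : Matrix ι ι F) i q = 0) ∧ ∀ j, j ≠ p → j ≠ q → ∀ i, (g : Matrix ι ι F) i j = (1 : Matrix ι ι F) i j :=
  exists_sswap p q hpq

example (i j : ι) (hij : i ≠ j) (c : F) : ∃ g : GL ι F, (g : Matrix ι ι F) = Matrix.transvection i j c ∧ g ∈ specialLinear ι F :=
  exists_etv i j hij c

end Cfsg.Agent.H77.Mn
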