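import Mathlib
import Cfsg.Prelude.Def_GeometricClasses
import Cfsg.Prelude.Def_Classical
import Cfsg.Prelude.Def_ClassicalGeometry
import Cfsg.Agent.H42.SpdDefs
import Cfsg.Agent.H49.MinusForm

/-!
# S5978 team project (helper77): definitions and piece statements

`PΩ⁻_{2d}(q)`, `q` odd, `d = m + 1`, and the normalizer `N(K)` of a subalgebra `K` of the matrix
algebra that is a field of degree `2` over `F` with self-adjoint elements for the polar form
(type `O_d(q²)`).  All elements of order `r` (modulo scalars) of `Ω` are `Ω`-conjugate into `N(K)`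
iff `r = 2`.

Generic pieces are stated for a quadratic form `Q : QuadraticForm F (ι → F)` (`ι : Type`), the
others for `Cfsg.quadFormMinus m F a b = ⇑(Cfsg.Agent.H49.QMin m F a b)` on `F^(MI m)`.
-/

set_option autoImplicit false
open scoped MatrixGroups
open scoped Matrix

namespace Cfsg.Agent.H77.Tq

open Module

universe u

/-- The index type of the minus-type space of dimension `2 m + 2`. -/
abbrev MI (m : ℕ) : Type := (Fin m ⊕ Fin m) ⊕ Fin 2

/-- The binary form `x² + a x y + b y²` is anisotropic. -/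
def Aniso {F : Type u} [Field F] (a b : F) : Prop :=
  ∀ x y : F, x ^ 2 + a * x * y + b * y ^ 2 = 0 → x = 0 ∧ y = 0

/-- Standing hypotheses: odd characteristic, nondegenerate `Q`, and `K` a field of degree `2`
whose elements are self-adjoint for the polar form of `Q`. -/
structure KO {F : Type u} [Field F] {ι : Type} [Fintype ι] [DecidableEq ι]
    (Q : QuadraticForm F (ι → F)) (K : Subalgebra F (Matrix ι ι F)) : Prop where
  two : (2 : F) ≠ 0
  nondeg : (QuadraticMap.polarBilin Q).Nondegenerate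
  fld : Cfsg.Geo.IsFieldSubalgebra 2 K
  adj : Cfsg.Geo.IsSelfAdjointFor (QuadraticMap.polar ⇑Q) K

/-- Coordinates adapted to `K`: a field `L` with `ψ : L ≅ K`, an `F`-linear `φ : L^n ≅ F^ι` that is
`L`-linear for the action of `K`, in which the polar form of `Q` is the trace of the diagonal form
`∑ α_l w_l w'_l`. -/
structure KCoord {F : Type u} [Field F] [Fintype F] {ι : Type} [Fintype ι] [DecidableEq ι]
    (Q : QuadraticForm F (ι → F)) (K : Subalgebra F (Matrix ι ι F))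
    {L : Type u} [Field L] [Fintype L] [Algebra F L] (n : ℕ)
    (ψ : L →ₐ[F] Matrix ι ι F) (φ : (Fin n → L) ≃ₗ[F] (ι → F)) (α : Fin n → L) : Prop where
  card : Fintype.card L = Fintype.card F ^ 2
  dim : Fintype.card ι = 2 * n
  mem : ∀ c : L, ψ c ∈ K
  surj : ∀ a ∈ K, ∃ c : L, ψ c = a
  smul : ∀ (c : L) (w : Fin n → L), φ (c • w) = (ψ c) *ᵥ (φ w)
  ne : ∀ l, α l ≠ 0
  form : ∀ w w' : Fin n → L,
    QuadraticMap.polar (⇑Q) (φ w) (φ w') = Algebra.trace F L (∑ l, α l * w l * w' l)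

/-! ## The `K`-structure -/

/-- S5978-DIAG (Mathlib only): a nondegenerate symmetric bilinear form over a finite field of odd
characteristic has an orthogonal basis with prescribed norm `c ≠ 0` for all but the last vector. -/
def StDiag : Prop :=
  ∀ (L : Type u) [Field L] [Fintype L] (V : Type u) [AddCommGroup V] [Module L V]
    [FiniteDimensional L V] (B : V →ₗ[L] V →ₗ[L] L), (2 : L) ≠ 0 →
    (∀ u v, B u v = B v u) → (∀ u, (∀ v, B u v = 0) → u = 0) → ∀ c : L, c ≠ 0 →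
    ∃ (n : ℕ) (e : (Fin n → L) ≃ₗ[L] V) (α : Fin n → L), (∀ l, α l ≠ 0) ∧
      (∀ l : Fin n, (l : ℕ) + 1 < n → α l = c) ∧
      ∀ w w' : Fin n → L, B (e w) (e w') = ∑ l, α l * w l * w' l

/-- S5978-STRUCT: adapted coordinates exist, with `α_l` a nonsquare of `L` for all but the last
index. -/
def StStruct : Prop :=
  ∀ (F : Type u) [Field F] [Fintype F] (ι : Type) [Fintype ι] [DecidableEq ι]
    (Q : QuadraticForm F (ι → F)) (K : Subalgebra F (Matrix ι ι F)), KO Q K →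
    ∃ (n : ℕ) (L : Type u) (_ : Field L) (_ : Fintype L) (_ : Algebra F L)
      (ψ : L →ₐ[F] Matrix ι ι F) (φ : (Fin n → L) ≃ₗ[F] (ι → F)) (α : Fin n → L),
      KCoord Q K n ψ φ α ∧ ∀ l : Fin n, (l : ℕ) + 1 < n → ¬ IsSquare (α l)

/-- S5978-LIN: an isometry of `Q` commuting with `K` is `L`-linear in adapted coordinates and
preserves the diagonal form. -/
def StLin : Prop :=
  ∀ (F : Type u) [Field F] [Fintype F] (ι : Type) [Fintype ι] [DecidableEq ι]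
    (Q : QuadraticForm F (ι → F)) (K : Subalgebra F (Matrix ι ι F)) (L : Type u) [Field L]
    [Fintype L] [Algebra F L] (n : ℕ) (ψ : L →ₐ[F] Matrix ι ι F)
    (φ : (Fin n → L) ≃ₗ[F] (ι → F)) (α : Fin n → L), KO Q K → KCoord Q K n ψ φ α →
    ∀ y : GL ι F, y ∈ Cfsg.isometryGroup F ⇑Q →
    (∀ a ∈ K, (y : Matrix ι ι F) * a = a * (y : Matrix ι ι F)) →
    ∃ Y : Matrix (Fin n) (Fin n) L,
      (∀ w : Fin n → L, φ (Y *ᵥ w) = (y : Matrix ι ι F) *ᵥ φ w) ∧
      Yᵀ * Matrix.diagonal α * Y = Matrix.diagonal α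

/-- S5978-LIFT: the isometry group of the diagonal form over `L` embeds into the isometries of `Q`
commuting with `K`. -/
def StLift : Prop :=
  ∀ (F : Type u) [Field F] [Fintype F] (ι : Type) [Fintype ι] [DecidableEq ι]
    (Q : QuadraticForm F (ι → F)) (K : Subalgebra F (Matrix ι ι F)) (L : Type u) [Field L]
    [Fintype L] [Algebra F L] (n : ℕ) (ψ : L →ₐ[F] Matrix ι ι F)
    (φ : (Fin n → L) ≃ₗ[F] (ι → F)) (α : Fin n → L), KO Q K → KCoord Q K n ψ φ α →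
    ∃ Φ : ↥(Cfsg.isometryGroup L (fun w : Fin n → L => ∑ l, α l * w l ^ 2)) →* GL ι F,
      Function.Injective Φ ∧ (∀ Y, Φ Y ∈ Cfsg.isometryGroup F ⇑Q) ∧
      (∀ Y, ∀ a ∈ K, ((Φ Y : GL ι F) : Matrix ι ι F) * a = a * ((Φ Y : GL ι F) : Matrix ι ι F)) ∧
      ∀ (Y : ↥(Cfsg.isometryGroup L (fun w : Fin n → L => ∑ l, α l * w l ^ 2))) (w : Fin n → L),
        φ (((Y : GL (Fin n) L) : Matrix (Fin n) (Fin n) L) *ᵥ w) =
          ((Φ Y : GL ι F) : Matrix ι ι F) *ᵥ φ w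

/-- S5978-SEMI: if all `α_l` are nonsquares, some `K`-semilinear isometry of `Q` has square `-1`. -/
def StSemi : Prop :=
  ∀ (F : Type u) [Field F] [Fintype F] (ι : Type) [Fintype ι] [DecidableEq ι]
    (Q : QuadraticForm F (ι → F)) (K : Subalgebra F (Matrix ι ι F)) (L : Type u) [Field L]
    [Fintype L] [Algebra F L] (n : ℕ) (ψ : L →ₐ[F] Matrix ι ι F)
    (φ : (Fin n → L) ≃ₗ[F] (ι → F)) (α : Fin n → L), KO Q K → KCoord Q K n ψ φ α →
    (∀ l, ¬ IsSquare (α l)) →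
    ∃ y : GL ι F, y ∈ Cfsg.isometryGroup F ⇑Q ∧ y ∈ Cfsg.Geo.subalgebraNormalizer K ∧
      (y : Matrix ι ι F) * (y : Matrix ι ι F) = -1

/-- S5978-NORMSQ: in a quadratic extension of finite fields of odd characteristic, an element is a
square iff its norm is. -/
def StNormSq : Prop :=
  ∀ (F : Type u) [Field F] [Fintype F] (L : Type u) [Field L] [Fintype L] [Algebra F L],
    (2 : F) ≠ 0 → Fintype.card L = Fintype.card F ^ 2 → ∀ c : L, c ≠ 0 →
    (IsSquare c ↔ IsSquare (Algebra.norm F c))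

/-- S5978-PLANE: for a nonsquare `ν` of `L` the plane `(L, tr(ν c c'))` has an orthogonal basis
whose norms have a square product. -/
def StPlane : Prop :=
  ∀ (F : Type u) [Field F] [Fintype F] (L : Type u) [Field L] [Fintype L] [Algebra F L],
    (2 : F) ≠ 0 → Fintype.card L = Fintype.card F ^ 2 → ∀ ν : L, ¬ IsSquare ν →
    ∃ c₁ c₂ : L, Algebra.trace F L (ν * c₁ * c₂) = 0 ∧ Algebra.trace F L (ν * c₁ * c₁) ≠ 0 ∧
      Algebra.trace F L (ν * c₂ * c₂) ≠ 0 ∧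
      IsSquare (Algebra.trace F L (ν * c₁ * c₁) * Algebra.trace F L (ν * c₂ * c₂))

/-- S5978-DISC: for the minus-type form, if all `α_l` but the last are nonsquares, the last one is
a square iff `(-1)^n` is a square of `F`. -/
def StDisc : Prop :=
  ∀ (F : Type u) [Field F] [Fintype F] (m : ℕ) (a b : F)
    (K : Subalgebra F (Matrix (MI m) (MI m) F)) (L : Type u) [Field L] [Fintype L] [Algebra F L]
    (n : ℕ) (ψ : L →ₐ[F] Matrix (MI m) (MI m) F) (φ : (Fin n → L) ≃ₗ[F] (MI m → F))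
    (α : Fin n → L), (2 : F) ≠ 0 → Aniso a b →
    KCoord (Cfsg.Agent.H49.QMin m F a b) K n ψ φ α →
    (∀ l : Fin n, (l : ℕ) + 1 < n → ¬ IsSquare (α l)) →
    ∀ l : Fin n, (l : ℕ) + 1 = n → (IsSquare (α l) ↔ IsSquare ((-1 : F) ^ n))

/-! ## Orders -/

/-- S5978-ORDDIAGODD: the order of the isometry group of a diagonal form in odd dimension. -/
def StOrdDiagOdd : Prop :=
  ∀ (L : Type u) [Field L] [Fintype L] (n : ℕ) (α : Fin n → L), (2 : L) ≠ 0 → (∀ l, α l ≠ 0) →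
    Odd n →
    Nat.card ↥(Cfsg.isometryGroup L (fun w : Fin n → L => ∑ l, α l * w l ^ 2)) =
      2 * Fintype.card L ^ ((n / 2) ^ 2) *
        ∏ j ∈ Finset.range (n / 2), (Fintype.card L ^ (2 * (j + 1)) - 1)

/-- S5978-ORDDIAGEVEN: the order of the isometry group of a diagonal form of minus type in even
dimension. -/
def StOrdDiagEven : Prop :=
  ∀ (L : Type u) [Field L] [Fintype L] (n : ℕ) (α : Fin n → L), (2 : L) ≠ 0 → (∀ l, α l ≠ 0) →
    Even n → 0 < n → ¬ IsSquare ((-1 : L) ^ (n / 2) * ∏ l, α l) →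
    Nat.card ↥(Cfsg.isometryGroup L (fun w : Fin n → L => ∑ l, α l * w l ^ 2)) =
      2 * Fintype.card L ^ ((n / 2) * (n / 2 - 1)) * (Fintype.card L ^ (n / 2) + 1) *
        ∏ j ∈ Finset.range (n / 2 - 1), (Fintype.card L ^ (2 * (j + 1)) - 1)

/-- S5978-CENTORD: `N(K) ∩ O(Q)` contains a subgroup of the order of `O_d(q²)` (`d = m + 1`; minus
type for `d` even). -/
def StCentOrd : Prop :=
  ∀ (F : Type u) [Field F] [Fintype F] (m : ℕ) (a b : F)
    (K : Subalgebra F (Matrix (MI m) (MI m) F)), Aniso a b →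
    KO (Cfsg.Agent.H49.QMin m F a b) K →
    ∃ H : Subgroup (GL (MI m) F), H ≤ Cfsg.isometryGroup F (Cfsg.quadFormMinus m F a b) ∧
      H ≤ Cfsg.Geo.subalgebraNormalizer K ∧
      Nat.card ↥H = (if Even (m + 1) then
          2 * (Fintype.card F ^ 2) ^ (((m + 1) / 2) * ((m + 1) / 2 - 1)) *
            ((Fintype.card F ^ 2) ^ ((m + 1) / 2) + 1) *
            ∏ j ∈ Finset.range ((m + 1) / 2 - 1), ((Fintype.card F ^ 2) ^ (2 * (j + 1)) - 1)
        else
          2 * (Fintype.card F ^ 2) ^ ((m / 2) ^ 2) *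
            ∏ j ∈ Finset.range (m / 2), ((Fintype.card F ^ 2) ^ (2 * (j + 1)) - 1))

/-- S5978-ARITHORD: for `4 ∣ ord_r(q)` the `r`-part of `|O⁻_{2m+2}(q)|` is that of `|O_{m+1}(q²)|`. -/
def StArithOrd : Prop :=
  ∀ (q m r : ℕ), 2 ≤ q → r.Prime → r ≠ 2 → ¬ r ∣ q → 4 ∣ orderOf (q : ZMod r) →
    ∃ M : ℕ, ¬ r ∣ M ∧
      2 * q ^ ((m + 1) * m) * (q ^ (m + 1) + 1) *
          ∏ j ∈ Finset.range m, (q ^ (2 * (j + 1)) - 1) ∣
        M * (if Even (m + 1) then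
          2 * (q ^ 2) ^ (((m + 1) / 2) * ((m + 1) / 2 - 1)) * ((q ^ 2) ^ ((m + 1) / 2) + 1) *
            ∏ j ∈ Finset.range ((m + 1) / 2 - 1), ((q ^ 2) ^ (2 * (j + 1)) - 1)
        else
          2 * (q ^ 2) ^ ((m / 2) ^ 2) *
            ∏ j ∈ Finset.range (m / 2), ((q ^ 2) ^ (2 * (j + 1)) - 1))

/-- S5978-KORD: for `4 ∣ ord_r(q)` the prime `r` does not divide the index of `N(K) ∩ Ω`. -/
def StKOrd : Prop :=
  ∀ (F : Type u) [Field F] [Fintype F] (p : ℕ) [Fact p.Prime] [CharP F p] (m : ℕ) (a b : F)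
    (K : Subalgebra F (Matrix (MI m) (MI m) F)), Aniso a b →
    KO (Cfsg.Agent.H49.QMin m F a b) K →
    ∀ r : ℕ, r.Prime → r ≠ 2 → r ≠ p → 4 ∣ orderOf (Fintype.card F : ZMod r) →
    ¬ r ∣ (Cfsg.Geo.subalgebraNormalizer K).relIndex
      (Cfsg.Geo.omegaGL (Cfsg.quadFormMinus m F a b))

/-- S5978-IDX: the arithmetic consequences of `r ∣ |Ω : N(K) ∩ Ω|`, `r ≠ 2, p`. -/
def StIdx : Prop :=
  ∀ (F : Type u) [Field F] [Fintype F] (p : ℕ) [Fact p.Prime] [CharP F p] (m : ℕ) (a b : F)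
    (K : Subalgebra F (Matrix (MI m) (MI m) F)), Aniso a b →
    KO (Cfsg.Agent.H49.QMin m F a b) K →
    ∀ r : ℕ, r.Prime → r ≠ 2 → r ≠ p →
    r ∣ (Cfsg.Geo.subalgebraNormalizer K).relIndex
      (Cfsg.Geo.omegaGL (Cfsg.quadFormMinus m F a b)) →
    (Odd (orderOf (Fintype.card F : ZMod r)) → orderOf (Fintype.card F : ZMod r) ≤ m) ∧
    (Even (orderOf (Fintype.card F : ZMod r)) → orderOf (Fintype.card F : ZMod r) ≤ 2 * m + 2) ∧
    ¬ 4 ∣ orderOf (Fintype.card F : ZMod r)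

/-- S5978-ARITHCC: for `4 ∤ ord_r(q)` the minimal dimension over `F_{q²}`, doubled, exceeds the
minimal dimension over `F_q`. -/
def StArithCC : Prop :=
  ∀ (q r : ℕ), r.Prime → r ≠ 2 → ¬ r ∣ q → ¬ 4 ∣ orderOf (q : ZMod r) →
    (if Even (orderOf (q : ZMod r)) then orderOf (q : ZMod r) else 2 * orderOf (q : ZMod r)) <
      2 * (if Even (orderOf ((q : ZMod r) ^ 2)) then orderOf ((q : ZMod r) ^ 2)
        else 2 * orderOf ((q : ZMod r) ^ 2))

/-! ## Elements of odd prime order -/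

/-- S5978-AUTG: an element of the normalizer of `K` whose `r`-th power is scalar, `r ≠ k` prime,
centralizes `K` (S5975-AUT for an arbitrary index type). -/
def StAutG : Prop :=
  ∀ (F : Type u) [Field F] [Fintype F] (ι : Type) [Fintype ι] [DecidableEq ι] (k : ℕ)
    (K : Subalgebra F (Matrix ι ι F)), Cfsg.Geo.IsFieldSubalgebra k K → k.Prime →
    ∀ (y : GL ι F) (r : ℕ) (z : F), y ∈ Cfsg.Geo.subalgebraNormalizer K → r.Prime → r ≠ k →
    ((y ^ r : GL ι F) : Matrix ι ι F) = z • (1 : Matrix ι ι F) →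
    ∀ a ∈ K, (y : Matrix ι ι F) * a = a * (y : Matrix ι ι F)

/-- S5978-RANK2: an isometry of odd order commuting with `K` with `rank (y - 1) ≤ 2` is `1`. -/
def StRankTwo : Prop :=
  ∀ (F : Type u) [Field F] [Fintype F] (ι : Type) [Fintype ι] [DecidableEq ι]
    (Q : QuadraticForm F (ι → F)) (K : Subalgebra F (Matrix ι ι F)), KO Q K →
    ∀ (y : GL ι F) (r : ℕ), y ∈ Cfsg.isometryGroup F ⇑Q →
    (∀ a ∈ K, (y : Matrix ι ι F) * a = a * (y : Matrix ι ι F)) → Odd r → y ^ r = 1 →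
    ((y : Matrix ι ι F) - 1).rank ≤ 2 → y = 1

/-- S5978-KBOUND: a nontrivial isometry of odd prime order `r ≠ p` commuting with `K` has
`rank (y - 1)` at least twice the minimal dimension over `F_{q²}`. -/
def StKBound : Prop :=
  ∀ (F : Type u) [Field F] [Fintype F] (p : ℕ) [Fact p.Prime] [CharP F p] (ι : Type) [Fintype ι]
    [DecidableEq ι] (Q : QuadraticForm F (ι → F)) (K : Subalgebra F (Matrix ι ι F)), KO Q K →
    ∀ (y : GL ι F) (r : ℕ), y ∈ Cfsg.isometryGroup F ⇑Q →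
    (∀ a ∈ K, (y : Matrix ι ι F) * a = a * (y : Matrix ι ι F)) → r.Prime → r ≠ 2 → r ≠ p →
    y ^ r = 1 → y ≠ 1 →
    2 * (if Even (orderOf ((Fintype.card F : ZMod r) ^ 2))
        then orderOf ((Fintype.card F : ZMod r) ^ 2)
        else 2 * orderOf ((Fintype.card F : ZMod r) ^ 2)) ≤ ((y : Matrix ι ι F) - 1).rank

/-- S5978-SQMEM: squares of isometries lie in `Ω`. -/
def StSqMem : Prop :=
  ∀ (F : Type u) [Field F] [Fintype F] (ι : Type) [Fintype ι] [DecidableEq ι]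
    (Q : QuadraticForm F (ι → F)), (2 : F) ≠ 0 → (QuadraticMap.polarBilin Q).Nondegenerate →
    ∀ g : GL ι F, g ∈ Cfsg.isometryGroup F ⇑Q → g * g ∈ Cfsg.Geo.omegaGL ⇑Q

/-- S5978-ODDMEM: isometries of odd order lie in `Ω`. -/
def StOddMem : Prop :=
  ∀ (F : Type u) [Field F] [Fintype F] (ι : Type) [Fintype ι] [DecidableEq ι]
    (Q : QuadraticForm F (ι → F)), (2 : F) ≠ 0 → (QuadraticMap.polarBilin Q).Nondegenerate →
    ∀ (g : GL ι F) (r : ℕ), g ∈ Cfsg.isometryGroup F ⇑Q → Odd r → g ^ r = 1 →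
    g ∈ Cfsg.Geo.omegaGL ⇑Q

/-- S5978-SIEGEL: a long root element of `Ω⁻`: order `p`, non-scalar, `x - 1` of rank two. -/
def StSiegelM : Prop :=
  ∀ (F : Type u) [Field F] [Fintype F] (p : ℕ) [Fact p.Prime] [CharP F p] (m : ℕ) (a b : F),
    (2 : F) ≠ 0 → 2 ≤ m → Aniso a b →
    ∃ x : GL (MI m) F, x ∈ Cfsg.Geo.omegaGL (Cfsg.quadFormMinus m F a b) ∧ x ^ p = 1 ∧
      (∀ z : F, (x : Matrix (MI m) (MI m) F) ≠ z • (1 : Matrix (MI m) (MI m) F)) ∧
      ((x : Matrix (MI m) (MI m) F) - 1).rank = 2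

/-- S5978-MINELODD: for `i = ord_r(q)` odd, `i ≤ m`: an element of `Ω⁻` of order `r` with
`rank (x - 1) = 2 i`. -/
def StMinElOdd : Prop :=
  ∀ (F : Type u) [Field F] [Fintype F] (p : ℕ) [Fact p.Prime] [CharP F p] (m : ℕ) (a b : F),
    (2 : F) ≠ 0 → Aniso a b → ∀ r : ℕ, r.Prime → r ≠ 2 → r ≠ p →
    Odd (orderOf (Fintype.card F : ZMod r)) → orderOf (Fintype.card F : ZMod r) ≤ m →
    ∃ x : GL (MI m) F, x ∈ Cfsg.Geo.omegaGL (Cfsg.quadFormMinus m F a b) ∧ x ^ r = 1 ∧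
      (∀ z : F, (x : Matrix (MI m) (MI m) F) ≠ z • (1 : Matrix (MI m) (MI m) F)) ∧
      ((x : Matrix (MI m) (MI m) F) - 1).rank = Cfsg.Agent.H42.Spd.cc F r

/-- S5978-MINELEVEN: for `i = ord_r(q)` even, `i ≤ 2 m + 2`: an element of `Ω⁻` of order `r` with
`rank (x - 1) = i`. -/
def StMinElEven : Prop :=
  ∀ (F : Type u) [Field F] [Fintype F] (p : ℕ) [Fact p.Prime] [CharP F p] (m : ℕ) (a b : F),
    (2 : F) ≠ 0 → Aniso a b → ∀ r : ℕ, r.Prime → r ≠ 2 → r ≠ p →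
    Even (orderOf (Fintype.card F : ZMod r)) → orderOf (Fintype.card F : ZMod r) ≤ 2 * m + 2 →
    ∃ x : GL (MI m) F, x ∈ Cfsg.Geo.omegaGL (Cfsg.quadFormMinus m F a b) ∧ x ^ r = 1 ∧
      (∀ z : F, (x : Matrix (MI m) (MI m) F) ≠ z • (1 : Matrix (MI m) (MI m) F)) ∧
      ((x : Matrix (MI m) (MI m) F) - 1).rank = Cfsg.Agent.H42.Spd.cc F r

/-- S5978-FWD: for an odd prime `r` dividing the index, some element of order `r` of `Ω⁻` is not
conjugate into `N(K)`. -/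
def StFwd : Prop :=
  ∀ (F : Type u) [Field F] [Fintype F] (p : ℕ) [Fact p.Prime] [CharP F p] (m : ℕ) (a b : F)
    (K : Subalgebra F (Matrix (MI m) (MI m) F)), 2 ≤ m → Aniso a b →
    KO (Cfsg.Agent.H49.QMin m F a b) K → ∀ r : ℕ, r.Prime → r ≠ 2 →
    r ∣ (Cfsg.Geo.subalgebraNormalizer K).relIndex
      (Cfsg.Geo.omegaGL (Cfsg.quadFormMinus m F a b)) →
    ∃ x : GL (MI m) F, x ∈ Cfsg.Geo.omegaGL (Cfsg.quadFormMinus m F a b) ∧ x ^ r = 1 ∧
      (∀ z : F, (x : Matrix (MI m) (MI m) F) ≠ z • (1 : Matrix (MI m) (MI m) F)) ∧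
      ∀ g ∈ Cfsg.Geo.omegaGL (Cfsg.quadFormMinus m F a b),
        g⁻¹ * x * g ∉ Cfsg.Geo.subalgebraNormalizer K

/-! ## Involutions -/

/-- S5978-ARANK: an involution of `Ω` has `rank (x - 1)` even. -/
def StARank : Prop :=
  ∀ (F : Type u) [Field F] [Fintype F] (ι : Type) [Fintype ι] [DecidableEq ι]
    (Q : QuadraticForm F (ι → F)), (2 : F) ≠ 0 →
    ∀ x : GL ι F, x ∈ Cfsg.Geo.omegaGL ⇑Q → (x : Matrix ι ι F) * (x : Matrix ι ι F) = 1 →
    Even ((x : Matrix ι ι F) - 1).rank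

/-- S5978-AMODEL: `N(K) ∩ Ω` contains involutions with `rank (y - 1) = 2 j`, `0 < 2 j < |ι|`. -/
def StAModel : Prop :=
  ∀ (F : Type u) [Field F] [Fintype F] (ι : Type) [Fintype ι] [DecidableEq ι]
    (Q : QuadraticForm F (ι → F)) (K : Subalgebra F (Matrix ι ι F)), KO Q K →
    ∀ j : ℕ, 1 ≤ j → 2 * j + 2 ≤ Fintype.card ι →
    ∃ y : GL ι F, y ∈ Cfsg.Geo.omegaGL ⇑Q ∧ y ∈ Cfsg.Geo.subalgebraNormalizer K ∧
      (y : Matrix ι ι F) * (y : Matrix ι ι F) = 1 ∧ ((y : Matrix ι ι F) - 1).rank = 2 * j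

/-- S5978-ACONJO: involutions of `Ω` with the same `rank (x - 1)` are conjugate under the isometry
group. -/
def StAConjO : Prop :=
  ∀ (F : Type u) [Field F] [Fintype F] (ι : Type) [Fintype ι] [DecidableEq ι]
    (Q : QuadraticForm F (ι → F)), (2 : F) ≠ 0 → (QuadraticMap.polarBilin Q).Nondegenerate →
    ∀ x y : GL ι F, x ∈ Cfsg.Geo.omegaGL ⇑Q → y ∈ Cfsg.Geo.omegaGL ⇑Q →
    (x : Matrix ι ι F) * (x : Matrix ι ι F) = 1 → (y : Matrix ι ι F) * (y : Matrix ι ι F) = 1 →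
    ((x : Matrix ι ι F) - 1).rank = ((y : Matrix ι ι F) - 1).rank →
    ∃ g ∈ Cfsg.isometryGroup F ⇑Q, g * x * g⁻¹ = y

/-- S5978-ADJA: the centralizer of an involution with a fixed space of dimension at least two
covers `O/Ω`. -/
def StAdjA : Prop :=
  ∀ (F : Type u) [Field F] [Fintype F] (ι : Type) [Fintype ι] [DecidableEq ι]
    (Q : QuadraticForm F (ι → F)), (2 : F) ≠ 0 → (QuadraticMap.polarBilin Q).Nondegenerate →
    ∀ y g : GL ι F, y ∈ Cfsg.isometryGroup F ⇑Q → g ∈ Cfsg.isometryGroup F ⇑Q →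
    (y : Matrix ι ι F) * (y : Matrix ι ι F) = 1 →
    ((y : Matrix ι ι F) - 1).rank + 2 ≤ Fintype.card ι →
    ∃ c ∈ Cfsg.isometryGroup F ⇑Q, c * y = y * c ∧ c * g ∈ Cfsg.Geo.omegaGL ⇑Q

/-- S5978-TYPEA: every non-scalar involution of `Ω` is `Ω`-conjugate into `N(K)`. -/
def StTypeA : Prop :=
  ∀ (F : Type u) [Field F] [Fintype F] (ι : Type) [Fintype ι] [DecidableEq ι]
    (Q : QuadraticForm F (ι → F)) (K : Subalgebra F (Matrix ι ι F)), KO Q K →
    Even (Fintype.card ι) →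
    ∀ x : GL ι F, x ∈ Cfsg.Geo.omegaGL ⇑Q → (x : Matrix ι ι F) * (x : Matrix ι ι F) = 1 →
    (∀ z : F, (x : Matrix ι ι F) ≠ z • (1 : Matrix ι ι F)) →
    ∃ g ∈ Cfsg.Geo.omegaGL ⇑Q, g⁻¹ * x * g ∈ Cfsg.Geo.subalgebraNormalizer K

/-! ## Elements of square `-1` -/

/-- S5978-BADAPT: an isometry `x` with `x² = -1` has an orthogonal basis `v_l, x v_l` with
`Q = 1` on all basis vectors. -/
def StBAdapt : Prop :=
  ∀ (F : Type u) [Field F] [Fintype F] (ι : Type) [Fintype ι] [DecidableEq ι]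
    (Q : QuadraticForm F (ι → F)), (2 : F) ≠ 0 → (QuadraticMap.polarBilin Q).Nondegenerate →
    ∀ x : GL ι F, x ∈ Cfsg.isometryGroup F ⇑Q →
    (x : Matrix ι ι F) * (x : Matrix ι ι F) = -1 →
    ∃ (n : ℕ) (b : Module.Basis (Fin n ⊕ Fin n) F (ι → F)),
      (∀ l : Fin n, b (Sum.inr l) = (x : Matrix ι ι F) *ᵥ b (Sum.inl l)) ∧
      (∀ i, Q (b i) = 1) ∧ ∀ i j, i ≠ j → QuadraticMap.polar (⇑Q) (b i) (b j) = 0

/-- S5978-BCOND: if the minus-type form has an isometry of square `-1` then `-1` is a nonsquare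
of `F` and `m` is even. -/
def StBCond : Prop :=
  ∀ (F : Type u) [Field F] [Fintype F] (m : ℕ) (a b : F), (2 : F) ≠ 0 → Aniso a b →
    ∀ x : GL (MI m) F, x ∈ Cfsg.isometryGroup F (Cfsg.quadFormMinus m F a b) →
    (x : Matrix (MI m) (MI m) F) * (x : Matrix (MI m) (MI m) F) = -1 →
    ¬ IsSquare (-1 : F) ∧ Even m

/-- S5978-BCONJO: isometries of square `-1` are conjugate under the isometry group. -/
def StBConjO : Prop :=
  ∀ (F : Type u) [Field F] [Fintype F] (ι : Type) [Fintype ι] [DecidableEq ι]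
    (Q : QuadraticForm F (ι → F)), (2 : F) ≠ 0 → (QuadraticMap.polarBilin Q).Nondegenerate →
    ∀ x y : GL ι F, x ∈ Cfsg.isometryGroup F ⇑Q → y ∈ Cfsg.isometryGroup F ⇑Q →
    (x : Matrix ι ι F) * (x : Matrix ι ι F) = -1 → (y : Matrix ι ι F) * (y : Matrix ι ι F) = -1 →
    ∃ g ∈ Cfsg.isometryGroup F ⇑Q, g * x * g⁻¹ = y

/-- S5978-ADJB: for `-1` a nonsquare and `|ι| = 2 n`, `n` odd, the isometries commuting with or
inverting an isometry `y` of square `-1` cover `O/Ω`. -/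
def StAdjB : Prop :=
  ∀ (F : Type u) [Field F] [Fintype F] (ι : Type) [Fintype ι] [DecidableEq ι]
    (Q : QuadraticForm F (ι → F)) (n : ℕ), (2 : F) ≠ 0 →
    (QuadraticMap.polarBilin Q).Nondegenerate → ¬ IsSquare (-1 : F) →
    Fintype.card ι = 2 * n → Odd n →
    ∀ y g : GL ι F, y ∈ Cfsg.isometryGroup F ⇑Q → g ∈ Cfsg.isometryGroup F ⇑Q →
    (y : Matrix ι ι F) * (y : Matrix ι ι F) = -1 →
    ∃ c ∈ Cfsg.isometryGroup F ⇑Q, (c * y * c⁻¹ = y ∨ c * y * c⁻¹ = y⁻¹) ∧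
      c * g ∈ Cfsg.Geo.omegaGL ⇑Q

/-- S5978-TYPEB: every element of `Ω⁻` of square `-1` is `Ω`-conjugate into `N(K)`. -/
def StTypeB : Prop :=
  ∀ (F : Type u) [Field F] [Fintype F] (m : ℕ) (a b : F)
    (K : Subalgebra F (Matrix (MI m) (MI m) F)), Aniso a b →
    KO (Cfsg.Agent.H49.QMin m F a b) K →
    ∀ x : GL (MI m) F, x ∈ Cfsg.Geo.omegaGL (Cfsg.quadFormMinus m F a b) →
    (x : Matrix (MI m) (MI m) F) * (x : Matrix (MI m) (MI m) F) = -1 →
    ∃ g ∈ Cfsg.Geo.omegaGL (Cfsg.quadFormMinus m F a b),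
      g⁻¹ * x * g ∈ Cfsg.Geo.subalgebraNormalizer K

end Cfsg.Agent.H77.Tq
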