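import Mathlib
import Cfsg.Prelude.Def_GeometricClasses
import Cfsg.Prelude.Def_Classical
import Cfsg.Prelude.Def_ClassicalGeometry
import Cfsg.Agent.H42.TiDefs
import Cfsg.Agent.H77.TqDefs

/-!
# S5987 team project (helper77): definitions and top-level piece statements

`PΩ⁻_{2d}(q)` (all `q`), `d = k + 1`, acting on the totally singular `m`-spaces (`1 ≤ m ≤ k`) of
the minus-type form `Cfsg.quadFormMinus k F a b` on `F^(MI k)`.

Notation: `ii F r` = order of `q` modulo `r` (`Cfsg.Agent.H42.Ti.ii`), `MI k`, `Aniso a b` from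
`Cfsg.Agent.H77.Tq`.
-/

set_option autoImplicit false
open scoped MatrixGroups
open scoped Matrix

namespace Cfsg.Agent.H77.Tm

open Cfsg.Agent.H45 Cfsg.Agent.H42.Spd Cfsg.Agent.H42.Ti Cfsg.Agent.H77.Tq Module Polynomial

universe u v

section Std

variable {F : Type u} [Field F]

/-- `x` fixes a totally singular `m`-space of the minus-type form on `F^(MI k)`. -/
def FixM (k : ℕ) (a b : F) (m : ℕ) (x : GL (MI k) F) : Prop :=
  ∃ W : Submodule F (MI k → F),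
    (Module.finrank F ↥W = m ∧
      Cfsg.Geo.IsTotallySingularQuad (Cfsg.quadFormMinus k F a b) W) ∧
    W.map (Matrix.toLin' (x : Matrix (MI k) (MI k) F)) ≤ W

/-- The dimension of the fixed space of `x`. -/
noncomputable def fixDim (k : ℕ) (x : GL (MI k) F) : ℕ :=
  Module.finrank F ↥(LinearMap.ker (Matrix.toLin' (x : Matrix (MI k) (MI k) F) - 1))

/-- `∑_φ ⌊dim ker φ(x) / (2 i)⌋` over the irreducible factors `φ` of the `r`-th cyclotomic
polynomial. -/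
noncomputable def sDim [Fintype F] (k r : ℕ) (Φs : Finset F[X]) (x : GL (MI k) F) : ℕ :=
  ∑ φ ∈ Φs, Module.finrank F ↥(LinearMap.ker
    (aeval (Matrix.toLin' (x : Matrix (MI k) (MI k) F)) φ)) / (2 * ii F r)

end Std

/-- The number of totally singular `m`-spaces. -/
noncomputable def NM (F : Type u) [Field F] (k : ℕ) (a b : F) (m : ℕ) : ℕ :=
  Nat.card {W : Submodule F (MI k → F) // Module.finrank F ↥W = m ∧
    Cfsg.Geo.IsTotallySingularQuad (Cfsg.quadFormMinus k F a b) W}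

/-! ## Counting -/

/-- TM-CNTP: the number of totally singular `m`-spaces is prime to the characteristic. -/
def StCntP : Prop :=
  ∀ (F : Type u) [Field F] [Fintype F] (p : ℕ) [Fact p.Prime] [CharP F p] (k : ℕ) (a b : F)
    (m : ℕ), Aniso a b → m ≤ k → ¬ p ∣ NM F k a b m

/-- TM-CNT: a prime `r ≠ p` dividing the number of totally singular `m`-spaces divides
`q^(d-j) + 1` or `q^(d-1-j) - 1` for some `j < m` (`d = k + 1`). -/
def StCnt : Prop :=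
  ∀ (F : Type u) [Field F] [Fintype F] (p : ℕ) [Fact p.Prime] [CharP F p] (k : ℕ) (a b : F)
    (m r : ℕ), Aniso a b → m ≤ k → r.Prime → r ≠ p → r ∣ NM F k a b m →
    ∃ j, j < m ∧ (r ∣ Fintype.card F ^ (k + 1 - j) + 1 ∨ r ∣ Fintype.card F ^ (k - j) - 1)

/-- TM-ORD: the order of `q` modulo a prime `r ∤ q`. -/
def StOrd : Prop :=
  ∀ (q r : ℕ), r.Prime → ¬ r ∣ q →
    0 < orderOf (q : ZMod r) ∧ orderOf (q : ZMod r) ∣ r - 1 ∧
    ∀ e : ℕ, 0 < e →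
      (r ∣ q ^ e - 1 → orderOf (q : ZMod r) ∣ e) ∧
      (r ≠ 2 → r ∣ q ^ e + 1 →
        Even (orderOf (q : ZMod r)) ∧ e % orderOf (q : ZMod r) = orderOf (q : ZMod r) / 2)

/-! ## Scalars -/

/-- TM-SCAL: a scalar isometry is `±1`. -/
def StScal : Prop :=
  ∀ (F : Type u) [Field F] [Fintype F] (k : ℕ) (a b : F) (x : GL (MI k) F) (z : F),
    x ∈ Cfsg.isometryGroup F (Cfsg.quadFormMinus k F a b) →
    (x : Matrix (MI k) (MI k) F) = z • (1 : Matrix (MI k) (MI k) F) → z * z = 1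

/-- TM-SIGN: an isometry `x` with `x ^ r` scalar, `r` odd, has the same invariant subspaces as an
isometry `y` (`= ± x`) with `y ^ r = 1`. -/
def StSign : Prop :=
  ∀ (F : Type u) [Field F] [Fintype F] (k : ℕ) (a b : F) (x : GL (MI k) F) (r : ℕ) (z : F),
    Odd r → x ∈ Cfsg.isometryGroup F (Cfsg.quadFormMinus k F a b) →
    ((x ^ r : GL (MI k) F) : Matrix (MI k) (MI k) F) = z • (1 : Matrix (MI k) (MI k) F) →
    ∃ y : GL (MI k) F, y ∈ Cfsg.isometryGroup F (Cfsg.quadFormMinus k F a b) ∧ y ^ r = 1 ∧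
      ∀ W : Submodule F (MI k → F),
        W.map (Matrix.toLin' (y : Matrix (MI k) (MI k) F)) ≤ W →
        W.map (Matrix.toLin' (x : Matrix (MI k) (MI k) F)) ≤ W

/-! ## `r = 2 ≠ p` -/

/-- TM-TWO: the case `r = 2 ≠ p`. -/
def StTwo : Prop :=
  ∀ (F : Type u) [Field F] [Fintype F] (k : ℕ) (a b : F) (m : ℕ), (2 : F) ≠ 0 → Aniso a b →
    3 ≤ k → 1 ≤ m → m ≤ k →
    ((∀ x : GL (MI k) F, x ∈ Cfsg.Geo.omegaGL (Cfsg.quadFormMinus k F a b) →
        (∃ z : F, ((x ^ 2 : GL (MI k) F) : Matrix (MI k) (MI k) F)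
          = z • (1 : Matrix (MI k) (MI k) F)) →
        (∀ z : F, (x : Matrix (MI k) (MI k) F) ≠ z • (1 : Matrix (MI k) (MI k) F)) →
        FixM k a b m x) ↔
      (Even (k + 1) ∨ Even m ∨ Fintype.card F % 8 ≠ 7))

/-! ## Odd `r ≠ p`: structure of the invariant totally singular subspaces -/

/-- TM-MODD: `i` odd. An isometry `y` with `y ^ r = 1` has `A` pairs of blocks
(`dim [V, y] = 2 i A`, `i A ≤ d - 1`); its invariant totally singular subspaces have exactly the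
dimensions `i j + w` with `j ≤ A` and `w ≤ d - 1 - i A`. -/
def StMOdd : Prop :=
  ∀ (F : Type u) [Field F] [Fintype F] (p : ℕ) [Fact p.Prime] [CharP F p] (k : ℕ) (a b : F)
    (r : ℕ), Aniso a b → r.Prime → r ≠ 2 → r ≠ p → Odd (ii F r) →
    ∀ y : GL (MI k) F, y ∈ Cfsg.isometryGroup F (Cfsg.quadFormMinus k F a b) → y ^ r = 1 →
    ∃ A : ℕ, ii F r * A ≤ k ∧ fixDim k y + 2 * ii F r * A = 2 * k + 2 ∧
      (∀ j w : ℕ, j ≤ A → w + ii F r * A ≤ k → FixM k a b (ii F r * j + w) y) ∧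
      (∀ W : Submodule F (MI k → F),
        Cfsg.Geo.IsTotallySingularQuad (Cfsg.quadFormMinus k F a b) W →
        W.map (Matrix.toLin' (y : Matrix (MI k) (MI k) F)) ≤ W →
        ∃ j w : ℕ, Module.finrank F ↥W = ii F r * j + w ∧ j ≤ A ∧ w + ii F r * A ≤ k)

/-- TM-MEVEN: `i` even, `h = i / 2`. An isometry `y` with `y ^ r = 1` has `A` blocks
(`dim [V, y] = i A`; the fixed space has type `(-1)^(A+1)`, so `h A ≤ d - 1` for `A` even); it has
invariant totally singular subspaces of the dimensions `i j + w` with `j = 0` or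
`(r - 1) / i + 2 j ≤ A + 1`, and `w ≤ d - h A - [A even]`; and every invariant totally singular
subspace has dimension `i j + w` with `j ≤ sDim` and `w ≤ d - h A - [A even]`. -/
def StMEven : Prop :=
  ∀ (F : Type u) [Field F] [Fintype F] (p : ℕ) [Fact p.Prime] [CharP F p] (k : ℕ) (a b : F)
    (r : ℕ), Aniso a b → r.Prime → r ≠ 2 → r ≠ p → Even (ii F r) →
    ∀ Φs : Finset F[X], IsCycSet F r Φs →
    ∀ y : GL (MI k) F, y ∈ Cfsg.isometryGroup F (Cfsg.quadFormMinus k F a b) → y ^ r = 1 →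
    ∃ A : ℕ, fixDim k y + ii F r * A = 2 * k + 2 ∧ (Even A → ii F r / 2 * A ≤ k) ∧
      (∀ j w : ℕ, (j = 0 ∨ (r - 1) / ii F r + 2 * j ≤ A + 1) →
        w + ii F r / 2 * A + (if Even A then 1 else 0) ≤ k + 1 →
        FixM k a b (ii F r * j + w) y) ∧
      (∀ W : Submodule F (MI k → F),
        Cfsg.Geo.IsTotallySingularQuad (Cfsg.quadFormMinus k F a b) W →
        W.map (Matrix.toLin' (y : Matrix (MI k) (MI k) F)) ≤ W →
        ∃ j w : ℕ, Module.finrank F ↥W = ii F r * j + w ∧ j ≤ sDim k r Φs y ∧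
          w + ii F r / 2 * A + (if Even A then 1 else 0) ≤ k + 1)

/-! ## Odd `r ≠ p`: existence of elements -/

/-- TM-EXODD: `i` odd: elements of `Ω⁻` of order `r` with `A` pairs of blocks, `1 ≤ A`,
`i A ≤ d - 1`. -/
def StExOdd : Prop :=
  ∀ (F : Type u) [Field F] [Fintype F] (p : ℕ) [Fact p.Prime] [CharP F p] (k : ℕ) (a b : F)
    (r : ℕ), Aniso a b → 3 ≤ k → r.Prime → r ≠ 2 → r ≠ p → Odd (ii F r) →
    ∀ A : ℕ, 1 ≤ A → ii F r * A ≤ k →
    ∃ x : GL (MI k) F, x ∈ Cfsg.Geo.omegaGL (Cfsg.quadFormMinus k F a b) ∧ x ^ r = 1 ∧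
      fixDim k x + 2 * ii F r * A = 2 * k + 2 ∧
      ∀ z : F, (x : Matrix (MI k) (MI k) F) ≠ z • (1 : Matrix (MI k) (MI k) F)

/-- TM-EXEVEN: `i` even, `h = i / 2`: elements of `Ω⁻` of order `r` with `A ≥ 1` blocks
(`h A ≤ d` for `A` odd, `h A ≤ d - 1` for `A` even) spread as evenly as possible over the
`(r - 1) / i` types. -/
def StExEven : Prop :=
  ∀ (F : Type u) [Field F] [Fintype F] (p : ℕ) [Fact p.Prime] [CharP F p] (k : ℕ) (a b : F)
    (r : ℕ), Aniso a b → 3 ≤ k → r.Prime → r ≠ 2 → r ≠ p → Even (ii F r) →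
    ∀ Φs : Finset F[X], IsCycSet F r Φs → ∀ A : ℕ, 1 ≤ A →
    (Odd A → ii F r / 2 * A ≤ k + 1) → (Even A → ii F r / 2 * A ≤ k) →
    ∃ x : GL (MI k) F, x ∈ Cfsg.Geo.omegaGL (Cfsg.quadFormMinus k F a b) ∧ x ^ r = 1 ∧
      fixDim k x + ii F r * A = 2 * k + 2 ∧
      (∀ z : F, (x : Matrix (MI k) (MI k) F) ≠ z • (1 : Matrix (MI k) (MI k) F)) ∧
      sDim k r Φs x ≤ if A ≤ (r - 1) / ii F r then 0 else (A - (r - 1) / ii F r + 1) / 2

/-! ## Arithmetic (pure `ℕ`; `n = 2 d`) -/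

/-- TM-AROF -/
def StArOddFix : Prop :=
  ∀ d m i A : ℕ, 0 < i → Odd i → m + 1 ≤ d → i ≤ m →
    ((2 * d) % (2 * i) = 0 ∨ 2 * (m % i) < (2 * d) % (2 * i)) → i * A + 1 ≤ d →
    ∃ j w : ℕ, j ≤ A ∧ w + i * A + 1 ≤ d ∧ i * j + w = m

/-- TM-AROE -/
def StArOddEx : Prop :=
  ∀ d m i : ℕ, 0 < i → Odd i → 1 ≤ m → m + 1 ≤ d →
    (∃ e : ℕ, d ≤ e + m ∧ e + 1 ≤ d ∧ i ∣ e) →
    ¬ (i ≤ m ∧ ((2 * d) % (2 * i) = 0 ∨ 2 * (m % i) < (2 * d) % (2 * i))) →
    ∃ A : ℕ, 1 ≤ A ∧ i * A + 1 ≤ d ∧ ∀ j w : ℕ, j ≤ A → w + i * A + 1 ≤ d → i * j + w ≠ m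

/-- TM-AREF -/
def StArEvenFix : Prop :=
  ∀ d m i t A : ℕ, 0 < i → Even i → 1 ≤ t → m + 1 ≤ d → i ≤ m →
    t + 2 * (m / i) ≤ (2 * d) / i →
    ((2 * (m % i) ≤ i ∧ (2 * d) % i = 0 ∧ Even ((2 * d) / i) ∧ t + 2 * (m / i) < (2 * d) / i) ∨
      (2 * (m % i) ≤ (2 * d) % i ∧ Odd ((2 * d) / i)) ∨
      (2 * (m % i) < (2 * d) % i ∧ Even ((2 * d) / i))) →
    i / 2 * A + (if Even A then 1 else 0) ≤ d →
    ∃ j w : ℕ, (j = 0 ∨ t + 2 * j ≤ A + 1) ∧ w + i / 2 * A + (if Even A then 1 else 0) ≤ d ∧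
      i * j + w = m

/-- TM-AREE -/
def StArEvenEx : Prop :=
  ∀ d m i t : ℕ, 0 < i → Even i → 1 ≤ t → 1 ≤ m → m + 1 ≤ d →
    (∃ j : ℕ, j < m ∧ (i ∣ d - 1 - j ∨ (d - j) % i = i / 2)) →
    ¬ (i ≤ m ∧ t + 2 * (m / i) ≤ (2 * d) / i ∧
      ((2 * (m % i) ≤ i ∧ (2 * d) % i = 0 ∧ Even ((2 * d) / i) ∧
          t + 2 * (m / i) < (2 * d) / i) ∨
        (2 * (m % i) ≤ (2 * d) % i ∧ Odd ((2 * d) / i)) ∨
        (2 * (m % i) < (2 * d) % i ∧ Even ((2 * d) / i)))) →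
    ∃ A : ℕ, 1 ≤ A ∧ (Odd A → i / 2 * A ≤ d) ∧ (Even A → i / 2 * A + 1 ≤ d) ∧
      ∀ j w : ℕ, j ≤ (if A ≤ t then 0 else (A - t + 1) / 2) →
        w + i / 2 * A + (if Even A then 1 else 0) ≤ d → i * j + w ≠ m

end Cfsg.Agent.H77.Tm
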