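import Cfsg.Agent.H77.TmDefs

/-!
# S5987 team project (helper77): second wave of piece statements

Generic (characteristic-free) facts on quadratic spaces over finite fields, the counting pieces
and the pieces for `r = 2`.
-/

set_option autoImplicit false
open scoped MatrixGroups
open scoped Matrix

namespace Cfsg.Agent.H77.Tm

open Cfsg.Agent.H45 Cfsg.Agent.H42.Spd Cfsg.Agent.H42.Ti Cfsg.Agent.H77.Tq Module Polynomial

universe u v

section Basic

variable {F : Type u} [Field F] {V : Type v} [AddCommGroup V] [Module F V]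

/-- `U` is totally singular for `Q`. -/
def TS (Q : QuadraticForm F V) (U : Submodule F V) : Prop := ∀ u ∈ U, Q u = 0

/-- The polar form of `Q` as a bilinear map (so that `Cfsg.Agent.H45.perp (pol Q) K` makes
sense). -/
noncomputable abbrev pol (Q : QuadraticForm F V) : V →ₗ[F] V →ₗ[F] F := QuadraticMap.polarBilin Q

/-- Quadratic context: `T` is an isometry with `T ^ r = 1` of a quadratic form with nondegenerate
polar form, `r` an odd prime invertible in `F` (any characteristic). -/
structure QCtx (r : ℕ) (Q : QuadraticForm F V) (T : Module.End F V) : Prop where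
  prime : r.Prime
  ne_two : r ≠ 2
  cast_ne : (r : F) ≠ 0
  nondeg : ∀ x, (∀ y, QuadraticMap.polar ⇑Q x y = 0) → x = 0
  isom : ∀ x, Q (T x) = Q x
  pow : T ^ r = 1

end Basic

/-! ## Generic quadratic spaces over finite fields -/

/-- TM-ODDMEM: isometries of odd order lie in `Ω` (all characteristics, dimension `≥ 5`). -/
def StOddMemAll : Prop :=
  ∀ (F : Type u) [Field F] [Fintype F] (ι : Type) [Fintype ι] [DecidableEq ι]
    (Q : QuadraticForm F (ι → F)), (QuadraticMap.polarBilin Q).Nondegenerate →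
    5 ≤ Fintype.card ι →
    ∀ (g : GL ι F) (r : ℕ), g ∈ Cfsg.isometryGroup F ⇑Q → Odd r → g ^ r = 1 →
    g ∈ Cfsg.Geo.omegaGL ⇑Q

/-- TM-QWITT: a nondegenerate subspace `K` of dimension `≥ 2 j + 1` contains a totally singular
subspace of dimension `j`. -/
def StQWitt : Prop :=
  ∀ (F : Type u) [Field F] [Fintype F] (V : Type v) [AddCommGroup V] [Module F V]
    [FiniteDimensional F V] (Q : QuadraticForm F V) (K : Submodule F V) (j : ℕ),
    K ⊓ perp (pol Q) K = ⊥ → 2 * j + 1 ≤ Module.finrank F ↥K →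
    ∃ J : Submodule F V, J ≤ K ∧ TS Q J ∧ Module.finrank F ↥J = j

/-- TM-COMPLPLUS (Witt cancellation, one direction): if `C ⟂ U`, `U` is nondegenerate with a
totally singular `L` of half its dimension, and `C ⊔ U` has a totally singular `M` of half its
dimension, then `C` has a totally singular subspace of half its dimension. -/
def StComplPlus : Prop :=
  ∀ (F : Type u) [Field F] (V : Type v) [AddCommGroup V] [Module F V]
    [FiniteDimensional F V] (Q : QuadraticForm F V) (C U L M : Submodule F V),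
    (∀ c ∈ C, ∀ u ∈ U, QuadraticMap.polar ⇑Q c u = 0) → U ⊓ perp (pol Q) U = ⊥ →
    L ≤ U → TS Q L → 2 * Module.finrank F ↥L = Module.finrank F ↥U →
    M ≤ C ⊔ U → TS Q M → 2 * Module.finrank F ↥M = Module.finrank F ↥(C ⊔ U) →
    ∃ N : Submodule F V, N ≤ C ∧ TS Q N ∧ 2 * Module.finrank F ↥N = Module.finrank F ↥C

/-- TM-ANISOSTD: an anisotropic plane over a finite field has a basis `u, w` in which the form is
`z₁² + a z₁ z₂ + b z₂²`. -/
def StAnisoStd : Prop :=
  ∀ (F : Type u) [Field F] [Fintype F] (P : Type v) [AddCommGroup P] [Module F P]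
    (Q : QuadraticForm F P), Module.finrank F P = 2 → (∀ v, Q v = 0 → v = 0) →
    ∃ (u w : P) (a b : F), Aniso a b ∧ (∀ v : P, ∃ z₁ z₂ : F, v = z₁ • u + z₂ • w) ∧
      ∀ z₁ z₂ : F, Q (z₁ • u + z₂ • w) = z₁ ^ 2 + a * z₁ * z₂ + b * z₂ ^ 2

/-- TM-ANISOISO: any two anisotropic binary forms `z₁² + a z₁ z₂ + b z₂²` over a finite field are
equivalent by a substitution `(z₁, z₂) ↦ (z₁ + u z₂, v z₂)`. -/
def StAnisoIso : Prop :=
  ∀ (F : Type u) [Field F] [Fintype F] (a b a' b' : F), Aniso a b → Aniso a' b' →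
    ∃ u v : F, v ≠ 0 ∧ ∀ z₁ z₂ : F, z₁ ^ 2 + a * z₁ * z₂ + b * z₂ ^ 2 =
      (z₁ + u * z₂) ^ 2 + a' * (z₁ + u * z₂) * (v * z₂) + b' * (v * z₂) ^ 2

/-- TM-MINUSSUM: the orthogonal sum of two nondegenerate even-dimensional subspaces without
totally singular subspaces of half dimension has a totally singular subspace of half dimension. -/
def StMinusSum : Prop :=
  ∀ (F : Type u) [Field F] [Fintype F] (V : Type v) [AddCommGroup V] [Module F V]
    [FiniteDimensional F V] (Q : QuadraticForm F V) (K₁ K₂ : Submodule F V) (e₁ e₂ : ℕ),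
    K₁ ⊓ perp (pol Q) K₁ = ⊥ → K₂ ⊓ perp (pol Q) K₂ = ⊥ →
    (∀ x ∈ K₁, ∀ y ∈ K₂, QuadraticMap.polar ⇑Q x y = 0) →
    Module.finrank F ↥K₁ = 2 * e₁ → Module.finrank F ↥K₂ = 2 * e₂ →
    (∀ U : Submodule F V, U ≤ K₁ → TS Q U → Module.finrank F ↥U < e₁) →
    (∀ U : Submodule F V, U ≤ K₂ → TS Q U → Module.finrank F ↥U < e₂) →
    ∃ M : Submodule F V, M ≤ K₁ ⊔ K₂ ∧ TS Q M ∧ Module.finrank F ↥M = e₁ + e₂

/-! ## Isometries of odd prime order `r ≠ p` -/

/-- TM-QTRICK: the non-fixed part `range (T - 1)` carries an invariant nondegenerate ALTERNATING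
form `A` with the same invariant totally singular subspaces and the same orthogonality to
invariant subspaces (odd characteristic: `A x y = B x ((T - T ^ (r - 1)) y)` as in
`H14.Ot.StOTrick`; characteristic `2`: `A` = the polar form itself). -/
def StQTrick : Prop :=
  ∀ (F : Type u) [Field F] [Fintype F] (V : Type v) [AddCommGroup V] [Module F V]
    [FiniteDimensional F V] (r : ℕ) (Q : QuadraticForm F V) (T : Module.End F V),
    QCtx r Q T →
    ∃ (V' : Type v) (_ : AddCommGroup V') (_ : Module F V') (_ : FiniteDimensional F V')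
      (A : V' →ₗ[F] V' →ₗ[F] F) (T' : Module.End F V') (ι : V' →ₗ[F] V),
      Ctx r A T' ∧ Function.Injective ι ∧ (∀ x, ι (T' x) = T (ι x)) ∧
      LinearMap.range ι = LinearMap.range (T - 1) ∧
      LinearMap.ker (T' - 1) = ⊥ ∧
      (∀ x : V', ∀ c ∈ LinearMap.ker (T - 1), QuadraticMap.polar ⇑Q (ι x) c = 0) ∧
      (∀ W' : Submodule F V', W' ∈ T'.invtSubmodule → (TI A W' ↔ TS Q (W'.map ι))) ∧
      (∀ W' : Submodule F V', W' ∈ T'.invtSubmodule → ∀ x : V',
        ((∀ w ∈ W', A w x = 0) ↔ ∀ w ∈ W', QuadraticMap.polar ⇑Q (ι w) (ι x) = 0))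

/-- TM-QSTRUCT: `V = C ⟂ U` with `C = ker (T - 1)`, `U = range (T - 1)` nondegenerate;
`dim U = c s₀`; an invariant totally singular `W` has `dim W = dim (W ⊓ C) + i s` with
`2 i s ≤ dim U` (and `s ≤ ∑_φ ⌊dim ker φ(T) / (2 i)⌋` for `i` even); and `U` has invariant totally
singular subspaces of dimension `i s` for all `s` with `2 i s ≤ dim U` (`i` odd), resp.
`s = 0` or `i ((r - 1) / i + 2 s - 1) ≤ dim U` (`i` even). -/
def StQStruct : Prop :=
  ∀ (F : Type u) [Field F] [Fintype F] (V : Type v) [AddCommGroup V] [Module F V]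
    [FiniteDimensional F V] (r : ℕ) (Q : QuadraticForm F V) (T : Module.End F V),
    QCtx r Q T →
    (LinearMap.ker (T - 1) ⊓ LinearMap.range (T - 1) = ⊥ ∧
      LinearMap.ker (T - 1) ⊔ LinearMap.range (T - 1) = ⊤ ∧
      (∀ c ∈ LinearMap.ker (T - 1), ∀ u ∈ LinearMap.range (T - 1),
        QuadraticMap.polar ⇑Q c u = 0) ∧
      LinearMap.ker (T - 1) ⊓ perp (pol Q) (LinearMap.ker (T - 1)) = ⊥ ∧
      LinearMap.range (T - 1) ⊓ perp (pol Q) (LinearMap.range (T - 1)) = ⊥) ∧
    (∃ s₀ : ℕ, Module.finrank F ↥(LinearMap.range (T - 1)) = cc F r * s₀) ∧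
    (∀ W : Submodule F V, W ∈ T.invtSubmodule → TS Q W →
      ∃ s : ℕ, Module.finrank F ↥W
          = Module.finrank F ↥(W ⊓ LinearMap.ker (T - 1)) + ii F r * s ∧
        2 * (ii F r * s) ≤ Module.finrank F ↥(LinearMap.range (T - 1)) ∧
        (Even (ii F r) → ∀ Φs : Finset F[X], IsCycSet F r Φs →
          s ≤ ∑ φ ∈ Φs, Module.finrank F ↥(LinearMap.ker (aeval T φ)) / (2 * ii F r))) ∧
    (∀ s : ℕ,
      (Odd (ii F r) → 2 * ii F r * s ≤ Module.finrank F ↥(LinearMap.range (T - 1))) →
      (Even (ii F r) → s = 0 ∨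
        ii F r * ((r - 1) / ii F r + 2 * s - 1) ≤ Module.finrank F ↥(LinearMap.range (T - 1))) →
      ∃ W : Submodule F V, W ≤ LinearMap.range (T - 1) ∧ W ∈ T.invtSubmodule ∧ TS Q W ∧
        Module.finrank F ↥W = ii F r * s)

/-- TM-BLOCKMINUS: for `i` even, a space of dimension `i` with a nontrivial isometry of order `r`
is of minus type: no totally singular subspace of dimension `i / 2`. -/
def StBlockMinus : Prop :=
  ∀ (F : Type u) [Field F] [Fintype F] (V : Type v) [AddCommGroup V] [Module F V]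
    [FiniteDimensional F V] (r : ℕ) (Q : QuadraticForm F V) (T : Module.End F V),
    QCtx r Q T → Even (ii F r) → Module.finrank F V = ii F r → T ≠ 1 →
    ∀ L : Submodule F V, TS Q L → 2 * Module.finrank F ↥L < ii F r

/-- TM-TYPEU: for `i` even the non-fixed part `U = range (T - 1)`, `dim U = i A`, has type
`(-1) ^ A`: a totally singular subspace of half dimension iff `A` is even. -/
def StTypeU : Prop :=
  ∀ (F : Type u) [Field F] [Fintype F] (V : Type v) [AddCommGroup V] [Module F V]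
    [FiniteDimensional F V] (r : ℕ) (Q : QuadraticForm F V) (T : Module.End F V),
    QCtx r Q T → Even (ii F r) → ∀ A : ℕ,
    Module.finrank F ↥(LinearMap.range (T - 1)) = ii F r * A →
    (Even A → ∃ L : Submodule F V, L ≤ LinearMap.range (T - 1) ∧ TS Q L ∧
      2 * Module.finrank F ↥L = Module.finrank F ↥(LinearMap.range (T - 1))) ∧
    (Odd A → ∀ L : Submodule F V, L ≤ LinearMap.range (T - 1) → TS Q L →
      2 * Module.finrank F ↥L < Module.finrank F ↥(LinearMap.range (T - 1)))

/-! ## Counting totally singular subspaces of the minus-type space -/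

/-- TM-ZEROS: a nondegenerate quadratic space of dimension `2 e` without totally singular
subspaces of dimension `e` has `q^(2e-1) - q^e + q^(e-1)` singular vectors. -/
def StZerosM : Prop :=
  ∀ (F : Type u) [Field F] [Fintype F] (C : Type v) [AddCommGroup C] [Module F C]
    [FiniteDimensional F C] (Q : QuadraticForm F C) (e : ℕ),
    Module.finrank F C = 2 * e → (∀ x, (∀ y, QuadraticMap.polar ⇑Q x y = 0) → x = 0) →
    (∀ U : Submodule F C, TS Q U → Module.finrank F ↥U < e) →
    Nat.card {v : C // Q v = 0} + Fintype.card F ^ e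
      = Fintype.card F ^ (2 * e - 1) + Fintype.card F ^ (e - 1)

/-- TM-TUPLES: the number of linearly independent `m`-tuples of pairwise orthogonal singular
vectors of the minus-type space of dimension `2 k + 2`, `m ≤ k`. -/
def StTuplesM : Prop :=
  ∀ (F : Type u) [Field F] [Fintype F] (k m : ℕ) (a b : F), Aniso a b → m ≤ k →
    Nat.card {v : Fin m → (MI k → F) // LinearIndependent F v ∧
        (∀ i, Cfsg.quadFormMinus k F a b (v i) = 0) ∧
        ∀ i j, QuadraticMap.polar (Cfsg.quadFormMinus k F a b) (v i) (v j) = 0} =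
      ∏ j ∈ Finset.range m, (Fintype.card F ^ j *
        ((Fintype.card F ^ (k + 1 - j) + 1) * (Fintype.card F ^ (k - j) - 1)))

/-- TM-FIB: every totally singular `m`-space has `|GL_m(q)|` ordered bases. -/
def StFibM : Prop :=
  ∀ (F : Type u) [Field F] [Fintype F] (k m : ℕ) (a b : F),
    Nat.card {v : Fin m → (MI k → F) // LinearIndependent F v ∧
        (∀ i, Cfsg.quadFormMinus k F a b (v i) = 0) ∧
        ∀ i j, QuadraticMap.polar (Cfsg.quadFormMinus k F a b) (v i) (v j) = 0} =
      NM F k a b m * ∏ j ∈ Finset.range m, (Fintype.card F ^ m - Fintype.card F ^ j)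

/-! ## `r = 2 ≠ p` -/

/-- TM-INVONE: every isometry with `x * x = 1` fixes a totally singular `m`-space, `m ≤ k`. -/
def StInvOne : Prop :=
  ∀ (F : Type u) [Field F] [Fintype F] (k : ℕ) (a b : F) (m : ℕ), (2 : F) ≠ 0 → Aniso a b →
    m ≤ k → ∀ x : GL (MI k) F, x ∈ Cfsg.isometryGroup F (Cfsg.quadFormMinus k F a b) →
    x * x = 1 → FixM k a b m x

/-- TM-NEGEVEN: every isometry with `x * x = -1` fixes a totally singular `m`-space, `m ≤ k`
even. -/
def StNegEven : Prop :=
  ∀ (F : Type u) [Field F] [Fintype F] (k : ℕ) (a b : F) (m : ℕ), (2 : F) ≠ 0 → Aniso a b →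
    m ≤ k → Even m → ∀ x : GL (MI k) F,
    x ∈ Cfsg.isometryGroup F (Cfsg.quadFormMinus k F a b) →
    (x : Matrix (MI k) (MI k) F) * (x : Matrix (MI k) (MI k) F) = -1 → FixM k a b m x

/-- TM-NEGODD: the invariant subspaces of an isometry with `x * x = -1` have even dimension. -/
def StNegOdd : Prop :=
  ∀ (F : Type u) [Field F] [Fintype F] (k : ℕ) (a b : F), (2 : F) ≠ 0 → Aniso a b →
    ∀ x : GL (MI k) F, x ∈ Cfsg.isometryGroup F (Cfsg.quadFormMinus k F a b) →
    (x : Matrix (MI k) (MI k) F) * (x : Matrix (MI k) (MI k) F) = -1 →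
    ∀ W : Submodule F (MI k → F),
      W.map (Matrix.toLin' (x : Matrix (MI k) (MI k) F)) ≤ W → Even (Module.finrank F ↥W)

/-- TM-NEGMEM: if `Ω⁻` contains an element of square `-1` then `d = k + 1` is odd and
`q ≡ 7 (mod 8)`. -/
def StNegMem : Prop :=
  ∀ (F : Type u) [Field F] [Fintype F] (k : ℕ) (a b : F), (2 : F) ≠ 0 → Aniso a b →
    ∀ x : GL (MI k) F, x ∈ Cfsg.Geo.omegaGL (Cfsg.quadFormMinus k F a b) →
    (x : Matrix (MI k) (MI k) F) * (x : Matrix (MI k) (MI k) F) = -1 →
    Odd (k + 1) ∧ Fintype.card F % 8 = 7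

/-- TM-NEGEX: if `d = k + 1` is odd and `q ≡ 7 (mod 8)` then `Ω⁻` contains an element of square
`-1`. -/
def StNegEx : Prop :=
  ∀ (F : Type u) [Field F] [Fintype F] (k : ℕ) (a b : F), (2 : F) ≠ 0 → Aniso a b →
    Odd (k + 1) → Fintype.card F % 8 = 7 →
    ∃ x : GL (MI k) F, x ∈ Cfsg.Geo.omegaGL (Cfsg.quadFormMinus k F a b) ∧
      (x : Matrix (MI k) (MI k) F) * (x : Matrix (MI k) (MI k) F) = -1

end Cfsg.Agent.H77.Tm
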