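import Mathlib
import Cfsg.Prelude.Def_GeometricClasses
import Cfsg.Prelude.Def_ClassicalGeometry
import Cfsg.Agent.H42.SpnDefs

/-!
# S5975 team project (helper77): definitions and piece statements

`PSp_{2d}(q)` and the field-extension subgroups `N_Sp(K)`, `K` a field subalgebra of prime degree
`k` of the `2d × 2d` matrices whose elements are self-adjoint for the standard alternating form
`f` and satisfy `f(a v, v) = 0` (type `Sp_{2d/k}(q^k)`).  All order-`r` elements are conjugate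
into `N_Sp(K)` iff `r = 2`, `d = 2`, `k = 2` and `q` is odd.

Notation: `perp`, `stdB` (the standard form as a bilinear map, `stdB_apply : stdB d F u v =
Cfsg.sympForm d F u v`), `cc F r` are those of helper45 / helper42 (`H42.SpnDefs`).
-/

set_option autoImplicit false

namespace Cfsg.Agent.H77.Fx

open Cfsg.Agent.H45 Cfsg.Agent.H42.Spd Module

universe u

/-- Vectors of the symplectic space of dimension `2 d`. -/
abbrev Vec (d : ℕ) (F : Type u) : Type u := Fin d ⊕ Fin d → F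

/-- `2 d × 2 d` matrices. -/
abbrev Mat (d : ℕ) (F : Type u) : Type u := Matrix (Fin d ⊕ Fin d) (Fin d ⊕ Fin d) F

/-- The standing hypotheses on the field subalgebra `K` (as in the statement S5975). -/
structure KHyp {F : Type u} [Field F] (d k : ℕ) (K : Subalgebra F (Mat d F)) : Prop where
  field : Cfsg.Geo.IsFieldSubalgebra k K
  sa : Cfsg.Geo.IsSelfAdjointFor (Cfsg.sympForm d F) K
  alt : ∀ a ∈ K, ∀ v : Vec d F, Cfsg.sympForm d F (Matrix.mulVec a v) v = 0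

/-- The fixed space of a matrix. -/
noncomputable abbrev fixSp {F : Type u} [Field F] (d : ℕ) (y : Mat d F) : Submodule F (Vec d F) :=
  LinearMap.ker (Matrix.toLin' y - 1)

/-- The order of `Sp_{2m}(Q)`. -/
def spOrd (Q m : ℕ) : ℕ := Q ^ (m ^ 2) * ∏ i ∈ Finset.range m, (Q ^ (2 * (i + 1)) - 1)

/-! ## The `K`-structure -/

/-- S5975-KDVD: a `K`-invariant subspace has dimension divisible by `k`. -/
def StKDvd : Prop :=
  ∀ (F : Type u) [Field F] [Fintype F] (d k : ℕ) (K : Subalgebra F (Mat d F)),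
    Cfsg.Geo.IsFieldSubalgebra k K → ∀ W : Submodule F (Vec d F),
    (∀ a ∈ K, ∀ w ∈ W, Matrix.mulVec a w ∈ W) → k ∣ Module.finrank F W

/-- S5975-KDIM: a `K`-invariant nondegenerate subspace has dimension divisible by `2 k`. -/
def StKDim : Prop :=
  ∀ (F : Type u) [Field F] [Fintype F] (d k : ℕ) (K : Subalgebra F (Mat d F)),
    KHyp d k K → ∀ W : Submodule F (Vec d F),
    (∀ a ∈ K, ∀ w ∈ W, Matrix.mulVec a w ∈ W) → W ⊓ perp (stdB d F) W = ⊥ →
    2 * k ∣ Module.finrank F W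

/-- S5975-SEMI: an element of the normalizer of `K` that does not centralize `K` has a fixed
space of dimension at most `2 d / k`. -/
def StSemi : Prop :=
  ∀ (F : Type u) [Field F] [Fintype F] (d k : ℕ) (K : Subalgebra F (Mat d F)),
    Cfsg.Geo.IsFieldSubalgebra k K → k.Prime →
    ∀ y : Matrix.GeneralLinearGroup (Fin d ⊕ Fin d) F, y ∈ Cfsg.Geo.subalgebraNormalizer K →
    (∃ a ∈ K, (y : Mat d F) * a ≠ a * (y : Mat d F)) →
    k * Module.finrank F ↥(fixSp d (y : Mat d F)) ≤ 2 * d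

/-- S5975-AUT: an element of the normalizer of `K` whose `r`-th power is scalar, `r ≠ k` prime,
centralizes `K`. -/
def StAut : Prop :=
  ∀ (F : Type u) [Field F] [Fintype F] (d k : ℕ) (K : Subalgebra F (Mat d F)),
    Cfsg.Geo.IsFieldSubalgebra k K → k.Prime →
    ∀ (y : Matrix.GeneralLinearGroup (Fin d ⊕ Fin d) F) (r : ℕ) (z : F),
    y ∈ Cfsg.Geo.subalgebraNormalizer K → r.Prime → r ≠ k →
    ((y ^ r : Matrix.GeneralLinearGroup (Fin d ⊕ Fin d) F) : Mat d F) = z • (1 : Mat d F) →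
    ∀ a ∈ K, (y : Mat d F) * a = a * (y : Mat d F)

/-- S5975-CONJK: conjugating `K` by a symplectic matrix. -/
def StConjK : Prop :=
  ∀ (F : Type u) [Field F] [Fintype F] (d k : ℕ) (K : Subalgebra F (Mat d F)),
    KHyp d k K → ∀ g : Matrix.GeneralLinearGroup (Fin d ⊕ Fin d) F, g ∈ Cfsg.spGL d F →
    ∃ K' : Subalgebra F (Mat d F), KHyp d k K' ∧
      ∀ x : Matrix.GeneralLinearGroup (Fin d ⊕ Fin d) F,
        g⁻¹ * x * g ∈ Cfsg.Geo.subalgebraNormalizer K → x ∈ Cfsg.Geo.subalgebraNormalizer K'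

/-- S5975-TRFORM (Mathlib only): an `F`-bilinear form for which the scalars of a finite extension
`L` are self-adjoint is the trace of an `L`-bilinear form. -/
def StTrForm : Prop :=
  ∀ (F : Type u) [Field F] [Fintype F] (L : Type u) [Field L] [Fintype L] [Algebra F L]
    (V : Type u) [AddCommGroup V] [Module F V] [Module L V] [IsScalarTower F L V]
    [FiniteDimensional F V] (f : V →ₗ[F] V →ₗ[F] F),
    (∀ (c : L) (u v : V), f (c • u) v = f u (c • v)) →
    ∃ B : V →ₗ[L] V →ₗ[L] L, (∀ u v, f u v = Algebra.trace F L (B u v)) ∧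
      ((∀ (c : L) (v : V), f (c • v) v = 0) → ∀ v, B v v = 0) ∧
      ((∀ u, (∀ v, f u v = 0) → u = 0) → ∀ u, (∀ v, B u v = 0) → u = 0)

/-- S5975-SYMPBASIS: a nondegenerate alternating form over a finite field is the standard one
in suitable coordinates. -/
def StSympBasis : Prop :=
  ∀ (L : Type u) [Field L] [Fintype L] (V : Type u) [AddCommGroup V] [Module L V]
    [FiniteDimensional L V] (B : V →ₗ[L] V →ₗ[L] L),
    (∀ v, B v v = 0) → (∀ u, (∀ v, B u v = 0) → u = 0) →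
    ∃ (m : ℕ) (e : (Fin m ⊕ Fin m → L) ≃ₗ[L] V),
      ∀ w w' : Fin m ⊕ Fin m → L, B (e w) (e w') = Cfsg.sympForm m L w w'

/-- S5975-STRUCT: `F^{2d}` is `L^{2m}` for a field `L ≅ K` with `q^k` elements, `d = k m`, and
the form is the trace of the standard alternating form over `L`. -/
def StStruct : Prop :=
  ∀ (F : Type u) [Field F] [Fintype F] (d k : ℕ) (K : Subalgebra F (Mat d F)),
    KHyp d k K → k.Prime →
    ∃ (m : ℕ) (L : Type u) (_ : Field L) (_ : Fintype L) (_ : Algebra F L)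
      (ψ : L →ₐ[F] Mat d F) (φ : (Fin m ⊕ Fin m → L) ≃ₗ[F] Vec d F),
      d = k * m ∧ Fintype.card L = Fintype.card F ^ k ∧ (∀ c : L, ψ c ∈ K) ∧
      (∀ a ∈ K, ∃ c : L, ψ c = a) ∧
      (∀ (c : L) (w : Fin m ⊕ Fin m → L), φ (c • w) = Matrix.mulVec (ψ c) (φ w)) ∧
      (∀ w w' : Fin m ⊕ Fin m → L,
        Cfsg.sympForm d F (φ w) (φ w') = Algebra.trace F L (Cfsg.sympForm m L w w'))

/-- S5975-EMB: `N_Sp(K)` contains a copy of `Sp_{2m}(q^k)`, `d = k m`. -/
def StEmb : Prop :=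
  ∀ (F : Type u) [Field F] [Fintype F] (d k : ℕ) (K : Subalgebra F (Mat d F)),
    KHyp d k K → k.Prime →
    ∃ m : ℕ, d = k * m ∧
      spOrd (Fintype.card F ^ k) m ∣
        Nat.card ↥(Cfsg.Geo.subalgebraNormalizer K ⊓ Cfsg.spGL d F)

/-- S5975-INVA: for `k = 2` the normalizer of `K` in `Sp` contains a non-scalar involution
(a `K`-semilinear one). -/
def StInvA : Prop :=
  ∀ (F : Type u) [Field F] [Fintype F] (d : ℕ) (K : Subalgebra F (Mat d F)),
    KHyp d 2 K →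
    ∃ y : Matrix.GeneralLinearGroup (Fin d ⊕ Fin d) F, y ∈ Cfsg.spGL d F ∧
      y ∈ Cfsg.Geo.subalgebraNormalizer K ∧ (y : Mat d F) * (y : Mat d F) = 1 ∧
      ∀ z : F, (y : Mat d F) ≠ z • (1 : Mat d F)

/-- S5975-INVB: the normalizer of `K` in `Sp` contains an element of square `-1`. -/
def StInvB : Prop :=
  ∀ (F : Type u) [Field F] [Fintype F] (d k : ℕ) (K : Subalgebra F (Mat d F)),
    KHyp d k K → k.Prime →
    ∃ y : Matrix.GeneralLinearGroup (Fin d ⊕ Fin d) F, y ∈ Cfsg.spGL d F ∧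
      y ∈ Cfsg.Geo.subalgebraNormalizer K ∧ (y : Mat d F) * (y : Mat d F) = -1

/-! ## Conjugacy of involutions modulo scalars in `Sp_4(q)`, `q` odd -/

/-- S5975-CONJ1: non-scalar involutions of `Sp_4(F)` are conjugate (`2 ≠ 0`). -/
def StConj1 : Prop :=
  ∀ (F : Type u) [Field F] [Fintype F], (2 : F) ≠ 0 →
    ∀ x y : Matrix.GeneralLinearGroup (Fin 2 ⊕ Fin 2) F, x ∈ Cfsg.spGL 2 F → y ∈ Cfsg.spGL 2 F →
    (x : Mat 2 F) * (x : Mat 2 F) = 1 → (y : Mat 2 F) * (y : Mat 2 F) = 1 →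
    (∀ z : F, (x : Mat 2 F) ≠ z • (1 : Mat 2 F)) → (∀ z : F, (y : Mat 2 F) ≠ z • (1 : Mat 2 F)) →
    ∃ g ∈ Cfsg.spGL 2 F, g⁻¹ * x * g = y

/-- S5975-CONJ2: symplectic matrices of square `-1` are conjugate (`2 ≠ 0`). -/
def StConj2 : Prop :=
  ∀ (F : Type u) [Field F] [Fintype F] (d : ℕ), (2 : F) ≠ 0 →
    ∀ x y : Matrix.GeneralLinearGroup (Fin d ⊕ Fin d) F, x ∈ Cfsg.spGL d F → y ∈ Cfsg.spGL d F →
    (x : Mat d F) * (x : Mat d F) = -1 → (y : Mat d F) * (y : Mat d F) = -1 →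
    ∃ g ∈ Cfsg.spGL d F, g⁻¹ * x * g = y

/-! ## Witnesses -/

/-- S5975-TRANSV: a symplectic transvection: order `p`, non-scalar, `x - 1` of rank one. -/
def StTransv : Prop :=
  ∀ (F : Type u) [Field F] [Fintype F] (p : ℕ) [Fact p.Prime] [CharP F p] (d : ℕ), 1 ≤ d →
    ∃ x : Matrix.GeneralLinearGroup (Fin d ⊕ Fin d) F, x ∈ Cfsg.spGL d F ∧ x ^ p = 1 ∧
      (∀ z : F, (x : Mat d F) ≠ z • (1 : Mat d F)) ∧
      Module.finrank F ↥(LinearMap.range (Matrix.toLin' (x : Mat d F) - 1)) = 1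

/-- S5975-INVOL: the involution `-1` on a hyperbolic plane, `1` on its orthogonal. -/
def StInvol : Prop :=
  ∀ (F : Type u) [Field F] [Fintype F] (d : ℕ), 2 ≤ d → (2 : F) ≠ 0 →
    ∃ x : Matrix.GeneralLinearGroup (Fin d ⊕ Fin d) F, x ∈ Cfsg.spGL d F ∧
      (x : Mat d F) * (x : Mat d F) = 1 ∧ (∀ z : F, (x : Mat d F) ≠ z • (1 : Mat d F)) ∧
      fixSp d (x : Mat d F) ⊓ perp (stdB d F) (fixSp d (x : Mat d F)) = ⊥ ∧
      Module.finrank F ↥(fixSp d (x : Mat d F)) + 2 = 2 * d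

/-- S5975-MINEL: an element of odd prime order `r ≠ p` with `[V, x]` of the minimal dimension
`c = cc F r`. -/
def StMinEl : Prop :=
  ∀ (F : Type u) [Field F] [Fintype F] (p : ℕ) [Fact p.Prime] [CharP F p] (r : ℕ), r.Prime →
    r ≠ 2 → r ≠ p → ∀ d : ℕ, cc F r ≤ 2 * d →
    ∃ x : Matrix.GeneralLinearGroup (Fin d ⊕ Fin d) F, x ∈ Cfsg.spGL d F ∧ x ^ r = 1 ∧
      (∀ z : F, (x : Mat d F) ≠ z • (1 : Mat d F)) ∧
      fixSp d (x : Mat d F) ⊓ perp (stdB d F) (fixSp d (x : Mat d F)) = ⊥ ∧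
      Module.finrank F ↥(fixSp d (x : Mat d F)) + cc F r = 2 * d

/-- S5975-IDX: the arithmetic of the index: if `r` divides the index of a subgroup `H ∩ Sp` whose
order is divisible by the order of `Sp_{2m}(q^k)`, `d = k m`, then `c ≤ 2 d` and `2 k ∤ c`. -/
def StIdx : Prop :=
  ∀ (F : Type u) [Field F] [Fintype F] (p : ℕ) [Fact p.Prime] [CharP F p] (d k m r : ℕ)
    (H : Subgroup (Matrix.GeneralLinearGroup (Fin d ⊕ Fin d) F)),
    r.Prime → r ≠ 2 → r ≠ p → d = k * m → 0 < k →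
    spOrd (Fintype.card F ^ k) m ∣ Nat.card ↥(H ⊓ Cfsg.spGL d F) →
    r ∣ H.relIndex (Cfsg.spGL d F) →
    cc F r ≤ 2 * d ∧ ¬ (2 * k ∣ cc F r)

end Cfsg.Agent.H77.Fx
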