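import Mathlib
import Cfsg.Prelude.Def_GeometricClasses
import Cfsg.Prelude.Def_ClassicalGeometry
import Cfsg.Agent.H77.FxDefs

/-!
# S5980 team project (helper77): definitions and piece statements

`PSp_{2d}(q)`, `q` odd, and the stabilizers `T` of tensor decompositions of the standard
alternating form into an alternating form `f₁` on `F^a` (`a` even) and a symmetric form `f₂` on
`F^b` (`b ≥ 3`), `2 d = a b` (type `Sp_a(q) ⊗ O_b(q)`).  All order-`r` elements are conjugate into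
`T` iff `r = 2` and `a = 2`.

Notation of `Cfsg.Agent.H77.FxDefs` (`Vec`, `Mat`, `fixSp`; `cc F r` of helper42).
-/

set_option autoImplicit false
open scoped MatrixGroups
open scoped Matrix
open scoped Kronecker

namespace Cfsg.Agent.H77.Tp

open Cfsg.Agent.H45 Cfsg.Agent.H42.Spd Cfsg.Agent.H77.Fx Module

universe u

/-- The standing hypotheses on the tensor structure (as in the statement S5980). -/
structure THyp {F : Type u} [Field F] (d a b : ℕ) (e : (Fin d ⊕ Fin d) ≃ Fin a × Fin b)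
    (P : GL (Fin d ⊕ Fin d) F) (f₁ : (Fin a → F) → (Fin a → F) → F)
    (f₂ : (Fin b → F) → (Fin b → F) → F) : Prop where
  sym : Cfsg.Geo.IsSymplecticForm f₁
  orth : Cfsg.Geo.IsSymmetricForm f₂
  ten : Cfsg.Geo.IsTensorFormStructure id (Cfsg.sympForm d F) f₁ f₂ e P

/-- The matrices `M` with `A M Bᵀ = M` (the fixed vectors of `A ⊗ B`). -/
def intw {F : Type u} [Field F] {a b : ℕ} (A : Matrix (Fin a) (Fin a) F)
    (B : Matrix (Fin b) (Fin b) F) : Submodule F (Matrix (Fin a) (Fin b) F) where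
  carrier := {M | A * M * Bᵀ = M}
  add_mem' := by
    intro M N hM hN
    show A * (M + N) * Bᵀ = M + N
    rw [Matrix.mul_add, Matrix.add_mul, hM, hN]
  zero_mem' := by
    show A * 0 * Bᵀ = 0
    rw [Matrix.mul_zero, Matrix.zero_mul]
  smul_mem' := by
    intro c M hM
    show A * (c • M) * Bᵀ = c • M
    rw [Matrix.mul_smul, Matrix.smul_mul, hM]

/-! ## Tensor products of matrices -/

/-- S5980-GLUE: an element conjugate into the tensor product subgroup is a conjugate of a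
Kronecker product, and conversely. -/
def StGlue : Prop :=
  ∀ (F : Type u) [Field F] (d a b : ℕ) (e : (Fin d ⊕ Fin d) ≃ Fin a × Fin b)
    (P x g : GL (Fin d ⊕ Fin d) F),
    (g⁻¹ * x * g ∈ Cfsg.Geo.tensorProductSubgroup a b e P →
      ∃ (A : Matrix (Fin a) (Fin a) F) (B : Matrix (Fin b) (Fin b) F),
        IsUnit A.det ∧ IsUnit B.det ∧
        (x : Mat d F) * ((g * P : GL (Fin d ⊕ Fin d) F) : Mat d F) =
          ((g * P : GL (Fin d ⊕ Fin d) F) : Mat d F) * Matrix.reindex e.symm e.symm (A ⊗ₖ B)) ∧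
    (∀ (A : Matrix (Fin a) (Fin a) F) (B : Matrix (Fin b) (Fin b) F),
      IsUnit A.det → IsUnit B.det →
      (x : Mat d F) * ((g * P : GL (Fin d ⊕ Fin d) F) : Mat d F) =
          ((g * P : GL (Fin d ⊕ Fin d) F) : Mat d F) * Matrix.reindex e.symm e.symm (A ⊗ₖ B) →
      g⁻¹ * x * g ∈ Cfsg.Geo.tensorProductSubgroup a b e P)

/-- S5980-TRI: ranks and powers of a conjugate of a Kronecker product. -/
def StTri : Prop :=
  ∀ (F : Type u) [Field F] (d a b : ℕ) (e : (Fin d ⊕ Fin d) ≃ Fin a × Fin b)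
    (x Q : Mat d F) (A : Matrix (Fin a) (Fin a) F) (B : Matrix (Fin b) (Fin b) F),
    0 < a → 0 < b → IsUnit Q.det → IsUnit A.det → IsUnit B.det →
    x * Q = Q * Matrix.reindex e.symm e.symm (A ⊗ₖ B) →
    (x - 1).rank = (A ⊗ₖ B - 1).rank ∧
    (∀ k : ℕ, x ^ k = 1 → (A ⊗ₖ B) ^ k = 1) ∧
    (∀ (k : ℕ) (c : F), (A ⊗ₖ B) ^ k = c • 1 → x ^ k = c • 1) ∧
    ((¬ ∃ α : F, A = α • (1 : Matrix (Fin a) (Fin a) F)) → b ≤ (x - 1).rank) ∧
    ((¬ ∃ β : F, B = β • (1 : Matrix (Fin b) (Fin b) F)) → a ≤ (x - 1).rank) ∧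
    (∀ α : F, A = α • (1 : Matrix (Fin a) (Fin a) F) →
      (x - 1).rank = a * (α • B - 1).rank ∧ ∀ k : ℕ, x ^ k = 1 → (α • B) ^ k = 1) ∧
    (∀ β : F, B = β • (1 : Matrix (Fin b) (Fin b) F) →
      (x - 1).rank = b * (β • A - 1).rank ∧ ∀ k : ℕ, x ^ k = 1 → (β • A) ^ k = 1) ∧
    ((∃ α : F, A = α • (1 : Matrix (Fin a) (Fin a) F)) →
      (∃ β : F, B = β • (1 : Matrix (Fin b) (Fin b) F)) → ∃ z : F, x = z • (1 : Mat d F))

/-- S5980-KRONONE: a Kronecker product equal to `1` has scalar factors. -/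
def StKronOne : Prop :=
  ∀ (F : Type u) [Field F] (a b : ℕ) (M : Matrix (Fin a) (Fin a) F)
    (N : Matrix (Fin b) (Fin b) F), 0 < a → 0 < b →
    M ⊗ₖ N = 1 → ∃ c : F, c ≠ 0 ∧ M = c • 1 ∧ N = c⁻¹ • 1

/-! ## Forms -/

/-- S5980-GRAM: the Gram matrices of the two forms. -/
def StGram : Prop :=
  ∀ (F : Type u) [Field F] (n : ℕ) (f : (Fin n → F) → (Fin n → F) → F),
    (Cfsg.Geo.IsSymmetricForm f →
      (Cfsg.Geo.gramMatrix f)ᵀ = Cfsg.Geo.gramMatrix f ∧ IsUnit (Cfsg.Geo.gramMatrix f).det ∧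
      ∀ x y : Fin n → F, f x y = x ⬝ᵥ (Cfsg.Geo.gramMatrix f *ᵥ y)) ∧
    (Cfsg.Geo.IsSymplecticForm f →
      (Cfsg.Geo.gramMatrix f)ᵀ = -Cfsg.Geo.gramMatrix f ∧ (∀ i, Cfsg.Geo.gramMatrix f i i = 0) ∧
      IsUnit (Cfsg.Geo.gramMatrix f).det ∧
      ∀ x y : Fin n → F, f x y = x ⬝ᵥ (Cfsg.Geo.gramMatrix f *ᵥ y))

/-- S5980-FORM: the factors of a symplectic element of the tensor product subgroup are
similarities of the two forms, with inverse factors. -/
def StForm : Prop :=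
  ∀ (F : Type u) [Field F] (d a b : ℕ) (e : (Fin d ⊕ Fin d) ≃ Fin a × Fin b)
    (P : GL (Fin d ⊕ Fin d) F) (f₁ : (Fin a → F) → (Fin a → F) → F)
    (f₂ : (Fin b → F) → (Fin b → F) → F), THyp d a b e P f₁ f₂ → 0 < a → 0 < b →
    ∀ x g : GL (Fin d ⊕ Fin d) F, x ∈ Cfsg.spGL d F → g ∈ Cfsg.spGL d F →
    ∀ (A : Matrix (Fin a) (Fin a) F) (B : Matrix (Fin b) (Fin b) F),
    (x : Mat d F) * ((g * P : GL (Fin d ⊕ Fin d) F) : Mat d F) =
      ((g * P : GL (Fin d ⊕ Fin d) F) : Mat d F) * Matrix.reindex e.symm e.symm (A ⊗ₖ B) →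
    ∃ κ : F, κ ≠ 0 ∧ Aᵀ * Cfsg.Geo.gramMatrix f₁ * A = κ • Cfsg.Geo.gramMatrix f₁ ∧
      Bᵀ * Cfsg.Geo.gramMatrix f₂ * B = κ⁻¹ • Cfsg.Geo.gramMatrix f₂

/-- S5980-LIFT: isometries `A` of `f₁` and `B` of `f₂` give a symplectic element of the tensor
product subgroup. -/
def StLift : Prop :=
  ∀ (F : Type u) [Field F] (d a b : ℕ) (e : (Fin d ⊕ Fin d) ≃ Fin a × Fin b)
    (P : GL (Fin d ⊕ Fin d) F) (f₁ : (Fin a → F) → (Fin a → F) → F)
    (f₂ : (Fin b → F) → (Fin b → F) → F), THyp d a b e P f₁ f₂ →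
    ∀ (A : Matrix (Fin a) (Fin a) F) (B : Matrix (Fin b) (Fin b) F),
    IsUnit A.det → IsUnit B.det →
    Aᵀ * Cfsg.Geo.gramMatrix f₁ * A = Cfsg.Geo.gramMatrix f₁ →
    Bᵀ * Cfsg.Geo.gramMatrix f₂ * B = Cfsg.Geo.gramMatrix f₂ →
    ∃ y : GL (Fin d ⊕ Fin d) F, y ∈ Cfsg.spGL d F ∧
      y ∈ Cfsg.Geo.tensorProductSubgroup a b e P ∧
      (y : Mat d F) * (P : Mat d F) = (P : Mat d F) * Matrix.reindex e.symm e.symm (A ⊗ₖ B)

/-- S5980-PARITY: an orthogonal matrix of odd order moves an even-dimensional space. -/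
def StParity : Prop :=
  ∀ (F : Type u) [Field F] (b : ℕ) (G Y : Matrix (Fin b) (Fin b) F) (r : ℕ),
    Gᵀ = G → IsUnit G.det → Yᵀ * G * Y = G → Odd r → Y ^ r = 1 → Even (Y - 1).rank

/-- S5980-ORTHINV: orthogonal involutions with a fixed space of prescribed dimension. -/
def StOrthInv : Prop :=
  ∀ (F : Type u) [Field F] (b : ℕ) (f : (Fin b → F) → (Fin b → F) → F),
    (2 : F) ≠ 0 → Cfsg.Geo.IsSymmetricForm f → ∀ j : ℕ, j ≤ b →
    ∃ D : Matrix (Fin b) (Fin b) F, D * D = 1 ∧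
      Dᵀ * Cfsg.Geo.gramMatrix f * D = Cfsg.Geo.gramMatrix f ∧ (D - 1).rank = b - j

/-! ## The fixed space of a Kronecker product of matrices of order `r` -/

/-- S5980-VEC: the fixed vectors of `A ⊗ B` are the matrices `M` with `A M Bᵀ = M`. -/
def StVec : Prop :=
  ∀ (F : Type u) [Field F] (a b : ℕ) (A : Matrix (Fin a) (Fin a) F)
    (B : Matrix (Fin b) (Fin b) F),
    (A ⊗ₖ B - 1).rank + Module.finrank F ↥(intw A B) = a * b

/-- S5980-GEN: a fixed-point-free linear map `T` of prime order `r` on `U`: `U` is generated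
by at most `dim U / i` vectors as a module over `F[T]`, `i` the order of `|F|` modulo `r`. -/
def StGen : Prop :=
  ∀ (F : Type u) [Field F] [Fintype F] (U : Type u) [AddCommGroup U] [Module F U]
    [FiniteDimensional F U] (T : Module.End F U) (r : ℕ), r.Prime → (r : F) ≠ 0 → T ^ r = 1 →
    LinearMap.ker (T - 1) = ⊥ →
    ∃ (v : ℕ) (w : Fin v → U), orderOf (Fintype.card F : ZMod r) * v ≤ Module.finrank F U ∧
      Submodule.span F (Set.range (fun p : ℕ × Fin v => (T ^ p.1) (w p.2))) = ⊤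

/-- S5980-INTWLIN: the dimension of the space of intertwiners of two linear maps of order
dividing `r`. -/
def StIntwLin : Prop :=
  ∀ (F : Type u) [Field F] [Fintype F] (V U : Type u) [AddCommGroup V] [Module F V]
    [FiniteDimensional F V] [AddCommGroup U] [Module F U] [FiniteDimensional F U]
    (S : Module.End F V) (T : Module.End F U) (r : ℕ), r.Prime → (r : F) ≠ 0 → S ^ r = 1 →
    T ^ r = 1 → ∀ W : Submodule F (U →ₗ[F] V), (∀ M ∈ W, S ∘ₗ M = M ∘ₗ T) →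
    orderOf (Fintype.card F : ZMod r) * Module.finrank F ↥W ≤
      orderOf (Fintype.card F : ZMod r) *
        (Module.finrank F ↥(LinearMap.ker (S - 1)) * Module.finrank F ↥(LinearMap.ker (T - 1))) +
      Module.finrank F ↥(LinearMap.range (S - 1)) * Module.finrank F ↥(LinearMap.range (T - 1))

/-- S5980-INTWMAT: the matrix form of S5980-INTWLIN. -/
def StIntwMat : Prop :=
  ∀ (F : Type u) [Field F] [Fintype F] (a b r : ℕ) (A : Matrix (Fin a) (Fin a) F)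
    (B : Matrix (Fin b) (Fin b) F), r.Prime → (r : F) ≠ 0 → A ^ r = 1 → B ^ r = 1 →
    orderOf (Fintype.card F : ZMod r) * Module.finrank F ↥(intw A B) ≤
      orderOf (Fintype.card F : ZMod r) * ((a - (A - 1).rank) * (b - (B - 1).rank)) +
      (A - 1).rank * (B - 1).rank

/-- S5980-ARITH: the final arithmetic contradiction. -/
def StArith : Prop :=
  ∀ a b i u v c : ℕ, Even a → 3 ≤ b → 2 ≤ i → 1 ≤ u → 1 ≤ v → i * u ≤ a → i * v ≤ b →
    (c = if Even i then i else 2 * i) →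
    i * (a * b) ≤ i * (c + (a - i * u) * (b - i * v)) + (i * u) * (i * v) → False

/-! ## The main pieces -/

/-- S5980-ODD: for an odd prime `r ≠ p`, a symplectic element of order `r` with `[V, x]` of the
minimal dimension `cc F r` is not conjugate into the tensor product subgroup. -/
def StOddOut : Prop :=
  ∀ (F : Type u) [Field F] [Fintype F] (p : ℕ) [Fact p.Prime] [CharP F p] (d a b : ℕ)
    (e : (Fin d ⊕ Fin d) ≃ Fin a × Fin b) (P : GL (Fin d ⊕ Fin d) F)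
    (f₁ : (Fin a → F) → (Fin a → F) → F) (f₂ : (Fin b → F) → (Fin b → F) → F),
    THyp d a b e P f₁ f₂ → Even a → 2 ≤ a → 3 ≤ b →
    ∀ r : ℕ, r.Prime → r ≠ 2 → r ≠ p →
    ∀ x g : GL (Fin d ⊕ Fin d) F, x ∈ Cfsg.spGL d F → g ∈ Cfsg.spGL d F → x ^ r = 1 →
    (∀ z : F, (x : Mat d F) ≠ z • (1 : Mat d F)) →
    Module.finrank F ↥(fixSp d (x : Mat d F)) + cc F r = 2 * d →
    g⁻¹ * x * g ∉ Cfsg.Geo.tensorProductSubgroup a b e P

/-- S5980-INVMODEL: symplectic involutions in the tensor product subgroup with fixed space of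
dimension `a j`. -/
def StInvModel : Prop :=
  ∀ (F : Type u) [Field F] (d a b : ℕ) (e : (Fin d ⊕ Fin d) ≃ Fin a × Fin b)
    (P : GL (Fin d ⊕ Fin d) F) (f₁ : (Fin a → F) → (Fin a → F) → F)
    (f₂ : (Fin b → F) → (Fin b → F) → F), THyp d a b e P f₁ f₂ → (2 : F) ≠ 0 → 0 < a → 0 < b →
    ∀ j : ℕ, j ≤ b →
    ∃ y : GL (Fin d ⊕ Fin d) F, y ∈ Cfsg.spGL d F ∧
      y ∈ Cfsg.Geo.tensorProductSubgroup a b e P ∧ (y : Mat d F) * (y : Mat d F) = 1 ∧
      Module.finrank F ↥(fixSp d (y : Mat d F)) = a * j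

/-- S5980-NEGMODEL: for `a = 2` the tensor product subgroup contains a symplectic element of
square `-1`. -/
def StNegModel : Prop :=
  ∀ (F : Type u) [Field F] (d b : ℕ) (e : (Fin d ⊕ Fin d) ≃ Fin 2 × Fin b)
    (P : GL (Fin d ⊕ Fin d) F) (f₁ : (Fin 2 → F) → (Fin 2 → F) → F)
    (f₂ : (Fin b → F) → (Fin b → F) → F), THyp d 2 b e P f₁ f₂ → 0 < b →
    ∃ y : GL (Fin d ⊕ Fin d) F, y ∈ Cfsg.spGL d F ∧
      y ∈ Cfsg.Geo.tensorProductSubgroup 2 b e P ∧ (y : Mat d F) * (y : Mat d F) = -1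

/-- S5980-CONJINV: symplectic involutions with fixed spaces of the same dimension are
conjugate. -/
def StConjInv : Prop :=
  ∀ (F : Type u) [Field F] [Fintype F] (d : ℕ), (2 : F) ≠ 0 →
    ∀ x y : GL (Fin d ⊕ Fin d) F, x ∈ Cfsg.spGL d F → y ∈ Cfsg.spGL d F →
    (x : Mat d F) * (x : Mat d F) = 1 → (y : Mat d F) * (y : Mat d F) = 1 →
    Module.finrank F ↥(fixSp d (x : Mat d F)) = Module.finrank F ↥(fixSp d (y : Mat d F)) →
    ∃ g ∈ Cfsg.spGL d F, g⁻¹ * x * g = y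

/-- S5980-INVDIM: the fixed space of a non-scalar symplectic involution has dimension `2 j`,
`0 < j < d`. -/
def StInvDim : Prop :=
  ∀ (F : Type u) [Field F] [Fintype F] (d : ℕ), (2 : F) ≠ 0 →
    ∀ x : GL (Fin d ⊕ Fin d) F, x ∈ Cfsg.spGL d F → (x : Mat d F) * (x : Mat d F) = 1 →
    (∀ z : F, (x : Mat d F) ≠ z • (1 : Mat d F)) →
    ∃ j : ℕ, 1 ≤ j ∧ j < d ∧ Module.finrank F ↥(fixSp d (x : Mat d F)) = 2 * j

/-- S5980-IDXLE: a prime `r ≠ 2, p` dividing the index of a subgroup of `Sp` has `cc F r ≤ 2 d`. -/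
def StIdxLe : Prop :=
  ∀ (F : Type u) [Field F] [Fintype F] (p : ℕ) [Fact p.Prime] [CharP F p] (d r : ℕ)
    (H : Subgroup (GL (Fin d ⊕ Fin d) F)), r.Prime → r ≠ 2 → r ≠ p →
    r ∣ H.relIndex (Cfsg.spGL d F) → cc F r ≤ 2 * d

end Cfsg.Agent.H77.Tp
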