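import Mathlib
import Cfsg.Agent.H42.SpdDefs

/-!
# helper77: piece SPD-COMPL of S5961 (helper42's project)
-/

set_option autoImplicit false

namespace Cfsg.Agent.H77.Spd

open Cfsg.Agent.H45 Cfsg.Agent.H42.Spd Module

universe u v

theorem compl : StCompl.{u, v} := by
  intro F _ _ V _ _ _ B T hd U W hU hW hUW
  obtain ⟨hUinv, hUnd⟩ := hU
  obtain ⟨hWinv, hWnd⟩ := hW
  have hTU : ∀ x ∈ U, T x ∈ U := (Module.End.mem_invtSubmodule_iff_forall_mem_of_mem (f := T)).mp hUinv
  have hTW : ∀ x ∈ W, T x ∈ W := (Module.End.mem_invtSubmodule_iff_forall_mem_of_mem (f := T)).mp hWinv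
  have hPinv : perp B U ∈ T.invtSubmodule := hd.perp_invt U hUinv
  have hTP : ∀ x ∈ perp B U, T x ∈ perp B U :=
    (Module.End.mem_invtSubmodule_iff_forall_mem_of_mem (f := T)).mp hPinv
  have hcompl := isCompl_perp B U hUnd
  have hsup : U ⊔ (W ⊓ perp B U) = W := by
    rw [inf_comm, ← sup_inf_assoc_of_le _ hUW, hcompl.sup_eq_top, top_inf_eq]
  have hinf : U ⊓ (W ⊓ perp B U) = ⊥ := by
    rw [eq_bot_iff, ← hUnd]
    exact inf_le_inf_left _ inf_le_right
  have hker : ∀ x, x ∈ LinearMap.ker (T - 1) ↔ T x = x := by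
    intro x
    rw [LinearMap.mem_ker, LinearMap.sub_apply, Module.End.one_apply, sub_eq_zero]
  refine ⟨⟨?_, ?_⟩, hsup, ?_, ?_⟩
  · rw [Module.End.mem_invtSubmodule]
    rintro x ⟨hx1, hx2⟩
    exact ⟨hTW x hx1, hTP x hx2⟩
  · rw [eq_bot_iff]
    rintro x ⟨⟨hxW, hxP⟩, hx2⟩
    rw [Submodule.mem_bot]
    have key : x ∈ W ⊓ perp B W := by
      refine ⟨hxW, fun w hw => ?_⟩
      rw [← hsup] at hw
      obtain ⟨u, hu, w', hw', rfl⟩ := Submodule.mem_sup.mp hw
      rw [map_add, LinearMap.add_apply, hxP u hu, hx2 w' hw', add_zero]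
    rw [hWnd, Submodule.mem_bot] at key
    exact key
  · have h := Submodule.finrank_sup_add_finrank_inf_eq U (W ⊓ perp B U)
    rw [hsup, hinf, finrank_bot, add_zero] at h
    exact h.symm
  · unfold kk
    have hsup2 : (U ⊓ LinearMap.ker (T - 1)) ⊔ ((W ⊓ perp B U) ⊓ LinearMap.ker (T - 1))
        = W ⊓ LinearMap.ker (T - 1) := by
      apply le_antisymm
      · exact sup_le (inf_le_inf_right _ hUW) (inf_le_inf_right _ inf_le_left)
      · rintro x ⟨hxW, hxK⟩
        have hTx : T x = x := (hker x).mp hxK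
        have hxW' : x ∈ U ⊔ (W ⊓ perp B U) := by
          rw [hsup]
          exact hxW
        obtain ⟨u, hu, w', hw', rfl⟩ := Submodule.mem_sup.mp hxW'
        rw [map_add] at hTx
        have h0 : T u - u ∈ U ⊓ (W ⊓ perp B U) := by
          refine ⟨U.sub_mem (hTU u hu) hu, ?_⟩
          have e : T u - u = w' - T w' := by
            rw [sub_eq_sub_iff_add_eq_add, hTx, add_comm]
          rw [e]
          exact Submodule.sub_mem _ hw' ⟨hTW w' hw'.1, hTP w' hw'.2⟩
        rw [hinf, Submodule.mem_bot, sub_eq_zero] at h0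
        have h1 : T w' = w' := by
          rw [h0] at hTx
          exact add_left_cancel hTx
        exact Submodule.add_mem_sup ⟨hu, (hker u).mpr h0⟩ ⟨hw', (hker w').mpr h1⟩
    have hinf2 : (U ⊓ LinearMap.ker (T - 1)) ⊓ ((W ⊓ perp B U) ⊓ LinearMap.ker (T - 1))
        = ⊥ := by
      rw [eq_bot_iff, ← hinf]
      exact inf_le_inf inf_le_left inf_le_left
    have h := Submodule.finrank_sup_add_finrank_inf_eq (U ⊓ LinearMap.ker (T - 1))
      ((W ⊓ perp B U) ⊓ LinearMap.ker (T - 1))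
    rw [hsup2, hinf2, finrank_bot, add_zero] at h
    exact h.symm

example : Cfsg.Agent.H42.Spd.StCompl.{u, v} := compl

end Cfsg.Agent.H77.Spd
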