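import Mathlib
import Cfsg.Agent.H42.SpdDefs

/-!
# helper77: piece SPD-HYP of S5961 (helper42's project)
-/

set_option autoImplicit false

namespace Cfsg.Agent.H77.Spd

open Cfsg.Agent.H45 Cfsg.Agent.H42.Spd Module

universe u v

theorem hyp : StHyp.{u, v} := by
  intro F _ _ V _ _ _ B T hd K hK hK0
  obtain ⟨u, huK, hu0⟩ := Submodule.exists_mem_ne_zero_of_ne_bot hK0
  have hu' : u ∉ perp B K := by
    intro h
    have h' : u ∈ K ⊓ perp B K := ⟨huK, h⟩
    rw [hK, Submodule.mem_bot] at h'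
    exact hu0 h'
  have hex : ∃ w ∈ K, B w u ≠ 0 := by
    by_contra hcon
    push Not at hcon
    exact hu' (fun w hw => hcon w hw)
  obtain ⟨w, hwK, hwu⟩ := hex
  have huw : B u w = - B w u := by
    have h := hd.herm w u
    rw [h]
    simp
  have huu : B u u = 0 := hd.alt rfl u
  have hww : B w w = 0 := hd.alt rfl w
  have hli : LinearIndependent F ![u, w] := by
    rw [LinearIndependent.pair_iff]
    intro s t hst
    have h1 : B u (s • u + t • w) = 0 := by rw [hst, map_zero]
    have h2 : B w (s • u + t • w) = 0 := by rw [hst, map_zero]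
    rw [map_add, map_smul, map_smul, huu, smul_zero, zero_add, huw, smul_eq_mul] at h1
    rw [map_add, map_smul, map_smul, hww, smul_zero, add_zero, smul_eq_mul] at h2
    exact ⟨(mul_eq_zero.mp h2).resolve_right hwu,
      (mul_eq_zero.mp h1).resolve_right (neg_ne_zero.mpr hwu)⟩
  refine ⟨Submodule.span F (Set.range ![u, w]), ?_, ?_, ?_⟩
  · rw [Submodule.span_le]
    rintro _ ⟨i, rfl⟩
    fin_cases i
    · exact huK
    · exact hwK
  · rw [eq_bot_iff]
    rintro x ⟨hx1, hx2⟩
    rw [Submodule.mem_bot]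
    obtain ⟨c, rfl⟩ := (Submodule.mem_span_range_iff_exists_fun F).mp hx1
    have h1 := hx2 u (Submodule.subset_span ⟨0, rfl⟩)
    have h2 := hx2 w (Submodule.subset_span ⟨1, rfl⟩)
    rw [Fin.sum_univ_two] at h1 h2 ⊢
    have e0 : (![u, w] : Fin 2 → V) 0 = u := rfl
    have e1 : (![u, w] : Fin 2 → V) 1 = w := rfl
    rw [e0, e1] at h1 h2 ⊢
    rw [map_add, map_smul, map_smul, huu, smul_zero, zero_add, huw, smul_eq_mul] at h1
    rw [map_add, map_smul, map_smul, hww, smul_zero, add_zero, smul_eq_mul] at h2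
    have hc0 : c 0 = 0 := (mul_eq_zero.mp h2).resolve_right hwu
    have hc1 : c 1 = 0 := (mul_eq_zero.mp h1).resolve_right (neg_ne_zero.mpr hwu)
    rw [hc0, hc1, zero_smul, zero_smul, add_zero]
  · rw [finrank_span_eq_card hli, Fintype.card_fin]

example : Cfsg.Agent.H42.Spd.StHyp.{u, v} := hyp

end Cfsg.Agent.H77.Spd
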