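import Mathlib
import Cfsg.Agent.H42.SpnDefs
import Cfsg.Agent.H45.IsoConj
import Cfsg.Agent.H45.IsoSp

/-!
# helper77: gluing isometries along `W ⊕ W^⊥` (library for the pieces SPN-TRANS and SPN-SPLIT
of helper42's S5956 project)
-/

set_option autoImplicit false

namespace Cfsg.Agent.H77.Spn

open Cfsg.Agent.H45 Cfsg.Agent.H42.Spd Cfsg.Agent.H42.Spn Module Matrix

universe u

variable {F : Type u} [Field F]

/-- A linear isometry of the standard form has a symplectic matrix. -/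
theorem sp_of_isom (d : ℕ) (E : (Fin d ⊕ Fin d → F) →ₗ[F] (Fin d ⊕ Fin d → F))
    (hiso : ∀ x y, stdB d F (E x) (E y) = stdB d F x y) :
    LinearMap.toMatrix' E ∈ Matrix.symplecticGroup (Fin d) F := by
  classical
  rw [SymplecticGroup.mem_iff']
  apply (Matrix.toLinearMap₂' F (S₁ := F) (S₂ := F) (N₂ := F) (n := Fin d ⊕ Fin d)
    (m := Fin d ⊕ Fin d)).injective
  apply LinearMap.ext
  intro x
  apply LinearMap.ext
  intro y
  have h1 := hiso x y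
  unfold stdB at h1
  rw [Matrix.toLinearMap₂'_apply', Matrix.toLinearMap₂'_apply'] at h1
  have h2 : ∀ z, E z = LinearMap.toMatrix' E *ᵥ z := by
    intro z
    rw [← Matrix.toLin'_apply, Matrix.toLin'_toMatrix']
  rw [h2, h2] at h1
  rw [Matrix.toLinearMap₂'_apply', Matrix.toLinearMap₂'_apply', ← h1, form_mulVec]

/-- The restriction of the standard form to a nondegenerate subspace, with the identity. -/
theorem good_sub (d : ℕ) (K : Submodule F (Fin d ⊕ Fin d → F))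
    (hK : K ⊓ perp (stdB d F) K = ⊥) :
    Good (RingHom.id F) (-1) ((stdB d F).domRestrict₁₂ K K) (1 : Module.End F K) := by
  refine ⟨?_, ?_, ?_, ?_, ?_⟩
  · intro x y
    show stdB d F y x = -1 * stdB d F x y
    rw [stdB_skew]
    ring
  · intro x hx
    have h1 : (x : Fin d ⊕ Fin d → F) ∈ K ⊓ perp (stdB d F) K := by
      refine ⟨x.2, ?_⟩
      intro u hu
      have h2 : stdB d F (x : Fin d ⊕ Fin d → F) u = 0 := hx ⟨u, hu⟩
      rw [stdB_skew, h2, neg_zero]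
    rw [hK, Submodule.mem_bot] at h1
    exact Subtype.ext h1
  · intro _ x
    exact stdB_alt d (x : Fin d ⊕ Fin d → F)
  · intro x y
    rfl
  · exact Module.End.isSemisimple_id

/-- The orthogonal of a nondegenerate subspace is nondegenerate. -/
theorem perp_nd [Finite F] (d : ℕ) (W : Submodule F (Fin d ⊕ Fin d → F))
    (hW : W ⊓ perp (stdB d F) W = ⊥) :
    perp (stdB d F) W ⊓ perp (stdB d F) (perp (stdB d F) W) = ⊥ := by
  have hc := isCompl_perp (stdB d F) W hW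
  rw [eq_bot_iff]
  intro x hx
  rw [Submodule.mem_bot]
  apply stdB_nondeg d x
  intro v
  have hv : v ∈ W ⊔ perp (stdB d F) W := by
    rw [hc.sup_eq_top]
    exact Submodule.mem_top
  obtain ⟨w, hw, y, hy, rfl⟩ := Submodule.mem_sup.mp hv
  rw [stdB_skew, map_add, LinearMap.add_apply, hx.1 w hw, hx.2 y hy, add_zero, neg_zero]

theorem finrank_perp [Finite F] (d : ℕ) (W : Submodule F (Fin d ⊕ Fin d → F))
    (hW : W ⊓ perp (stdB d F) W = ⊥) :
    Module.finrank F W + Module.finrank F ↥(perp (stdB d F) W)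
      = Module.finrank F (Fin d ⊕ Fin d → F) :=
  Submodule.finrank_add_eq_of_isCompl (isCompl_perp (stdB d F) W hW)

/-- Nondegenerate subspaces of the same dimension are isometric. -/
theorem exists_isom (d : ℕ) [Finite F] (K K' : Submodule F (Fin d ⊕ Fin d → F))
    (hK : K ⊓ perp (stdB d F) K = ⊥) (hK' : K' ⊓ perp (stdB d F) K' = ⊥)
    (hfin : Module.finrank F K = Module.finrank F K') :
    ∃ e : ↥K ≃ₗ[F] ↥K', ∀ x y : ↥K,
      stdB d F (e x : Fin d ⊕ Fin d → F) (e y : Fin d ⊕ Fin d → F)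
        = stdB d F (x : Fin d ⊕ Fin d → F) (y : Fin d ⊕ Fin d → F) := by
  obtain ⟨e, -, he⟩ := isoConj_of_charpoly_eq (RingHom.id F) (fun _ => rfl) (-1)
    (Module.finrank F K)
    ((stdB d F).domRestrict₁₂ K K) ((stdB d F).domRestrict₁₂ K' K') 1 1
    rfl (good_sub d K hK) (good_sub d K' hK')
    (by rw [LinearMap.charpoly_one, LinearMap.charpoly_one, hfin])
  exact ⟨e, fun x y => he x y⟩

/-- Gluing isometries of a nondegenerate subspace and of its orthogonal. -/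
theorem glue [Finite F] (d : ℕ) (W W' : Submodule F (Fin d ⊕ Fin d → F))
    (hW : W ⊓ perp (stdB d F) W = ⊥) (hW' : W' ⊓ perp (stdB d F) W' = ⊥)
    (e₁ : ↥W ≃ₗ[F] ↥W') (e₂ : ↥(perp (stdB d F) W) ≃ₗ[F] ↥(perp (stdB d F) W'))
    (h₁ : ∀ x y : ↥W, stdB d F (e₁ x : Fin d ⊕ Fin d → F) (e₁ y : Fin d ⊕ Fin d → F)
      = stdB d F (x : Fin d ⊕ Fin d → F) (y : Fin d ⊕ Fin d → F))
    (h₂ : ∀ x y : ↥(perp (stdB d F) W),
      stdB d F (e₂ x : Fin d ⊕ Fin d → F) (e₂ y : Fin d ⊕ Fin d → F)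
      = stdB d F (x : Fin d ⊕ Fin d → F) (y : Fin d ⊕ Fin d → F)) :
    ∃ g : ↥(Matrix.symplecticGroup (Fin d) F),
      (∀ x : ↥W, Matrix.toLin' (g : Matrix (Fin d ⊕ Fin d) (Fin d ⊕ Fin d) F)
        (x : Fin d ⊕ Fin d → F) = (e₁ x : Fin d ⊕ Fin d → F)) ∧
      (∀ y : ↥(perp (stdB d F) W), Matrix.toLin' (g : Matrix (Fin d ⊕ Fin d) (Fin d ⊕ Fin d) F)
        (y : Fin d ⊕ Fin d → F) = (e₂ y : Fin d ⊕ Fin d → F)) := by
  classical
  have hc := isCompl_perp (stdB d F) W hW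
  have hc' := isCompl_perp (stdB d F) W' hW'
  let E : (Fin d ⊕ Fin d → F) ≃ₗ[F] (Fin d ⊕ Fin d → F) :=
    (Submodule.prodEquivOfIsCompl W _ hc).symm ≪≫ₗ (e₁.prodCongr e₂) ≪≫ₗ
      (Submodule.prodEquivOfIsCompl W' _ hc')
  have hE1 : ∀ x : ↥W, E (x : Fin d ⊕ Fin d → F) = (e₁ x : Fin d ⊕ Fin d → F) := by
    intro x
    show (Submodule.prodEquivOfIsCompl W' _ hc') ((e₁.prodCongr e₂)
      ((Submodule.prodEquivOfIsCompl W _ hc).symm (x : Fin d ⊕ Fin d → F))) = _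
    rw [Submodule.prodEquivOfIsCompl_symm_apply_left, LinearEquiv.prodCongr_apply,
      Submodule.coe_prodEquivOfIsCompl']
    simp
  have hE2 : ∀ y : ↥(perp (stdB d F) W),
      E (y : Fin d ⊕ Fin d → F) = (e₂ y : Fin d ⊕ Fin d → F) := by
    intro y
    show (Submodule.prodEquivOfIsCompl W' _ hc') ((e₁.prodCongr e₂)
      ((Submodule.prodEquivOfIsCompl W _ hc).symm (y : Fin d ⊕ Fin d → F))) = _
    rw [Submodule.prodEquivOfIsCompl_symm_apply_right, LinearEquiv.prodCongr_apply,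
      Submodule.coe_prodEquivOfIsCompl']
    simp
  have hiso : ∀ x y, stdB d F (E x) (E y) = stdB d F x y := by
    intro x y
    have hx : x ∈ W ⊔ perp (stdB d F) W := by
      rw [hc.sup_eq_top]
      exact Submodule.mem_top
    have hy : y ∈ W ⊔ perp (stdB d F) W := by
      rw [hc.sup_eq_top]
      exact Submodule.mem_top
    obtain ⟨w, hw, u, hu, rfl⟩ := Submodule.mem_sup.mp hx
    obtain ⟨w', hw', u', hu', rfl⟩ := Submodule.mem_sup.mp hy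
    have a1 : E w = (e₁ ⟨w, hw⟩ : Fin d ⊕ Fin d → F) := hE1 ⟨w, hw⟩
    have a2 : E w' = (e₁ ⟨w', hw'⟩ : Fin d ⊕ Fin d → F) := hE1 ⟨w', hw'⟩
    have a3 : E u = (e₂ ⟨u, hu⟩ : Fin d ⊕ Fin d → F) := hE2 ⟨u, hu⟩
    have a4 : E u' = (e₂ ⟨u', hu'⟩ : Fin d ⊕ Fin d → F) := hE2 ⟨u', hu'⟩
    have b1 : stdB d F (e₁ ⟨w, hw⟩ : Fin d ⊕ Fin d → F) (e₂ ⟨u', hu'⟩ : Fin d ⊕ Fin d → F) = 0 :=
      (e₂ ⟨u', hu'⟩).2 _ (e₁ ⟨w, hw⟩).2
    have b2 : stdB d F (e₂ ⟨u, hu⟩ : Fin d ⊕ Fin d → F) (e₁ ⟨w', hw'⟩ : Fin d ⊕ Fin d → F) = 0 := by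
      rw [stdB_skew, (e₂ ⟨u, hu⟩).2 _ (e₁ ⟨w', hw'⟩).2, neg_zero]
    have b3 : stdB d F w u' = 0 := hu' w hw
    have b4 : stdB d F u w' = 0 := by
      rw [stdB_skew, hu w' hw', neg_zero]
    have c1 : E (w + u) = (e₁ ⟨w, hw⟩ : Fin d ⊕ Fin d → F) + (e₂ ⟨u, hu⟩ : Fin d ⊕ Fin d → F) := by
      rw [map_add, a1, a3]
    have c2 : E (w' + u')
        = (e₁ ⟨w', hw'⟩ : Fin d ⊕ Fin d → F) + (e₂ ⟨u', hu'⟩ : Fin d ⊕ Fin d → F) := by
      rw [map_add, a2, a4]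
    rw [c1, c2]
    simp only [map_add, LinearMap.add_apply]
    rw [b1, b2, b3, b4, h₁ ⟨w, hw⟩ ⟨w', hw'⟩, h₂ ⟨u, hu⟩ ⟨u', hu'⟩]
  refine ⟨⟨_, sp_of_isom d (E : (Fin d ⊕ Fin d → F) →ₗ[F] (Fin d ⊕ Fin d → F)) hiso⟩, ?_, ?_⟩
  · intro x
    show Matrix.toLin' (LinearMap.toMatrix' (E : (Fin d ⊕ Fin d → F) →ₗ[F] (Fin d ⊕ Fin d → F)))
      (x : Fin d ⊕ Fin d → F) = _
    rw [Matrix.toLin'_toMatrix']
    exact hE1 x
  · intro y
    show Matrix.toLin' (LinearMap.toMatrix' (E : (Fin d ⊕ Fin d → F) →ₗ[F] (Fin d ⊕ Fin d → F)))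
      (y : Fin d ⊕ Fin d → F) = _
    rw [Matrix.toLin'_toMatrix']
    exact hE2 y

end Cfsg.Agent.H77.Spn
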