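import Mathlib
import Cfsg.Agent.H17.MnDefs
import Cfsg.Agent.H10.MnKER
import Cfsg.Agent.H77.MnBas2

/-!
helper77: piece S5634-FE for helper17 (`q = 5`: the Hadamard element).
-/

set_option autoImplicit false

namespace Cfsg.Agent.H77.Mn

open Cfsg Cfsg.Geo Cfsg.Agent.H17.Mn
open scoped MatrixGroups Matrix

variable {ι : Type} [Fintype ι] [DecidableEq ι] {F : Type*} [Field F]

theorem fe_m0 (A : Matrix (Fin 3) (Fin 3) F) (h10 : A 1 0 = 0) (h20 : A 2 0 = 0)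
    (hc : A 0 0 ≠ 0) (ha : A 1 1 ≠ 0) (hb : A 1 2 ≠ 0) (he : A 2 1 ≠ 0)
    (hdet : A 1 1 * A 2 2 + A 1 2 * A 2 1 = 0) :
    Matrix.diagonal ![1 / A 0 0, 1 / A 1 1, 1 / A 2 1] * A *
        Matrix.diagonal ![1, 1, A 1 1 / A 1 2] =
      !![1, A 0 1 / A 0 0, A 0 2 * A 1 1 / (A 0 0 * A 1 2); 0, 1, 1; 0, 1, -1] := by
  ext i j
  rw [Matrix.mul_diagonal, Matrix.diagonal_mul]
  fin_cases i <;> fin_cases j
  · simp [hc]
  · simp; field_simp
  · simp; field_simp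
  · simp [h10]
  · simp [ha]
  · simp; field_simp
  · simp [h20]
  · simp [he]
  · simp
    field_simp
    linear_combination hdet

theorem fe_u (p r : F) (h2 : (2 : F) ≠ 0) :
    !![1, p, r; 0, 1, 1; 0, 1, -1] * !![1, p, r; 0, 1, 1; 0, 1, -1] *
      Matrix.diagonal ![1, 1 / 2, 1 / 2] = !![1, (2 * p + r) / 2, p / 2; 0, 1, 0; 0, 0, 1] := by
  ext i j
  rw [Matrix.mul_diagonal]
  fin_cases i <;> fin_cases j <;> simp [Matrix.mul_apply, Fin.sum_univ_three] <;>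
    field_simp <;> ring

theorem five_eta [Fintype F] (hq : Fintype.card F = 5) (M : Subgroup (GL (Fin 3) F)) (hM : mono (Fin 3) F ≤ M) (htame : ∀ g ∈ M, ¬ IsElemTv g) (m : GL (Fin 3) F) (hm : m ∈ M) (h0 : ∀ i : Fin 2, (m : Matrix (Fin 3) (Fin 3) F) i.succ 0 = 0) (hnz : ∀ i j : Fin 2, (m : Matrix (Fin 3) (Fin 3) F) i.succ j.succ ≠ 0) (hdet : (m : Matrix (Fin 3) (Fin 3) F) 1 1 * (m : Matrix (Fin 3) (Fin 3) F) 2 2 + (m : Matrix (Fin 3) (Fin 3) F) 1 2 * (m : Matrix (Fin 3) (Fin 3) F) 2 1 = 0) : ∃ η ∈ M, (η : Matrix (Fin 3) (Fin 3) F) = !![1, 0, 0; 0, 1, 1; 0, 1, -1] := by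
  classical
  have h5 : (5 : F) = 0 := by
    have h := Nat.cast_card_eq_zero F
    rw [hq] at h
    exact_mod_cast h
  have h2 : (2 : F) ≠ 0 := by
    intro e
    have h1 : (1 : F) = 0 := by linear_combination h5 - 2 * e
    exact one_ne_zero h1
  have h10 : (m : Matrix (Fin 3) (Fin 3) F) 1 0 = 0 := h0 0
  have h20 : (m : Matrix (Fin 3) (Fin 3) F) 2 0 = 0 := h0 1
  have ha : (m : Matrix (Fin 3) (Fin 3) F) 1 1 ≠ 0 := hnz 0 0
  have hb : (m : Matrix (Fin 3) (Fin 3) F) 1 2 ≠ 0 := hnz 0 1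
  have he : (m : Matrix (Fin 3) (Fin 3) F) 2 1 ≠ 0 := hnz 1 0
  have hc : (m : Matrix (Fin 3) (Fin 3) F) 0 0 ≠ 0 := by
    intro e
    have h1 : ((m⁻¹ : GL (Fin 3) F) : Matrix (Fin 3) (Fin 3) F) *
        (m : Matrix (Fin 3) (Fin 3) F) = 1 := by
      rw [← Units.val_mul, inv_mul_cancel, Units.val_one]
    have h3 := congrFun (congrFun h1 0) 0
    rw [Matrix.mul_apply, Fin.sum_univ_three, e, h10, h20] at h3
    simp at h3
  obtain ⟨d1, hd1v, hd1m, -⟩ := exists_diag (F := F)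
    ![1 / (m : Matrix (Fin 3) (Fin 3) F) 0 0, 1 / (m : Matrix (Fin 3) (Fin 3) F) 1 1,
      1 / (m : Matrix (Fin 3) (Fin 3) F) 2 1]
    (by intro i; fin_cases i <;> simp [hc, ha, he])
  obtain ⟨d2, hd2v, hd2m, -⟩ := exists_diag (F := F)
    ![1, 1, (m : Matrix (Fin 3) (Fin 3) F) 1 1 / (m : Matrix (Fin 3) (Fin 3) F) 1 2]
    (by intro i; fin_cases i <;> simp [ha, hb])
  obtain ⟨d3, hd3v, hd3m, -⟩ := exists_diag (F := F) ![1, 1 / 2, 1 / 2]
    (by intro i; fin_cases i <;> simp [h2])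
  have hm0M : d1 * m * d2 ∈ M := mul_mem (mul_mem (hM hd1m) hm) (hM hd2m)
  have hm0v : ((d1 * m * d2 : GL (Fin 3) F) : Matrix (Fin 3) (Fin 3) F) =
      !![1, (m : Matrix (Fin 3) (Fin 3) F) 0 1 / (m : Matrix (Fin 3) (Fin 3) F) 0 0,
        (m : Matrix (Fin 3) (Fin 3) F) 0 2 * (m : Matrix (Fin 3) (Fin 3) F) 1 1 /
          ((m : Matrix (Fin 3) (Fin 3) F) 0 0 * (m : Matrix (Fin 3) (Fin 3) F) 1 2);
        0, 1, 1; 0, 1, -1] := by
    rw [Units.val_mul, Units.val_mul, hd1v, hd2v]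
    exact fe_m0 _ h10 h20 hc ha hb he hdet
  generalize (m : Matrix (Fin 3) (Fin 3) F) 0 1 / (m : Matrix (Fin 3) (Fin 3) F) 0 0 = p at hm0v
  generalize (m : Matrix (Fin 3) (Fin 3) F) 0 2 * (m : Matrix (Fin 3) (Fin 3) F) 1 1 /
    ((m : Matrix (Fin 3) (Fin 3) F) 0 0 * (m : Matrix (Fin 3) (Fin 3) F) 1 2) = r at hm0v
  have huM : d1 * m * d2 * (d1 * m * d2) * d3 ∈ M := mul_mem (mul_mem hm0M hm0M) (hM hd3m)
  have huv : ((d1 * m * d2 * (d1 * m * d2) * d3 : GL (Fin 3) F) : Matrix (Fin 3) (Fin 3) F) =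
      !![1, (2 * p + r) / 2, p / 2; 0, 1, 0; 0, 0, 1] := by
    rw [Units.val_mul, Units.val_mul, hm0v, hd3v]
    exact fe_u p r h2
  have hu1 : d1 * m * d2 * (d1 * m * d2) * d3 = 1 := by
    refine Cfsg.Agent.H10.Mn.kernel_trivial (by simp) (by omega) M (fun g hg => hM hg.1) htame _
      huM 0 ?_ ?_
    · intro x l hx
      rw [huv]
      fin_cases x
      · exact absurd rfl hx
      · fin_cases l <;> simp
      · fin_cases l <;> simp
    · rw [huv]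
      simp
  rw [hu1, Units.val_one] at huv
  have e1 : (0 : F) = p / 2 := by
    have e := congrFun (congrFun huv 0) 2
    simpa using e
  have e2 : (0 : F) = (2 * p + r) / 2 := by
    have e := congrFun (congrFun huv 0) 1
    simpa using e
  have hp : p = 0 := (div_eq_zero_iff.1 e1.symm).resolve_right h2
  have hr : r = 0 := by
    have e := (div_eq_zero_iff.1 e2.symm).resolve_right h2
    rw [hp] at e
    simpa using e
  refine ⟨d1 * m * d2, hm0M, ?_⟩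
  rw [hm0v, hp, hr]

example [Fintype F] (hq : Fintype.card F = 5) (M : Subgroup (GL (Fin 3) F)) (hM : mono (Fin 3) F ≤ M) (htame : ∀ g ∈ M, ¬ IsElemTv g) (m : GL (Fin 3) F) (hm : m ∈ M) (h0 : ∀ i : Fin 2, (m : Matrix (Fin 3) (Fin 3) F) i.succ 0 = 0) (hnz : ∀ i j : Fin 2, (m : Matrix (Fin 3) (Fin 3) F) i.succ j.succ ≠ 0) (hdet : (m : Matrix (Fin 3) (Fin 3) F) 1 1 * (m : Matrix (Fin 3) (Fin 3) F) 2 2 + (m : Matrix (Fin 3) (Fin 3) F) 1 2 * (m : Matrix (Fin 3) (Fin 3) F) 2 1 = 0) : ∃ η ∈ M, (η : Matrix (Fin 3) (Fin 3) F) = !![1, 0, 0; 0, 1, 1; 0, 1, -1] :=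
  five_eta hq M hM htame m hm h0 hnz hdet

end Cfsg.Agent.H77.Mn
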