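import Mathlib
import Cfsg.Agent.H17.MnDefs
import Cfsg.Agent.H17.MnTv
import Cfsg.Agent.H95.SpDecomp

/-!
helper77: piece S5634-RT2 for helper17: the root property `HasRoot D M i j` for one pair of
distinct blocks implies it for all pairs (signed block swaps in the stabiliser).
-/

set_option autoImplicit false

namespace Cfsg.Agent.H77.Mn

open Cfsg Cfsg.Geo Cfsg.Agent.H17.Mn
open scoped MatrixGroups Matrix

variable {ι : Type} [Fintype ι] [DecidableEq ι] {F : Type*} [Field F]

/-- A unipotent element `1 + c N` (`N² = 0`, `N = N P`, `P N = 0`) of determinant one. -/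
theorem exists_unip (N P : (ι → F) →ₗ[F] (ι → F)) (h1 : N ∘ₗ P = N) (h2 : P ∘ₗ N = 0)
    (h3 : N ∘ₗ N = 0) (c : F) :
    ∃ g : GL ι F, g ∈ specialLinear ι F ∧ ∀ v, (g : Matrix ι ι F) *ᵥ v = v + c • N v := by
  have hNN : ∀ v, N (N v) = 0 := fun v => by
    have h := LinearMap.congr_fun h3 v
    simpa using h
  have hc1 : (LinearMap.id + c • N) ∘ₗ (LinearMap.id - c • N) = LinearMap.id := by
    apply LinearMap.ext
    intro v
    simp only [LinearMap.comp_apply, LinearMap.add_apply, LinearMap.sub_apply,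
      LinearMap.id_apply, LinearMap.smul_apply, map_sub, map_smul, hNN, smul_zero, sub_zero]
    abel
  have hc2 : (LinearMap.id - c • N) ∘ₗ (LinearMap.id + c • N) = LinearMap.id := by
    apply LinearMap.ext
    intro v
    simp only [LinearMap.comp_apply, LinearMap.add_apply, LinearMap.sub_apply,
      LinearMap.id_apply, LinearMap.smul_apply, map_add, map_smul, hNN, smul_zero, add_zero]
    abel
  refine ⟨H95.glOf (LinearEquiv.ofLinear _ _ hc1 hc2),
    H95.glOf_mem_specialLinear _ ?_, fun v => ?_⟩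
  · apply Units.ext
    rw [LinearEquiv.coe_det, Units.val_one]
    show LinearMap.det (LinearMap.id + c • N) = 1
    rw [← LinearMap.det_toMatrix']
    have e1 : LinearMap.toMatrix' (LinearMap.id + c • N) =
        1 + (c • LinearMap.toMatrix' N) * LinearMap.toMatrix' P := by
      rw [map_add, LinearMap.toMatrix'_id, map_smul, Matrix.smul_mul,
        ← LinearMap.toMatrix'_comp, h1]
    rw [e1, Matrix.det_one_add_mul_comm, Matrix.mul_smul, ← LinearMap.toMatrix'_comp, h2,
      map_zero, smul_zero, add_zero, Matrix.det_one]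
  · rw [H95.glOf_mulVec]
    rfl

variable {t m : ℕ} (D : Fin t → Submodule F (ι → F))

/-- The nilpotent map `θ ∘ (projection onto D b)`, for `θ : D b →ₗ D a`. -/
noncomputable def nl (hI : DirectSum.IsInternal D) {a b : Fin t} (θ : D b →ₗ[F] D a) :
    (ι → F) →ₗ[F] (ι → F) :=
  (D a).subtype ∘ₗ θ ∘ₗ LinearMap.codRestrict (D b) (H95.comp hI b) (H95.comp_mem hI b)

theorem nl_mem (hI : DirectSum.IsInternal D) {a b : Fin t} (θ : D b →ₗ[F] D a) (v : ι → F) :
    nl D hI θ v ∈ D a :=
  Submodule.coe_mem _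

theorem nl_of_mem (hI : DirectSum.IsInternal D) {a b : Fin t} (θ : D b →ₗ[F] D a) {v : ι → F}
    (hv : v ∈ D b) : nl D hI θ v = θ ⟨v, hv⟩ := by
  have e : LinearMap.codRestrict (D b) (H95.comp hI b) (H95.comp_mem hI b) v = ⟨v, hv⟩ := by
    apply Subtype.ext
    exact H95.comp_of_mem hI hv
  show ((θ (LinearMap.codRestrict (D b) (H95.comp hI b) (H95.comp_mem hI b) v) : D a) : ι → F) = _
  rw [e]

theorem nl_of_mem_ne (hI : DirectSum.IsInternal D) {a b l : Fin t} (θ : D b →ₗ[F] D a)
    {v : ι → F} (hv : v ∈ D l) (hl : l ≠ b) : nl D hI θ v = 0 := by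
  have e : LinearMap.codRestrict (D b) (H95.comp hI b) (H95.comp_mem hI b) v = 0 := by
    apply Subtype.ext
    exact H95.comp_of_mem_ne hI hv hl
  show ((θ (LinearMap.codRestrict (D b) (H95.comp hI b) (H95.comp_mem hI b) v) : D a) : ι → F) = _
  rw [e, map_zero]
  rfl

/-- A signed block swap: an element of the stabiliser of determinant one exchanging `D a` and
`D b` and fixing the other blocks pointwise. -/
theorem exists_swap (hD : IsMDecomposition m D) (a b : Fin t) (hab : a ≠ b) :
    ∃ W : GL ι F, W ∈ decompositionStabilizer D ⊓ specialLinear ι F ∧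
      ∀ l, ∀ x ∈ D l, (W : Matrix ι ι F) *ᵥ x ∈ D (Equiv.swap a b l) := by
  have hI : DirectSum.IsInternal D :=
    DirectSum.isInternal_submodule_of_iSupIndep_of_iSup_eq_top hD.indep hD.iSup_eq_top
  let θ : D b ≃ₗ[F] D a :=
    LinearEquiv.ofFinrankEq _ _ (by rw [hD.finrank_eq, hD.finrank_eq])
  obtain ⟨A, hA, hAv⟩ := exists_unip (nl D hI θ.toLinearMap) (H95.comp hI b)
    (by
      apply LinearMap.ext
      intro v
      rw [LinearMap.comp_apply, nl_of_mem D hI θ.toLinearMap (H95.comp_mem hI b v)]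
      rfl)
    (by
      apply LinearMap.ext
      intro v
      rw [LinearMap.comp_apply, LinearMap.zero_apply]
      exact H95.comp_of_mem_ne hI (nl_mem D hI θ.toLinearMap v) hab)
    (by
      apply LinearMap.ext
      intro v
      rw [LinearMap.comp_apply, LinearMap.zero_apply]
      exact nl_of_mem_ne D hI θ.toLinearMap (nl_mem D hI θ.toLinearMap v) hab) 1
  obtain ⟨B, hB, hBv⟩ := exists_unip (nl D hI θ.symm.toLinearMap) (H95.comp hI a)
    (by
      apply LinearMap.ext
      intro v
      rw [LinearMap.comp_apply, nl_of_mem D hI θ.symm.toLinearMap (H95.comp_mem hI a v)]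
      rfl)
    (by
      apply LinearMap.ext
      intro v
      rw [LinearMap.comp_apply, LinearMap.zero_apply]
      exact H95.comp_of_mem_ne hI (nl_mem D hI θ.symm.toLinearMap v) hab.symm)
    (by
      apply LinearMap.ext
      intro v
      rw [LinearMap.comp_apply, LinearMap.zero_apply]
      exact nl_of_mem_ne D hI θ.symm.toLinearMap (nl_mem D hI θ.symm.toLinearMap v) hab.symm)
    (-1)
  have hWv : ∀ v, ((A * B * A : GL ι F) : Matrix ι ι F) *ᵥ v =
      (A : Matrix ι ι F) *ᵥ ((B : Matrix ι ι F) *ᵥ ((A : Matrix ι ι F) *ᵥ v)) := by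
    intro v
    rw [mulVec_mul, mulVec_mul]
  have key : ∀ l, ∀ x ∈ D l, ((A * B * A : GL ι F) : Matrix ι ι F) *ᵥ x ∈
      D (Equiv.swap a b l) := by
    intro l x hx
    rw [hWv]
    by_cases hla : l = a
    · -- x ∈ D a ↦ -N₂ x ∈ D b
      rw [hla] at hx
      rw [hla, Equiv.swap_apply_left]
      have e1 : nl D hI θ.toLinearMap x = 0 := nl_of_mem_ne D hI _ hx hab
      have e2 : nl D hI θ.toLinearMap (nl D hI θ.symm.toLinearMap x) = x := by
        rw [nl_of_mem D hI θ.symm.toLinearMap hx,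
          nl_of_mem D hI θ.toLinearMap (Submodule.coe_mem _)]
        simp
      have e3 : (A : Matrix ι ι F) *ᵥ ((B : Matrix ι ι F) *ᵥ ((A : Matrix ι ι F) *ᵥ x)) =
          -(nl D hI θ.symm.toLinearMap x) := by
        rw [hAv x, e1, smul_zero, add_zero, hBv x, hAv]
        simp only [one_smul, neg_smul, map_add, map_neg, map_zero, e1, e2]
        abel
      rw [e3]
      exact neg_mem (nl_mem D hI _ x)
    · by_cases hlb : l = b
      · -- x ∈ D b ↦ N₁ x ∈ D a
        rw [hlb] at hx
        rw [hlb, Equiv.swap_apply_right]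
        have e1 : nl D hI θ.symm.toLinearMap x = 0 := nl_of_mem_ne D hI _ hx hab.symm
        have e2 : nl D hI θ.symm.toLinearMap (nl D hI θ.toLinearMap x) = x := by
          rw [nl_of_mem D hI θ.toLinearMap hx,
            nl_of_mem D hI θ.symm.toLinearMap (Submodule.coe_mem _)]
          simp
        have e4 : nl D hI θ.toLinearMap (nl D hI θ.toLinearMap x) = 0 :=
          nl_of_mem_ne D hI _ (nl_mem D hI _ x) hab
        have e3 : (A : Matrix ι ι F) *ᵥ ((B : Matrix ι ι F) *ᵥ ((A : Matrix ι ι F) *ᵥ x)) =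
            nl D hI θ.toLinearMap x := by
          rw [hAv x, hBv, hAv]
          simp only [one_smul, neg_smul, map_add, map_neg, map_zero, e1, e2, e4]
          abel
        rw [e3]
        exact nl_mem D hI _ x
      · rw [Equiv.swap_apply_of_ne_of_ne hla hlb]
        have e1 : nl D hI θ.toLinearMap x = 0 := nl_of_mem_ne D hI _ hx hlb
        have e2 : nl D hI θ.symm.toLinearMap x = 0 := nl_of_mem_ne D hI _ hx hla
        rw [hAv x, e1, smul_zero, add_zero, hBv x, e2, smul_zero, add_zero, hAv x, e1, smul_zero,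
          add_zero]
        exact hx
  refine ⟨A * B * A, ⟨?_, mul_mem (mul_mem hA hB) hA⟩, key⟩
  exact H95.mem_decompositionStabilizer_of_forall hD _ (fun l => ⟨Equiv.swap a b l, key l⟩)

/-- Transport of the root property by an element of `M` permuting the blocks. -/
theorem hasRoot_transport (hD : IsMDecomposition m D) (M : Subgroup (GL ι F)) (i j : Fin t)
    (hr : HasRoot D M i j) (g : GL ι F) (hg : g ∈ M) (π : Equiv.Perm (Fin t))
    (hπ : ∀ l, ∀ x ∈ D l, (g : Matrix ι ι F) *ᵥ x ∈ D (π l)) : HasRoot D M (π i) (π j) := by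
  intro x' hx' χ' hχ' h'
  have hginj : Function.Injective (Matrix.toLin' (g : Matrix ι ι F)) := by
    intro v w hvw
    simp only [Matrix.toLin'_apply] at hvw
    exact H95.mulVec_injective g hvw
  have hmap : (D i).map (Matrix.toLin' (g : Matrix ι ι F)) = D (π i) := by
    have hle : (D i).map (Matrix.toLin' (g : Matrix ι ι F)) ≤ D (π i) := by
      rintro _ ⟨x, hx, rfl⟩
      rw [Matrix.toLin'_apply]
      exact hπ i x hx
    apply Submodule.eq_of_le_of_finrank_eq hle
    rw [hD.finrank_eq, ← hD.finrank_eq i]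
    exact LinearEquiv.finrank_eq (Submodule.equivMapOfInjective _ hginj (D i)).symm
  rw [← hmap] at hx'
  obtain ⟨x, hx, hxx'⟩ := hx'
  rw [Matrix.toLin'_apply] at hxx'
  have hχ : SuppOn D j (χ' ∘ₗ Matrix.toLin' (g : Matrix ι ι F)) := by
    intro l hl v hv
    rw [LinearMap.comp_apply, Matrix.toLin'_apply]
    exact hχ' (π l) (fun e => hl (π.injective e)) _ (hπ l v hv)
  have hχx : (χ' ∘ₗ Matrix.toLin' (g : Matrix ι ι F)) x = 0 := by
    rw [LinearMap.comp_apply, Matrix.toLin'_apply, hxx', h']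
  have h1 : H95.tvGL x (χ' ∘ₗ Matrix.toLin' (g : Matrix ι ι F)) hχx ∈ M := hr x hx _ hχ hχx
  have h2 : g * H95.tvGL x (χ' ∘ₗ Matrix.toLin' (g : Matrix ι ι F)) hχx * g⁻¹ ∈ M :=
    mul_mem (mul_mem hg h1) (inv_mem hg)
  have h3 : g * H95.tvGL x (χ' ∘ₗ Matrix.toLin' (g : Matrix ι ι F)) hχx * g⁻¹ =
      H95.tvGL x' χ' h' := by
    apply H95.gl_ext
    intro v
    rw [mulVec_mul, mulVec_mul, H95.tvGL_mulVec, H95.tvGL_mulVec, Matrix.mulVec_add,
      Matrix.mulVec_smul, mulVec_inv_mulVec, LinearMap.comp_apply, Matrix.toLin'_apply,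
      mulVec_inv_mulVec, hxx']
  rw [← h3]
  exact h2

theorem hasRoot_all (hD : IsMDecomposition m D) (M : Subgroup (GL ι F)) (hM : decompositionStabilizer D ⊓ specialLinear ι F ≤ M) (i j : Fin t) (hij : i ≠ j) (hr : HasRoot D M i j) : ∀ i' j' : Fin t, i' ≠ j' → HasRoot D M i' j' := by
  have step : ∀ (a b : Fin t), a ≠ b → ∀ p q, HasRoot D M p q →
      HasRoot D M (Equiv.swap a b p) (Equiv.swap a b q) := by
    intro a b hab p q hpq
    obtain ⟨W, hW, hWv⟩ := exists_swap D hD a b hab
    exact hasRoot_transport D hD M p q hpq W (hM hW) (Equiv.swap a b) hWv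
  intro i' j' hij'
  have h1 : ∃ j₁, j₁ ≠ i' ∧ HasRoot D M i' j₁ := by
    by_cases hi : i = i'
    · exact ⟨j, by rw [← hi]; exact hij.symm, by rw [← hi]; exact hr⟩
    · refine ⟨Equiv.swap i i' j, ?_, ?_⟩
      · intro e
        have e1 : j = i := by
          have e2 := congrArg (Equiv.swap i i') e
          rw [Equiv.swap_apply_self, Equiv.swap_apply_right] at e2
          exact e2
        exact hij e1.symm
      · have h2 := step i i' hi i j hr
        rwa [Equiv.swap_apply_left] at h2
  obtain ⟨j₁, hj₁, hr₁⟩ := h1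
  by_cases hj : j₁ = j'
  · rw [← hj]
    exact hr₁
  · have h2 := step j₁ j' hj i' j₁ hr₁
    rwa [Equiv.swap_apply_left, Equiv.swap_apply_of_ne_of_ne hj₁.symm hij'] at h2

example (hD : IsMDecomposition m D) (M : Subgroup (GL ι F)) (hM : decompositionStabilizer D ⊓ specialLinear ι F ≤ M) (i j : Fin t) (hij : i ≠ j) (hr : HasRoot D M i j) : ∀ i' j' : Fin t, i' ≠ j' → HasRoot D M i' j' :=
  hasRoot_all D hD M hM i j hij hr

end Cfsg.Agent.H77.Mn
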