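import Mathlib
import Cfsg.Agent.H17.MnDefs
import Cfsg.Agent.H77.MnBas2

/-!
helper77: core of piece S5634-SECB for helper17 (with the kernel lemma KER as a hypothesis):
an element of a tame group `M ≥ monoS` whose column `0` is a multiple of `e₀` and whose section
is monomial, is monomial.
-/

set_option autoImplicit false

namespace Cfsg.Agent.H77.Mn

open Cfsg Cfsg.Geo Cfsg.Agent.H17.Mn
open scoped MatrixGroups Matrix

variable {F : Type*} [Field F] {k : ℕ}

/-- The block matrix `[[d, 0], [0, S]]`. -/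
def blk (d : F) (S : Matrix (Fin k) (Fin k) F) : Matrix (Fin (k + 1)) (Fin (k + 1)) F :=
  Matrix.of fun i j =>
    Fin.cases (Fin.cases d (fun _ => 0) j) (fun i' => Fin.cases 0 (fun j' => S i' j') j) i

theorem blk_zero_zero (d : F) (S : Matrix (Fin k) (Fin k) F) : blk d S 0 0 = d := rfl

theorem blk_zero_succ (d : F) (S : Matrix (Fin k) (Fin k) F) (j : Fin k) :
    blk d S 0 j.succ = 0 := by
  simp [blk]

theorem blk_succ_zero (d : F) (S : Matrix (Fin k) (Fin k) F) (i : Fin k) :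
    blk d S i.succ 0 = 0 := by
  simp [blk]

theorem blk_succ_succ (d : F) (S : Matrix (Fin k) (Fin k) F) (i j : Fin k) :
    blk d S i.succ j.succ = S i j := by
  simp [blk]

theorem blk_mul (d d' : F) (S S' : Matrix (Fin k) (Fin k) F) :
    blk d S * blk d' S' = blk (d * d') (S * S') := by
  ext i j
  rw [Matrix.mul_apply, Fin.sum_univ_succ]
  refine Fin.cases ?_ (fun i' => ?_) i <;> refine Fin.cases ?_ (fun j' => ?_) j
  · simp [blk_zero_zero, blk_zero_succ, blk_succ_zero]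
  · simp [blk_zero_zero, blk_zero_succ, blk_succ_zero]
  · simp [blk_zero_zero, blk_zero_succ, blk_succ_zero]
  · simp [blk_zero_succ, blk_succ_zero, blk_succ_succ, Matrix.mul_apply]

theorem blk_one : blk (1 : F) (1 : Matrix (Fin k) (Fin k) F) = 1 := by
  ext i j
  refine Fin.cases ?_ (fun i' => ?_) i <;> refine Fin.cases ?_ (fun j' => ?_) j
  · simp [blk_zero_zero]
  · rw [blk_zero_succ, Matrix.one_apply_ne (Fin.succ_ne_zero j').symm]
  · rw [blk_succ_zero, Matrix.one_apply_ne (Fin.succ_ne_zero i')]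
  · rw [blk_succ_succ, Matrix.one_apply, Matrix.one_apply]
    simp [Fin.succ_inj]

theorem det_blk (d : F) (S : Matrix (Fin k) (Fin k) F) : (blk d S).det = d * S.det := by
  rw [Matrix.det_succ_row_zero, Fin.sum_univ_succ]
  have h1 : ∑ j : Fin k, (-1) ^ (j.succ : ℕ) * blk d S 0 j.succ *
      ((blk d S).submatrix Fin.succ j.succ.succAbove).det = 0 := by
    apply Finset.sum_eq_zero
    intro j _
    rw [blk_zero_succ, mul_zero, zero_mul]
  rw [h1, add_zero]
  have h2 : (blk d S).submatrix Fin.succ (Fin.succAbove 0) = S := by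
    ext i j
    rw [Matrix.submatrix_apply, Fin.succAbove_zero, blk_succ_succ]
  rw [h2, blk_zero_zero]
  simp

theorem isMon_blk (d : F) (S : Matrix (Fin k) (Fin k) F) (hS : IsMon S) : IsMon (blk d S) := by
  intro j i i' hi hi'
  rcases Fin.eq_zero_or_eq_succ j with rfl | ⟨j', rfl⟩
  · have h1 : i = 0 := by
      rcases Fin.eq_zero_or_eq_succ i with e | ⟨a, rfl⟩
      · exact e
      · exact absurd (blk_succ_zero d S a) hi
    have h2 : i' = 0 := by
      rcases Fin.eq_zero_or_eq_succ i' with e | ⟨a, rfl⟩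
      · exact e
      · exact absurd (blk_succ_zero d S a) hi'
    rw [h1, h2]
  · rcases Fin.eq_zero_or_eq_succ i with rfl | ⟨a, rfl⟩
    · exact absurd (blk_zero_succ d S j') hi
    · rcases Fin.eq_zero_or_eq_succ i' with rfl | ⟨b, rfl⟩
      · exact absurd (blk_zero_succ d S j') hi'
      · rw [blk_succ_succ] at hi hi'
        rw [hS j' a b hi hi']

/-- All rows other than row `0` are rows of the identity matrix. -/
def RowId (A : Matrix (Fin (k + 1)) (Fin (k + 1)) F) : Prop :=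
  ∀ r l, r ≠ 0 → A r l = (1 : Matrix (Fin (k + 1)) (Fin (k + 1)) F) r l

theorem RowId.mul_apply {A : Matrix (Fin (k + 1)) (Fin (k + 1)) F} (hA : RowId A)
    (B : Matrix (Fin (k + 1)) (Fin (k + 1)) F) (r l : Fin (k + 1)) (hr : r ≠ 0) :
    (A * B) r l = B r l := by
  rw [Matrix.mul_apply]
  rw [Finset.sum_eq_single r]
  · rw [hA r r hr, Matrix.one_apply_eq, one_mul]
  · intro x _ hx
    rw [hA r x hr, Matrix.one_apply_ne (Ne.symm hx), zero_mul]
  · intro hnm
    exact absurd (Finset.mem_univ _) hnm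

theorem RowId.mul {A B : Matrix (Fin (k + 1)) (Fin (k + 1)) F} (hA : RowId A) (hB : RowId B) :
    RowId (A * B) := by
  intro r l hr
  rw [hA.mul_apply B r l hr, hB r l hr]

theorem RowId.inv {A B : Matrix (Fin (k + 1)) (Fin (k + 1)) F} (hA : RowId A)
    (hAB : A * B = 1) : RowId B := by
  intro r l hr
  rw [← hA.mul_apply B r l hr, hAB]

theorem RowId.mul_zero_zero {U : Matrix (Fin (k + 1)) (Fin (k + 1)) F} (hU : RowId U)
    (W : Matrix (Fin (k + 1)) (Fin (k + 1)) F) : (W * U) 0 0 = W 0 0 * U 0 0 := by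
  rw [Matrix.mul_apply]
  rw [Finset.sum_eq_single 0]
  · intro x _ hx
    rw [hU x 0 hx, Matrix.one_apply_ne hx, mul_zero]
  · intro hnm
    exact absurd (Finset.mem_univ _) hnm

theorem exists_ne_zero_one [Fintype F] (hq : 3 ≤ Fintype.card F) : ∃ a : F, a ≠ 0 ∧ a ≠ 1 := by
  classical
  by_contra hne
  have hne' : ∀ a : F, a ≠ 0 → a = 1 := by
    intro a ha
    by_contra h1
    exact hne ⟨a, ha, h1⟩
  have hsub : (Finset.univ : Finset F) ⊆ {0, 1} := by
    intro a _
    by_cases ha : a = 0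
    · simp [ha]
    · simp [hne' a ha]
  have h1 := Finset.card_le_card hsub
  have h2 : ({0, 1} : Finset F).card ≤ 2 := Finset.card_le_two
  rw [Finset.card_univ] at h1
  omega

/-- The inverse of a diagonal `GL` element. -/
theorem inv_val_of_diag {ι : Type} [Fintype ι] [DecidableEq ι] (t : GL ι F) (τ : ι → F)
    (hτ : ∀ i, τ i ≠ 0) (ht : (t : Matrix ι ι F) = Matrix.diagonal τ) :
    ((t⁻¹ : GL ι F) : Matrix ι ι F) = Matrix.diagonal (fun i => (τ i)⁻¹) := by
  have h1 : (t : Matrix ι ι F) * Matrix.diagonal (fun i => (τ i)⁻¹) = 1 := by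
    rw [ht, Matrix.diagonal_mul_diagonal]
    have e : (fun i => τ i * (τ i)⁻¹) = fun _ => (1 : F) :=
      funext fun i => mul_inv_cancel₀ (hτ i)
    rw [e, Matrix.diagonal_one]
  calc ((t⁻¹ : GL ι F) : Matrix ι ι F)
      = ((t⁻¹ : GL ι F) : Matrix ι ι F) *
          ((t : Matrix ι ι F) * Matrix.diagonal (fun i => (τ i)⁻¹)) := by
        rw [h1, Matrix.mul_one]
    _ = Matrix.diagonal (fun i => (τ i)⁻¹) := by
        rw [← Matrix.mul_assoc, ← Units.val_mul, inv_mul_cancel, Units.val_one, Matrix.one_mul]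

/-- SECB with the kernel lemma (KER, for this `M`) as a hypothesis. -/
theorem mono_of_section_mono_of [Fintype F] (hk : 2 ≤ k) (hq : 5 ≤ Fintype.card F)
    (M : Subgroup (GL (Fin (k + 1)) F)) (hM : monoS (Fin (k + 1)) F ≤ M)
    (ker : ∀ u : GL (Fin (k + 1)) F, u ∈ M →
      (∀ r l, r ≠ 0 → (u : Matrix (Fin (k + 1)) (Fin (k + 1)) F) r l =
        (1 : Matrix (Fin (k + 1)) (Fin (k + 1)) F) r l) →
      (u : Matrix (Fin (k + 1)) (Fin (k + 1)) F) 0 0 = 1 → u = 1)
    (m : GL (Fin (k + 1)) F) (hm : m ∈ M)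
    (h0 : ∀ i : Fin k, (m : Matrix (Fin (k + 1)) (Fin (k + 1)) F) i.succ 0 = 0)
    (s : GL (Fin k) F)
    (hs : ∀ i j, (s : Matrix (Fin k) (Fin k) F) i j =
      (m : Matrix (Fin (k + 1)) (Fin (k + 1)) F) i.succ j.succ)
    (hsm : s ∈ mono (Fin k) F) : m ∈ mono (Fin (k + 1)) F := by
  classical
  have hSS' : (s : Matrix (Fin k) (Fin k) F) * ((s⁻¹ : GL (Fin k) F) : Matrix (Fin k) (Fin k) F)
      = 1 := by
    rw [← Units.val_mul, mul_inv_cancel, Units.val_one]
  have hS'S : ((s⁻¹ : GL (Fin k) F) : Matrix (Fin k) (Fin k) F) * (s : Matrix (Fin k) (Fin k) F)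
      = 1 := by
    rw [← Units.val_mul, inv_mul_cancel, Units.val_one]
  have hdet : (s : Matrix (Fin k) (Fin k) F).det ≠ 0 := by
    intro e
    have h1 := congrArg Matrix.det hSS'
    rw [Matrix.det_mul, e, zero_mul, Matrix.det_one] at h1
    exact zero_ne_one h1
  -- the lift `h = diag((det s)⁻¹, s)` of `s`
  have hh1 : blk ((s : Matrix (Fin k) (Fin k) F).det)⁻¹ (s : Matrix (Fin k) (Fin k) F) *
      blk (s : Matrix (Fin k) (Fin k) F).det
        ((s⁻¹ : GL (Fin k) F) : Matrix (Fin k) (Fin k) F) = 1 := by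
    rw [blk_mul, inv_mul_cancel₀ hdet, hSS', blk_one]
  have hh2 : blk (s : Matrix (Fin k) (Fin k) F).det
        ((s⁻¹ : GL (Fin k) F) : Matrix (Fin k) (Fin k) F) *
      blk ((s : Matrix (Fin k) (Fin k) F).det)⁻¹ (s : Matrix (Fin k) (Fin k) F) = 1 := by
    rw [blk_mul, mul_inv_cancel₀ hdet, hS'S, blk_one]
  obtain ⟨h, hhv, hhi⟩ : ∃ h : GL (Fin (k + 1)) F,
      (h : Matrix (Fin (k + 1)) (Fin (k + 1)) F) =
        blk ((s : Matrix (Fin k) (Fin k) F).det)⁻¹ (s : Matrix (Fin k) (Fin k) F) ∧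
      ((h⁻¹ : GL (Fin (k + 1)) F) : Matrix (Fin (k + 1)) (Fin (k + 1)) F) =
        blk (s : Matrix (Fin k) (Fin k) F).det
          ((s⁻¹ : GL (Fin k) F) : Matrix (Fin k) (Fin k) F) :=
    ⟨⟨_, _, hh1, hh2⟩, rfl, rfl⟩
  have hhM : h ∈ M := by
    apply hM
    refine ⟨mem_mono_of_isMon h (by rw [hhv]; exact isMon_blk _ _ hsm.1), ?_⟩
    apply (Cfsg.Agent.H95.mem_specialLinear_iff _).2
    rw [hhv, det_blk, inv_mul_cancel₀ hdet]
  -- `u = m h⁻¹`
  have huM : m * h⁻¹ ∈ M := mul_mem hm (inv_mem hhM)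
  have huv : ((m * h⁻¹ : GL (Fin (k + 1)) F) : Matrix (Fin (k + 1)) (Fin (k + 1)) F) =
      (m : Matrix (Fin (k + 1)) (Fin (k + 1)) F) *
        blk (s : Matrix (Fin k) (Fin k) F).det
          ((s⁻¹ : GL (Fin k) F) : Matrix (Fin k) (Fin k) F) := by
    rw [Units.val_mul, hhi]
  have hU : RowId ((m * h⁻¹ : GL (Fin (k + 1)) F) : Matrix (Fin (k + 1)) (Fin (k + 1)) F) := by
    intro r l hr
    obtain ⟨i, rfl⟩ := Fin.exists_succ_eq.2 hr
    rw [huv, Matrix.mul_apply, Fin.sum_univ_succ, h0 i, zero_mul, zero_add]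
    refine Fin.cases ?_ (fun j => ?_) l
    · rw [Matrix.one_apply_ne (Fin.succ_ne_zero i)]
      apply Finset.sum_eq_zero
      intro x _
      rw [blk_succ_zero, mul_zero]
    · have e1 : ∑ x : Fin k, (m : Matrix (Fin (k + 1)) (Fin (k + 1)) F) i.succ x.succ *
          blk (s : Matrix (Fin k) (Fin k) F).det
            ((s⁻¹ : GL (Fin k) F) : Matrix (Fin k) (Fin k) F) x.succ j.succ =
          ((s : Matrix (Fin k) (Fin k) F) *
            ((s⁻¹ : GL (Fin k) F) : Matrix (Fin k) (Fin k) F)) i j := by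
        rw [Matrix.mul_apply]
        apply Finset.sum_congr rfl
        intro x _
        rw [blk_succ_succ, hs]
      rw [e1, hSS', Matrix.one_apply, Matrix.one_apply]
      simp [Fin.succ_inj]
  have hU00 : ((m * h⁻¹ : GL (Fin (k + 1)) F) : Matrix (Fin (k + 1)) (Fin (k + 1)) F) 0 0 ≠ 0 := by
    intro e
    have h1 : (((m * h⁻¹)⁻¹ : GL (Fin (k + 1)) F) : Matrix (Fin (k + 1)) (Fin (k + 1)) F) *
        ((m * h⁻¹ : GL (Fin (k + 1)) F) : Matrix (Fin (k + 1)) (Fin (k + 1)) F) = 1 := by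
      rw [← Units.val_mul, inv_mul_cancel, Units.val_one]
    have h2 := congrFun (congrFun h1 0) 0
    rw [hU.mul_zero_zero, e, mul_zero, Matrix.one_apply_eq] at h2
    exact zero_ne_one h2
  -- the first row of `u` vanishes off the diagonal
  have hrow0 : ∀ l : Fin k,
      ((m * h⁻¹ : GL (Fin (k + 1)) F) : Matrix (Fin (k + 1)) (Fin (k + 1)) F) 0 l.succ = 0 := by
    intro l
    obtain ⟨a, ha0, ha1⟩ := exists_ne_zero_one (F := F) (by omega)
    obtain ⟨l', hl'⟩ : ∃ l' : Fin k, l' ≠ l := by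
      by_contra hne
      have hall : ∀ x : Fin k, x = l := by
        intro x
        by_contra hx
        exact hne ⟨x, hx⟩
      have hc : Fintype.card (Fin k) ≤ 1 :=
        Fintype.card_le_one_iff.2 (fun x y => by rw [hall x, hall y])
      rw [Fintype.card_fin] at hc
      omega
    obtain ⟨t, htv, -, htS⟩ := exists_diag (F := F)
      (fun i : Fin (k + 1) => if i = 0 then a else if i = l'.succ then a⁻¹ else 1)
      (by
        intro i
        by_cases h1 : i = 0
        · rw [if_pos h1]; exact ha0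
        · rw [if_neg h1]
          by_cases h2 : i = l'.succ
          · rw [if_pos h2]; exact inv_ne_zero ha0
          · rw [if_neg h2]; exact one_ne_zero)
    have htM : t ∈ M := by
      apply hM
      apply htS
      rw [Fin.prod_univ_succ, if_pos rfl]
      have e1 : ∀ i : Fin k, (if i.succ = (0 : Fin (k + 1)) then a
          else if i.succ = l'.succ then a⁻¹ else 1) = if i = l' then a⁻¹ else 1 := by
        intro i
        rw [if_neg (Fin.succ_ne_zero i)]
        simp [Fin.succ_inj]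
      simp only [e1]
      rw [Finset.prod_ite_eq' Finset.univ l' (fun _ => a⁻¹), if_pos (Finset.mem_univ _)]
      exact mul_inv_cancel₀ ha0
    have hτ0 : ∀ i : Fin (k + 1),
        (if i = 0 then a else if i = l'.succ then a⁻¹ else (1 : F)) ≠ 0 := by
      intro i
      by_cases h1 : i = 0
      · rw [if_pos h1]; exact ha0
      · rw [if_neg h1]
        by_cases h2 : i = l'.succ
        · rw [if_pos h2]; exact inv_ne_zero ha0
        · rw [if_neg h2]; exact one_ne_zero
    have hti := inv_val_of_diag t _ hτ0 htv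
    -- `v = t u t⁻¹`
    have hvv : ∀ i j, ((t * (m * h⁻¹) * t⁻¹ : GL (Fin (k + 1)) F) :
        Matrix (Fin (k + 1)) (Fin (k + 1)) F) i j =
        (if i = 0 then a else if i = l'.succ then a⁻¹ else (1 : F)) *
          ((m * h⁻¹ : GL (Fin (k + 1)) F) : Matrix (Fin (k + 1)) (Fin (k + 1)) F) i j *
          (if j = 0 then a else if j = l'.succ then a⁻¹ else (1 : F))⁻¹ := by
      intro i j
      rw [Units.val_mul, Units.val_mul, htv, hti, Matrix.mul_diagonal, Matrix.diagonal_mul]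
    have hV : RowId ((t * (m * h⁻¹) * t⁻¹ : GL (Fin (k + 1)) F) :
        Matrix (Fin (k + 1)) (Fin (k + 1)) F) := by
      intro r x hr
      rw [hvv, hU r x hr]
      by_cases hrx : r = x
      · rw [hrx, Matrix.one_apply_eq, mul_one, mul_inv_cancel₀ (hτ0 x)]
      · rw [Matrix.one_apply_ne hrx, mul_zero, zero_mul]
    have hUi : RowId (((m * h⁻¹)⁻¹ : GL (Fin (k + 1)) F) :
        Matrix (Fin (k + 1)) (Fin (k + 1)) F) :=
      hU.inv (by rw [← Units.val_mul, mul_inv_cancel, Units.val_one])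
    have hwM : t * (m * h⁻¹) * t⁻¹ * (m * h⁻¹)⁻¹ ∈ M :=
      mul_mem (mul_mem (mul_mem htM huM) (inv_mem htM)) (inv_mem huM)
    have hW : RowId ((t * (m * h⁻¹) * t⁻¹ * (m * h⁻¹)⁻¹ : GL (Fin (k + 1)) F) :
        Matrix (Fin (k + 1)) (Fin (k + 1)) F) := by
      rw [Units.val_mul]
      exact hV.mul hUi
    have hW00 : ((t * (m * h⁻¹) * t⁻¹ * (m * h⁻¹)⁻¹ : GL (Fin (k + 1)) F) :
        Matrix (Fin (k + 1)) (Fin (k + 1)) F) 0 0 = 1 := by
      have e1 : ((t * (m * h⁻¹) * t⁻¹ * (m * h⁻¹)⁻¹ : GL (Fin (k + 1)) F) :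
          Matrix (Fin (k + 1)) (Fin (k + 1)) F) *
          ((m * h⁻¹ : GL (Fin (k + 1)) F) : Matrix (Fin (k + 1)) (Fin (k + 1)) F) =
          ((t * (m * h⁻¹) * t⁻¹ : GL (Fin (k + 1)) F) :
            Matrix (Fin (k + 1)) (Fin (k + 1)) F) := by
        rw [← Units.val_mul, inv_mul_cancel_right]
      have e2 := congrFun (congrFun e1 0) 0
      rw [hU.mul_zero_zero, hvv, if_pos rfl] at e2
      have e3 : a * ((m * h⁻¹ : GL (Fin (k + 1)) F) :
          Matrix (Fin (k + 1)) (Fin (k + 1)) F) 0 0 * a⁻¹ =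
          ((m * h⁻¹ : GL (Fin (k + 1)) F) : Matrix (Fin (k + 1)) (Fin (k + 1)) F) 0 0 := by
        field_simp
      rw [e3] at e2
      exact mul_right_cancel₀ hU00 (by rw [e2, one_mul])
    have hw1 := ker _ hwM hW hW00
    have hvu : t * (m * h⁻¹) * t⁻¹ = m * h⁻¹ := mul_inv_eq_one.1 hw1
    have e4 := hvv 0 l.succ
    rw [hvu, if_pos rfl, if_neg (Fin.succ_ne_zero l),
      if_neg (fun e => hl' (Fin.succ_injective _ e).symm), inv_one, mul_one] at e4
    have e5 : (a - 1) * ((m * h⁻¹ : GL (Fin (k + 1)) F) :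
        Matrix (Fin (k + 1)) (Fin (k + 1)) F) 0 l.succ = 0 := by
      linear_combination -e4
    rcases mul_eq_zero.1 e5 with e | e
    · exact absurd (sub_eq_zero.1 e) ha1
    · exact e
  -- back to `m = u h`
  have hmv : (m : Matrix (Fin (k + 1)) (Fin (k + 1)) F) =
      ((m * h⁻¹ : GL (Fin (k + 1)) F) : Matrix (Fin (k + 1)) (Fin (k + 1)) F) *
        blk ((s : Matrix (Fin k) (Fin k) F).det)⁻¹ (s : Matrix (Fin k) (Fin k) F) := by
    rw [← hhv, ← Units.val_mul, inv_mul_cancel_right]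
  have hm0 : ∀ j : Fin k, (m : Matrix (Fin (k + 1)) (Fin (k + 1)) F) 0 j.succ = 0 := by
    intro j
    rw [hmv, Matrix.mul_apply, Fin.sum_univ_succ, blk_zero_succ, mul_zero, zero_add]
    apply Finset.sum_eq_zero
    intro x _
    rw [hrow0 x, zero_mul]
  apply mem_mono_of_isMon
  intro j i i' hi hi'
  rcases Fin.eq_zero_or_eq_succ j with rfl | ⟨j', rfl⟩
  · have h1 : i = 0 := by
      rcases Fin.eq_zero_or_eq_succ i with e | ⟨a, rfl⟩
      · exact e
      · exact absurd (h0 a) hi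
    have h2 : i' = 0 := by
      rcases Fin.eq_zero_or_eq_succ i' with e | ⟨a, rfl⟩
      · exact e
      · exact absurd (h0 a) hi'
    rw [h1, h2]
  · rcases Fin.eq_zero_or_eq_succ i with rfl | ⟨a, rfl⟩
    · exact absurd (hm0 j') hi
    · rcases Fin.eq_zero_or_eq_succ i' with rfl | ⟨b, rfl⟩
      · exact absurd (hm0 j') hi'
      · rw [← hs] at hi hi'
        rw [hsm.1 j' a b hi hi']

end Cfsg.Agent.H77.Mn
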