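import Mathlib
import Cfsg.Agent.H17.MnDefs
import Cfsg.Agent.H10.MnKER
import Cfsg.Agent.H77.MnSECBCore

/-!
helper77: piece S5634-SECB for helper17: an element of a tame group `M ≥ monoS` whose column `0`
is a multiple of `e₀` and whose section is monomial, is monomial.
-/

set_option autoImplicit false

namespace Cfsg.Agent.H77.Mn

open Cfsg Cfsg.Geo Cfsg.Agent.H17.Mn
open scoped MatrixGroups Matrix

variable {ι : Type} [Fintype ι] [DecidableEq ι] {F : Type*} [Field F]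

theorem mono_of_section_mono [Fintype F] {k : ℕ} (hk : 2 ≤ k) (hq : 5 ≤ Fintype.card F) (M : Subgroup (GL (Fin (k + 1)) F)) (hM : monoS (Fin (k + 1)) F ≤ M) (htame : ∀ g ∈ M, ¬ IsElemTv g) (m : GL (Fin (k + 1)) F) (hm : m ∈ M) (h0 : ∀ i : Fin k, (m : Matrix (Fin (k + 1)) (Fin (k + 1)) F) i.succ 0 = 0) (s : GL (Fin k) F) (hs : ∀ i j, (s : Matrix (Fin k) (Fin k) F) i j = (m : Matrix (Fin (k + 1)) (Fin (k + 1)) F) i.succ j.succ) (hsm : s ∈ mono (Fin k) F) : m ∈ mono (Fin (k + 1)) F := by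
  refine mono_of_section_mono_of hk hq M hM ?_ m hm h0 s hs hsm
  intro u hu hrow h00
  exact Cfsg.Agent.H10.Mn.kernel_trivial (by rw [Fintype.card_fin]; omega) hq M hM htame u hu 0
    hrow h00

example [Fintype F] {k : ℕ} (hk : 2 ≤ k) (hq : 5 ≤ Fintype.card F) (M : Subgroup (GL (Fin (k + 1)) F)) (hM : monoS (Fin (k + 1)) F ≤ M) (htame : ∀ g ∈ M, ¬ IsElemTv g) (m : GL (Fin (k + 1)) F) (hm : m ∈ M) (h0 : ∀ i : Fin k, (m : Matrix (Fin (k + 1)) (Fin (k + 1)) F) i.succ 0 = 0) (s : GL (Fin k) F) (hs : ∀ i j, (s : Matrix (Fin k) (Fin k) F) i j = (m : Matrix (Fin (k + 1)) (Fin (k + 1)) F) i.succ j.succ) (hsm : s ∈ mono (Fin k) F) : m ∈ mono (Fin (k + 1)) F :=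
  mono_of_section_mono hk hq M hM htame m hm h0 s hs hsm

end Cfsg.Agent.H77.Mn
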