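import Mathlib
import Cfsg.Prelude.Def_Classical

/-! S2149 (minimal index of `PSU₃(5)` is 50): definitions and EXACT piece statements
(helper77, team project).  Concrete field `F25 = 𝔽₅[ω]`, `ω² = 2`. -/

set_option autoImplicit false

namespace Cfsg.Agent.H77.Uf

open Matrix

instance fact_prime_5 : Fact (Nat.Prime 5) := ⟨by norm_num⟩

instance fact_25 : Fact (∀ r : ZMod 5, r ^ 2 ≠ (2 : ZMod 5) + 0 * r) := ⟨by decide⟩

/-- The field with 25 elements, `𝔽₅[ω]` with `ω² = 2`; `⟨a, b⟩ = a + b ω`. -/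
abbrev F25 : Type := QuadraticAlgebra (ZMod 5) 2 0

instance instFintypeF25 : Fintype F25 :=
  Fintype.ofEquiv (ZMod 5 × ZMod 5) (QuadraticAlgebra.equivProd 2 0).symm

theorem card_F25 : Fintype.card F25 = 25 := by decide

/-- `SU₃(5)` and `PSU₃(5)` over the concrete field. -/
abbrev SU35 : Type := ↥(Cfsg.SU 3 F25 5)
abbrev G35 : Type := Cfsg.PSU 3 F25 5

/-- a unitary matrix of determinant 1 and order 7; trace `2 + ω`. -/
def B7 : Matrix (Fin 3) (Fin 3) F25 :=
  !![0, 0, 1; 2, ⟨2, 1⟩, 0; ⟨3, 1⟩, 2, 0]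

/-- the elements `x₀ + x₁ B7 + x₂ B7²` of `F25[B7]` -/
def T3 (x : F25 × F25 × F25) : Matrix (Fin 3) (Fin 3) F25 :=
  x.1 • (1 : Matrix (Fin 3) (Fin 3) F25) + x.2.1 • B7 + x.2.2 • (B7 * B7)

/-- explicit 3 × 3 determinant -/
def det3 (M : Matrix (Fin 3) (Fin 3) F25) : F25 :=
  M 0 0 * M 1 1 * M 2 2 - M 0 0 * M 1 2 * M 2 1 - M 0 1 * M 1 0 * M 2 2
    + M 0 1 * M 1 2 * M 2 0 + M 0 2 * M 1 0 * M 2 1 - M 0 2 * M 1 1 * M 2 0

/-- 2-transitivity, in the form wanted by `Cfsg.Agent.H54.Pm.fisher_index`. -/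
def TwoTrans (S : Type*) (Ω : Type*) [Group S] [MulAction S Ω] : Prop :=
  ∀ a b c d : Ω, a ≠ b → c ≠ d → ∃ g : S, g • a = c ∧ g • b = d

/-! ### Concrete pieces over `F25` (Sylow 7-normalizer) -/

/-- ELEM: `B7` is the matrix of an element of `SU₃(5)`. -/
def StElem : Prop := ∃ a : SU35, a.1.1 = B7

/-- ORD: order 7 and the trace obstruction to inversion. -/
def StOrd : Prop := B7 ^ 7 = 1 ∧ B7 ≠ 1 ∧ B7.trace ≠ (B7 ^ 6).trace

/-- CYC: the commutant of `B7` is `F25[B7]`. -/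
def StCyc : Prop :=
  ∀ t : Matrix (Fin 3) (Fin 3) F25, t * B7 = B7 * t → ∃ x : F25 × F25 × F25, t = T3 x

/-- COUNT: at most 21 elements of `F25[B7]` are unitary of determinant 1. -/
def StCount : Prop :=
  (Finset.univ.filter (fun x : F25 × F25 × F25 =>
    det3 (T3 x) = 1 ∧ (T3 x)ᵀ * (T3 x).map (fun y => y ^ 5) = 1)).card ≤ 21

/-- CENT: the centralizer in `SU₃(5)` of the element with matrix `B7` has order at most 21. -/
def StCent : Prop :=
  ∀ a : SU35, a.1.1 = B7 → Nat.card ↥(Subgroup.centralizer ({a} : Set SU35)) ≤ 21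

/-- NOINV: the element with matrix `B7` is not conjugate to its inverse. -/
def StNoInv : Prop := ∀ a n : SU35, a.1.1 = B7 → n * a * n⁻¹ ≠ a ^ 6

/-- CENTER3 / ORDERG: orders (from the landed S0279 / S0280). -/
def StCenter3 : Prop := Nat.card (Subgroup.center SU35) = 3
def StOrderG : Prop := Nat.card G35 = 126000

/-! ### Abstract pieces -/

/-- ABSN: from the centralizer bound and non-inversion in `S` to a subgroup of order 7 of
`S / Z(S)` whose normalizer has order dividing 21. -/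
def StAbsN.{u} : Prop :=
  ∀ {S : Type u} [Group S] [Finite S] (a : S), a ^ 7 = 1 → a ≠ 1 →
    Nat.card (Subgroup.center S) = 3 →
    Nat.card (Subgroup.centralizer ({a} : Set S)) ≤ 21 →
    (∀ n : S, n * a * n⁻¹ ≠ a ^ 6) →
    ∃ X₀ : Subgroup (S ⧸ Subgroup.center S), Nat.card X₀ = 7 ∧
      Nat.card (Subgroup.normalizer (X₀ : Set (S ⧸ Subgroup.center S))) ∣ 21

/-- SYLT: Sylow transport of the normalizer bound. -/
def StSylT.{u} : Prop :=
  ∀ {G : Type u} [Group G] [Finite G] (m : ℕ), Nat.card G = 7 * m → ¬ 7 ∣ m →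
    ∀ X₀ : Subgroup G, Nat.card X₀ = 7 →
      Nat.card (Subgroup.normalizer (X₀ : Set G)) ∣ 21 →
      ∀ X : Subgroup G, Nat.card X = 7 → Nat.card (Subgroup.normalizer (X : Set G)) ∣ 21

/-- N7 (assembled by helper77): every subgroup of order 7 of `PSU₃(5)` has normalizer of order
dividing 21. -/
def StN7 : Prop :=
  ∀ X : Subgroup G35, Nat.card X = 7 → Nat.card (Subgroup.normalizer (X : Set G35)) ∣ 21

/-- TRANSDVD: for a 2-transitive action of `S` on `Ω` (at least 3 points), a subgroup `H` of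
`S / Z(S)` has index at least `|Ω|` (Fisher: its preimage is intransitive) or order divisible by
`|Ω|` (its preimage is transitive; the centre acts trivially). -/
def StTransDvd.{u, v} : Prop :=
  ∀ {S : Type u} [Group S] [Finite S] {Ω : Type v} [Finite Ω] [MulAction S Ω],
    TwoTrans S Ω → 3 ≤ Nat.card Ω →
    ∀ H : Subgroup (S ⧸ Subgroup.center S), Nat.card Ω ≤ H.index ∨ Nat.card Ω ∣ Nat.card H

/-- SIMPLEDEG: a simple group embeds in the symmetric group on the cosets of a proper subgroup. -/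
def StSimpleDeg.{u} : Prop :=
  ∀ {G : Type u} [Group G] [Finite G], IsSimpleGroup G →
    ∀ H : Subgroup G, H ≠ ⊤ → Nat.card G ∣ (H.index).factorial

/-- SYL7: Sylow counting excludes the three orders. -/
def StSyl7.{u} : Prop :=
  ∀ {G : Type u} [Group G] [Finite G],
    (∀ X : Subgroup G, Nat.card X = 7 → Nat.card (Subgroup.normalizer (X : Set G)) ∣ 21) →
    ∀ H : Subgroup G, (Nat.card H = 6300 ∨ Nat.card H = 5040 ∨ Nat.card H = 3150) → False

/-- ARITH. -/
def StArith : Prop :=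
  ∀ d h : ℕ, d * h = 126000 → 126 ∣ h → 126000 ∣ d.factorial → d < 50 →
    (h = 6300 ∨ h = 5040 ∨ h = 3150)

/-- LOWER (assembled by helper77). -/
def StLower.{u, v} : Prop :=
  ∀ {S : Type u} [Group S] [Finite S] {Ω : Type v} [Finite Ω] [MulAction S Ω],
    TwoTrans S Ω → Nat.card Ω = 126 → IsSimpleGroup (S ⧸ Subgroup.center S) →
    Nat.card (S ⧸ Subgroup.center S) = 126000 →
    (∀ X : Subgroup (S ⧸ Subgroup.center S), Nat.card X = 7 →
      Nat.card (Subgroup.normalizer (X : Set (S ⧸ Subgroup.center S))) ∣ 21) →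
    ∀ H : Subgroup (S ⧸ Subgroup.center S), H ≠ ⊤ → 50 ≤ H.index

/-! ### Transport to an arbitrary field with 25 elements -/

/-- XFER: `PSU₃` over any field with 25 elements is `G35` (twin of `H89.U4.psu_iso`). -/
def StXfer.{u} : Prop :=
  ∀ {F : Type u} [Field F] [Fintype F], Fintype.card F = 25 →
    Nonempty (G35 ≃* Cfsg.PSU 3 F 5)

/-- XFERIDX: the statement is invariant under group isomorphism. -/
def StXferIdx.{u, v} : Prop :=
  ∀ {G : Type u} {G' : Type v} [Group G] [Group G'] (_e : G ≃* G'),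
    ((∀ H : Subgroup G, H ≠ ⊤ → 50 ≤ H.index) ∧ (∃ H : Subgroup G, H.index = 50)) →
    ((∀ H : Subgroup G', H ≠ ⊤ → 50 ≤ H.index) ∧ (∃ H : Subgroup G', H.index = 50))

end Cfsg.Agent.H77.Uf
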