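import Mathlib
import Cfsg.Prelude.Def_Classical
import Cfsg.Agent.H17.SUSimple
import Cfsg.Agent.H77.UfDefs

/-! S2149: the geometric piece statements (isotropic points of the 3-dimensional Hermitian space
over `F25`), helper77. -/

set_option autoImplicit false

namespace Cfsg.Agent.H77.Uf

open Matrix

/-- the 126 isotropic points, as an `SU₃(5)`-set (helper17's `isoPts`) -/
abbrev Pts35 : Type := ↥(Cfsg.Agent.H17.isoPts 3 F25 5)

attribute [local instance] Cfsg.Agent.H17.suAction in
/-- the action of `SU₃(5)` on the isotropic points (helper17's local instance `suAction`, through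
the `SubMulAction`), registered globally for these concrete types. -/
instance instActPts : MulAction SU35 Pts35 := inferInstance

/-- ISO3: in dimension 3, orthogonal isotropic vectors are proportional. -/
def StIso3 : Prop :=
  ∀ x y : Fin 3 → F25, x ≠ 0 → y ≠ 0 → Cfsg.hermForm 3 F25 5 x x = 0 →
    Cfsg.hermForm 3 F25 5 y y = 0 → Cfsg.hermForm 3 F25 5 x y = 0 → ∃ c : F25, x = c • y

/-- TWOTRANS: `SU₃(5)` is 2-transitive on the isotropic points. -/
def StTwoTrans : Prop := TwoTrans SU35 Pts35

/-- CARD126: there are 126 isotropic points. -/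
def StCard126 : Prop := Nat.card Pts35 = 126

/-- SIMPLE: `PSU₃(5)` is simple (from `Cfsg.Agent.H17.psu_simple`). -/
def StSimple : Prop := IsSimpleGroup G35

/-- LOWER35 (assembled by helper77). -/
def StLower35 : Prop := ∀ H : Subgroup G35, H ≠ ⊤ → 50 ≤ H.index

end Cfsg.Agent.H77.Uf
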