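import Mathlib
import Cfsg.Prelude.Def_Classical
import Cfsg.Agent.H77.UfDefs
import Cfsg.Agent.H77.UfData

/-! S2149, existence half: EXACT piece statements (helper77).  The subgroup is the set of
elements of `SU₃(5)` whose matrix preserves the 105 listed points (`Pres`); it contains a `D₈`
(`R4`, `S2`), a `3^{1+2}` (`D3`, `P3`, central `Z1m`), elements of order 5 and 7, and not `G0`. -/

set_option autoImplicit false

namespace Cfsg.Agent.H77.Uf

open Matrix

/-- `M` is the matrix of an element of `SU₃(5)`. -/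
def InSU (M : Matrix (Fin 3) (Fin 3) F25) : Prop := ∃ g : SU35, g.1.1 = M

/-- MEM: the eight matrices are unitary of determinant 1. -/
def StMem : Prop :=
  InSU R4 ∧ InSU S2 ∧ InSU D3 ∧ InSU P3 ∧ InSU A5 ∧ InSU A7m ∧ InSU Z1m ∧ InSU G0

/-- PRES: the seven matrices preserve the list (tables `tR4 … tA7m`, `PresT`; `Z1m` is scalar). -/
def StPresAll : Prop :=
  Pres R4 ∧ Pres S2 ∧ Pres D3 ∧ Pres P3 ∧ Pres A5 ∧ Pres A7m ∧ Pres Z1m

/-- NOTPRES: `G0` moves `Yl[1] = (0, 1, 0)` to `(0, 2 + ω, 2)`, proportional to no listed vector. -/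
def StNotPres : Prop := ¬ Pres G0

/-- REL: the relations. -/
def StRel : Prop :=
  R4 ^ 4 = 1 ∧ R4 ^ 2 ≠ 1 ∧ S2 ^ 2 = 1 ∧ S2 * R4 = R4 ^ 3 * S2 ∧
  D3 ^ 3 = 1 ∧ P3 ^ 3 = 1 ∧ P3 * D3 = D3 * Z1m * P3 ∧ Z1m ≠ 1 ∧
  (∀ M : Matrix (Fin 3) (Fin 3) F25, Z1m * M = M * Z1m) ∧
  A5 ^ 5 = 1 ∧ A5 ≠ 1 ∧ A7m ^ 7 = 1 ∧ A7m ≠ 1

/-- SUBGRP: the elements whose matrix preserves the list form a subgroup. -/
def StSubgrp : Prop := ∃ K : Subgroup SU35, ∀ g : SU35, g ∈ K ↔ Pres g.1.1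

/-- CENTERPRES: central elements preserve the list. -/
def StCenterPres : Prop := ∀ g : SU35, g ∈ Subgroup.center SU35 → Pres g.1.1

/-- ST8: a dihedral pair forces 8 to divide the order. -/
def St8.{u} : Prop :=
  ∀ {G : Type u} [Group G] [Finite G] (r s : G), r ^ 4 = 1 → r ^ 2 ≠ 1 → s ^ 2 = 1 →
    s * r * s⁻¹ = r⁻¹ → 8 ∣ Nat.card G

/-- ST27: an extraspecial triple forces 27 to divide the order. -/
def St27.{u} : Prop :=
  ∀ {G : Type u} [Group G] [Finite G] (x y z : G), x ^ 3 = 1 → y ^ 3 = 1 → z ≠ 1 →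
    (∀ g : G, z * g = g * z) → y * x * y⁻¹ = x * z → 27 ∣ Nat.card G

/-- MAPCARD: image in the quotient by the centre of a subgroup containing the centre. -/
def StMapCard.{u} : Prop :=
  ∀ {S : Type u} [Group S] [Finite S] (K : Subgroup S), Subgroup.center S ≤ K →
    Nat.card K = Nat.card (Subgroup.center S) *
        Nat.card (K.map (QuotientGroup.mk' (Subgroup.center S))) ∧
      (K ≠ ⊤ → K.map (QuotientGroup.mk' (Subgroup.center S)) ≠ ⊤)

/-- EXISTS35 (the existence half over `F25`, before the lower bound is used). -/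
def StExists35 : Prop := ∃ H : Subgroup G35, H ≠ ⊤ ∧ 2520 ∣ Nat.card H

end Cfsg.Agent.H77.Uf
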