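import Mathlib
import Cfsg.Agent.H77.SpnGlue

/-!
# helper77: piece SPN-TRANS of S5956 (helper42's project)

The symplectic group is transitive on the nondegenerate subspaces of a given dimension.
-/

set_option autoImplicit false

namespace Cfsg.Agent.H77.Spn

open Cfsg.Agent.H45 Cfsg.Agent.H42.Spd Cfsg.Agent.H42.Spn Module Matrix

universe u

theorem ndTrans : StNdTrans.{u} := by
  intro F _ _ d W W' hfin hW hW'
  have hWn := (nd_iff d W).mpr hW
  have hWn' := (nd_iff d W').mpr hW'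
  obtain ⟨e₁, h₁⟩ := exists_isom d W W' hWn hWn' hfin
  have hp : Module.finrank F ↥(perp (stdB d F) W) = Module.finrank F ↥(perp (stdB d F) W') := by
    have a1 := finrank_perp d W hWn
    have a2 := finrank_perp d W' hWn'
    omega
  obtain ⟨e₂, h₂⟩ := exists_isom d _ _ (perp_nd d W hWn) (perp_nd d W' hWn') hp
  obtain ⟨g, hg1, -⟩ := glue d W W' hWn hWn' e₁ e₂ h₁ h₂
  refine ⟨g, ?_⟩
  apply le_antisymm
  · rintro _ ⟨x, hx, rfl⟩
    have h3 := hg1 ⟨x, hx⟩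
    show Matrix.toLin' (g : Matrix (Fin d ⊕ Fin d) (Fin d ⊕ Fin d) F) x ∈ W'
    have h4 : Matrix.toLin' (g : Matrix (Fin d ⊕ Fin d) (Fin d ⊕ Fin d) F) x
        = (e₁ ⟨x, hx⟩ : Fin d ⊕ Fin d → F) := h3
    rw [h4]
    exact (e₁ ⟨x, hx⟩).2
  · intro y hy
    refine ⟨(e₁.symm ⟨y, hy⟩ : Fin d ⊕ Fin d → F), (e₁.symm ⟨y, hy⟩).2, ?_⟩
    have h3 := hg1 (e₁.symm ⟨y, hy⟩)
    rw [LinearEquiv.apply_symm_apply] at h3
    exact h3

example : Cfsg.Agent.H42.Spn.StNdTrans.{u} := ndTrans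

end Cfsg.Agent.H77.Spn
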