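import Mathlib
import Cfsg.Agent.H77.FxDefs
import Cfsg.Agent.H77.SpnTrans
import Cfsg.Agent.H60.SpnEven
import Cfsg.Agent.H54.SpnHyp
import Cfsg.Agent.H75.SpnCompl
import Cfsg.Agent.H42.ElusSpA

/-!
# S5975-CONJ1 (helper77): non-scalar involutions of `Sp_4(F)` are conjugate
-/

set_option autoImplicit false
set_option linter.style.haveILetI false

namespace Cfsg.Agent.H77.Fx

open Cfsg.Agent.H45 Cfsg.Agent.H42.Spd Cfsg.Agent.H42.Spn Module

universe u

section Invol

variable {F : Type u} [Field F] {d : ℕ}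

/-- The eigenspaces of an involutive isometry: orthogonality, nondegeneracy of the `1`-eigenspace,
and the orthogonal of the `1`-eigenspace is inside the `-1`-eigenspace. -/
theorem invol_facts (h2 : (2 : F) ≠ 0) (A : Mat d F)
    (hA : ∀ u v, Cfsg.sympForm d F (Matrix.mulVec A u) (Matrix.mulVec A v) = Cfsg.sympForm d F u v)
    (hAA : A * A = 1) :
    (∀ u, Matrix.mulVec A u = u → ∀ v, Matrix.mulVec A v = -v → Cfsg.sympForm d F u v = 0) ∧
    (∀ u, Matrix.mulVec A u = u →
      (∀ v, Matrix.mulVec A v = v → Cfsg.sympForm d F u v = 0) → u = 0) ∧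
    (∀ w, (∀ u, Matrix.mulVec A u = u → Cfsg.sympForm d F u w = 0) → Matrix.mulVec A w = -w) := by
  have hAAv : ∀ v, Matrix.mulVec A (Matrix.mulVec A v) = v := by
    intro v
    rw [Matrix.mulVec_mulVec, hAA, Matrix.one_mulVec]
  have hplus : ∀ v, Matrix.mulVec A (v + Matrix.mulVec A v) = v + Matrix.mulVec A v := by
    intro v
    rw [Matrix.mulVec_add, hAAv, add_comm]
  have hminus : ∀ v, Matrix.mulVec A (v - Matrix.mulVec A v) = -(v - Matrix.mulVec A v) := by
    intro v
    rw [Matrix.mulVec_sub, hAAv, neg_sub]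
  have h1 : ∀ u, Matrix.mulVec A u = u → ∀ v, Matrix.mulVec A v = -v →
      Cfsg.sympForm d F u v = 0 := by
    intro u hu v hv
    have h := hA u v
    rw [hu, hv, ← stdB_apply, ← stdB_apply, map_neg] at h
    have h' : (2 : F) * stdB d F u v = 0 := by linear_combination -h
    rw [← stdB_apply]
    exact (mul_eq_zero.mp h').resolve_left h2
  have hdec : ∀ u v, (2 : F) * stdB d F u v =
      stdB d F u (v + Matrix.mulVec A v) + stdB d F u (v - Matrix.mulVec A v) := by
    intro u v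
    rw [map_add, map_sub]
    ring
  refine ⟨h1, ?_, ?_⟩
  · intro u hu hperp
    apply stdB_nondeg d u
    intro v
    have e1 : stdB d F u (v + Matrix.mulVec A v) = 0 := by
      rw [stdB_apply]
      exact hperp _ (hplus v)
    have e2 : stdB d F u (v - Matrix.mulVec A v) = 0 := by
      rw [stdB_apply]
      exact h1 u hu _ (hminus v)
    have h := hdec u v
    rw [e1, e2, add_zero] at h
    exact (mul_eq_zero.mp h).resolve_left h2
  · intro w hw
    have key : w + Matrix.mulVec A w = 0 := by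
      apply stdB_nondeg d
      intro v
      have e2 : stdB d F (w + Matrix.mulVec A w) (v - Matrix.mulVec A v) = 0 := by
        rw [stdB_apply]
        exact h1 _ (hplus w) _ (hminus v)
      have e3 : stdB d F w (v + Matrix.mulVec A v) = 0 := by
        rw [stdB_skew, stdB_apply, hw _ (hplus v), neg_zero]
      have e4 : stdB d F (Matrix.mulVec A w) (v + Matrix.mulVec A v) = 0 := by
        have := hA w (v + Matrix.mulVec A v)
        rw [hplus v, ← stdB_apply, ← stdB_apply, e3] at this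
        exact this
      have e1 : stdB d F (w + Matrix.mulVec A w) (v + Matrix.mulVec A v) = 0 := by
        rw [(stdB d F).map_add w, LinearMap.add_apply, e3, e4, add_zero]
      have h := hdec (w + Matrix.mulVec A w) v
      rw [e1, e2, add_zero] at h
      exact (mul_eq_zero.mp h).resolve_left h2
    exact eq_neg_of_add_eq_zero_right key

end Invol

/-- The `1`-eigenspace of a non-scalar symplectic involution in dimension `4` is a plane. -/
theorem invol_dim_two {F : Type u} [Field F] [Fintype F] (h2 : (2 : F) ≠ 0) (A : Mat 2 F)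
    (hA : ∀ u v, Cfsg.sympForm 2 F (Matrix.mulVec A u) (Matrix.mulVec A v) = Cfsg.sympForm 2 F u v)
    (hAA : A * A = 1) (hns : ∀ z : F, A ≠ z • (1 : Mat 2 F)) :
    Module.finrank F ↥(fixSp 2 A) = 2 := by
  classical
  obtain ⟨a1, a2, a3⟩ := invol_facts h2 A hA hAA
  have hW : ∀ u, u ∈ fixSp 2 A ↔ Matrix.mulVec A u = u := by
    intro u
    rw [LinearMap.mem_ker, LinearMap.sub_apply, Matrix.toLin'_apply, Module.End.one_apply,
      sub_eq_zero]
  have hnd : fixSp 2 A ⊓ perp (stdB 2 F) (fixSp 2 A) = ⊥ := by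
    rw [nd_iff]
    intro u hu hu0
    by_contra hcon
    push Not at hcon
    exact hu0 (a2 u ((hW u).1 hu) (fun v hv => hcon v ((hW v).2 hv)))
  have hiso : Iso (stdB 2 F) (1 : Module.End F (Vec 2 F)) :=
    ⟨stdB_alt 2, stdB_nondeg 2, fun x y => rfl⟩
  have heven : Even (Module.finrank F ↥(fixSp 2 A)) :=
    Cfsg.Agent.H60.Spn.even Cfsg.Agent.H54.Spn.isoHyp Cfsg.Agent.H75.Spn.isoCompl F (Vec 2 F)
      (stdB 2 F) 1 hiso _ hnd
  have hfinV : Module.finrank F (Vec 2 F) = 4 := by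
    rw [Module.finrank_fintype_fun_eq_card, Fintype.card_sum, Fintype.card_fin]
  have hle : Module.finrank F ↥(fixSp 2 A) ≤ 4 := by
    rw [← hfinV]
    exact Submodule.finrank_le _
  have hne4 : Module.finrank F ↥(fixSp 2 A) ≠ 4 := by
    intro h4
    have htop : fixSp 2 A = ⊤ := Submodule.eq_top_of_finrank_eq (by rw [h4, hfinV])
    apply hns 1
    rw [one_smul]
    apply Cfsg.Agent.H42.mat_ext_mulVecG
    intro v
    rw [Matrix.one_mulVec]
    exact (hW v).1 (by rw [htop]; exact Submodule.mem_top)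
  have hne0 : Module.finrank F ↥(fixSp 2 A) ≠ 0 := by
    intro h0
    have hbot : fixSp 2 A = ⊥ := Submodule.finrank_eq_zero.mp h0
    apply hns (-1)
    apply Cfsg.Agent.H42.mat_ext_mulVecG
    intro v
    rw [Matrix.smul_mulVec, Matrix.one_mulVec, neg_one_smul]
    have h1 : v + Matrix.mulVec A v ∈ fixSp 2 A := by
      rw [hW, Matrix.mulVec_add, Matrix.mulVec_mulVec, hAA, Matrix.one_mulVec, add_comm]
    rw [hbot, Submodule.mem_bot] at h1
    exact eq_neg_of_add_eq_zero_right h1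
  obtain ⟨t, ht⟩ := heven
  omega

/-- S5975-CONJ1. -/
theorem conj1 : StConj1.{u} := by
  intro F _ _ h2 x y hx hy hxx hyy hxs hys
  classical
  have hA := (Cfsg.Agent.H42.mem_spGL_iff' x).1 hx
  have hB := (Cfsg.Agent.H42.mem_spGL_iff' y).1 hy
  obtain ⟨a1, a2, a3⟩ := invol_facts h2 _ hA hxx
  obtain ⟨b1, b2, b3⟩ := invol_facts h2 _ hB hyy
  have hW : ∀ (M : Mat 2 F) (u : Vec 2 F), u ∈ fixSp 2 M ↔ Matrix.mulVec M u = u := by
    intro M u
    rw [LinearMap.mem_ker, LinearMap.sub_apply, Matrix.toLin'_apply, Module.End.one_apply,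
      sub_eq_zero]
  have hnd1 : ∀ u ∈ fixSp 2 (x : Mat 2 F), u ≠ 0 →
      ∃ v ∈ fixSp 2 (x : Mat 2 F), Cfsg.sympForm 2 F u v ≠ 0 := by
    intro u hu hu0
    by_contra hcon
    push Not at hcon
    exact hu0 (a2 u ((hW _ u).1 hu) (fun v hv => hcon v ((hW _ v).2 hv)))
  have hnd2 : ∀ u ∈ fixSp 2 (y : Mat 2 F), u ≠ 0 →
      ∃ v ∈ fixSp 2 (y : Mat 2 F), Cfsg.sympForm 2 F u v ≠ 0 := by
    intro u hu hu0
    by_contra hcon
    push Not at hcon
    exact hu0 (b2 u ((hW _ u).1 hu) (fun v hv => hcon v ((hW _ v).2 hv)))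
  have hdim1 := invol_dim_two h2 _ hA hxx hxs
  have hdim2 := invol_dim_two h2 _ hB hyy hys
  obtain ⟨g, hg⟩ := Cfsg.Agent.H77.Spn.ndTrans F 2 (fixSp 2 (x : Mat 2 F)) (fixSp 2 (y : Mat 2 F))
    (by rw [hdim1, hdim2]) hnd1 hnd2
  set G : Mat 2 F := (g : Mat 2 F) with hGdef
  have hGiso := (Cfsg.Agent.H17.mem_symplecticGroup_iff_form 2 G).1 g.2
  -- `G` maps the `1`-eigenspace of `x` into that of `y`
  have hG1 : ∀ u, Matrix.mulVec (x : Mat 2 F) u = u →
      Matrix.mulVec (y : Mat 2 F) (Matrix.mulVec G u) = Matrix.mulVec G u := by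
    intro u hu
    rw [← hW]
    rw [← hg]
    exact ⟨u, (hW _ u).2 hu, by rw [Matrix.toLin'_apply]⟩
  -- and the `-1`-eigenspace into the `-1`-eigenspace
  have hG2 : ∀ v, Matrix.mulVec (x : Mat 2 F) v = -v →
      Matrix.mulVec (y : Mat 2 F) (Matrix.mulVec G v) = -Matrix.mulVec G v := by
    intro v hv
    apply b3
    intro w hw
    have hw' : w ∈ fixSp 2 (y : Mat 2 F) := (hW _ w).2 hw
    rw [← hg] at hw'
    obtain ⟨u, hu, rfl⟩ := hw'
    rw [Matrix.toLin'_apply, hGiso]
    exact a1 u ((hW _ u).1 hu) v hv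
  have hxxv : ∀ v, Matrix.mulVec (x : Mat 2 F) (Matrix.mulVec (x : Mat 2 F) v) = v := by
    intro v
    rw [Matrix.mulVec_mulVec, hxx, Matrix.one_mulVec]
  -- `G x = y G`
  have hcomm : G * (x : Mat 2 F) = (y : Mat 2 F) * G := by
    apply Cfsg.Agent.H42.mat_ext_mulVecG
    intro v
    have e1 := hG1 (v + Matrix.mulVec (x : Mat 2 F) v) (by
      rw [Matrix.mulVec_add, hxxv, add_comm])
    have e2 := hG2 (v - Matrix.mulVec (x : Mat 2 F) v) (by
      rw [Matrix.mulVec_sub, hxxv, neg_sub])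
    rw [Matrix.mulVec_add, Matrix.mulVec_add] at e1
    rw [Matrix.mulVec_sub, Matrix.mulVec_sub] at e2
    have e3 : (2 : F) • (Matrix.mulVec (y : Mat 2 F) (Matrix.mulVec G v)) =
        (2 : F) • (Matrix.mulVec G (Matrix.mulVec (x : Mat 2 F) v)) := by
      rw [two_smul, two_smul]
      linear_combination (exp := 1) e1 + e2
    have e5 := smul_right_injective (Vec 2 F) h2 e3
    rw [← Matrix.mulVec_mulVec, ← Matrix.mulVec_mulVec]
    exact e5.symm
  -- the conjugating element
  set g' : ↥(Cfsg.spGL 2 F) := Cfsg.Agent.H42.spGLEquiv.symm g with hg'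
  have hg'G : ((g' : Matrix.GeneralLinearGroup (Fin 2 ⊕ Fin 2) F) : Mat 2 F) = G := by
    have := Cfsg.Agent.H42.spGLEquiv_coe g'
    rw [hg', Equiv.apply_symm_apply] at this
    exact this.symm
  refine ⟨(g' : Matrix.GeneralLinearGroup (Fin 2 ⊕ Fin 2) F)⁻¹, inv_mem g'.2, ?_⟩
  rw [inv_inv]
  have hGL : (g' : Matrix.GeneralLinearGroup (Fin 2 ⊕ Fin 2) F) * x =
      y * (g' : Matrix.GeneralLinearGroup (Fin 2 ⊕ Fin 2) F) := by
    apply Units.ext
    rw [Units.val_mul, Units.val_mul, hg'G]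
    exact hcomm
  rw [hGL, mul_assoc, mul_inv_cancel, mul_one]

example : StConj1.{u} := conj1

end Cfsg.Agent.H77.Fx
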