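import Mathlib

/-!
# Coprime automorphisms of `p`-groups with small `Ω₁(Z)` (helper77)

* `omegaZ H p` : the subgroup of central elements of order dividing `p`.
* `exists_fixed_omegaZ` : an automorphism `α` of a nontrivial finite `p`-group with `α ^ q = 1`,
  `|omegaZ| ∣ p ^ d` and `q ∤ p ^ i - 1` for `1 ≤ i ≤ d` fixes a nontrivial element of `omegaZ`.
* `aut_trivial_of_class` : for a quotient-closed class of finite `p`-groups with `|omegaZ| ∣ p ^ d`,
  automorphisms of prime order `q ≠ p`, `q ∤ p ^ i - 1` (`1 ≤ i ≤ d`), are trivial.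
* `aut_trivial_of_class'` : the same for `α ^ m = 1`, `m` coprime to `p` and to `p ^ i - 1`.
* `aut_trivial_abelian` : abelian `p`-groups of rank `r`: `α ^ m = 1`, `m` coprime to `p` and
  `p ^ i - 1` (`1 ≤ i ≤ r`) implies `α = 1`.
-/

set_option autoImplicit false

namespace Cfsg.Agent.H77

universe u

/-- the subgroup of central elements of order dividing `p` -/
def omegaZ (H : Type*) [Group H] (p : ℕ) : Subgroup H where
  carrier := {z | z ∈ Subgroup.center H ∧ z ^ p = 1}
  mul_mem' := by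
    rintro a b ⟨ha, ha'⟩ ⟨hb, hb'⟩
    refine ⟨mul_mem ha hb, ?_⟩
    have hc : Commute a b := (Subgroup.mem_center_iff.mp ha b).symm
    rw [hc.mul_pow, ha', hb', one_mul]
  one_mem' := ⟨one_mem _, one_pow _⟩
  inv_mem' := by
    rintro a ⟨ha, ha'⟩
    exact ⟨inv_mem ha, by rw [inv_pow, ha', inv_one]⟩

theorem mem_omegaZ {H : Type*} [Group H] {p : ℕ} {z : H} :
    z ∈ omegaZ H p ↔ z ∈ Subgroup.center H ∧ z ^ p = 1 := Iff.rfl

theorem map_mem_omegaZ {H : Type*} [Group H] {p : ℕ} (α : MulAut H) {z : H}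
    (hz : z ∈ omegaZ H p) : α z ∈ omegaZ H p := by
  refine ⟨?_, by rw [← map_pow, hz.2, map_one]⟩
  rw [Subgroup.mem_center_iff]
  intro g
  have h1 := Subgroup.mem_center_iff.mp hz.1 (α.symm g)
  have h2 := congrArg α h1
  simpa using h2

/-- the restriction of an automorphism to `omegaZ` -/
def restrOmega {H : Type*} [Group H] (p : ℕ) (α : MulAut H) : MulAut (omegaZ H p) where
  toFun w := ⟨α w, map_mem_omegaZ α w.2⟩
  invFun w := ⟨α.symm w, map_mem_omegaZ (α.symm : MulAut H) w.2⟩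
  left_inv w := Subtype.ext (by simp)
  right_inv w := Subtype.ext (by simp)
  map_mul' a b := Subtype.ext (by simp)

theorem restrOmega_apply {H : Type*} [Group H] (p : ℕ) (α : MulAut H) (w : omegaZ H p) :
    ((restrOmega p α) w : H) = α w := rfl

theorem omegaZ_ne_bot (p : ℕ) [hp : Fact p.Prime] (H : Type u) [Group H] [Finite H]
    [Nontrivial H] (hH : IsPGroup p H) : omegaZ H p ≠ ⊥ := by
  have hZ : Nontrivial (Subgroup.center H) := hH.center_nontrivial
  have hZp : IsPGroup p (Subgroup.center H) := hH.to_subgroup _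
  obtain ⟨k, hk⟩ := IsPGroup.iff_card.mp hZp
  have hk0 : k ≠ 0 := by
    rintro rfl
    have := Finite.one_lt_card (α := Subgroup.center H)
    rw [pow_zero] at hk
    omega
  have hdvd : p ∣ Nat.card (Subgroup.center H) := by
    rw [hk]; exact dvd_pow_self p hk0
  obtain ⟨x, hx⟩ := exists_prime_orderOf_dvd_card' p hdvd
  intro hbot
  have hxW : (x : H) ∈ omegaZ H p := by
    refine ⟨x.2, ?_⟩
    have := pow_orderOf_eq_one x
    rw [hx] at this
    exact congrArg Subtype.val this
  rw [hbot, Subgroup.mem_bot] at hxW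
  have hx1 : x = 1 := Subtype.ext hxW
  rw [hx1, orderOf_one] at hx
  exact hp.out.one_lt.ne hx

theorem exists_fixed_omegaZ (p q : ℕ) [hp : Fact p.Prime] [hq : Fact q.Prime]
    (H : Type u) [Group H] [Finite H] [Nontrivial H] (hH : IsPGroup p H) (d : ℕ)
    (hd : Nat.card (omegaZ H p) ∣ p ^ d) (hqd : ∀ i, 1 ≤ i → i ≤ d → ¬ q ∣ p ^ i - 1)
    (α : MulAut H) (hα : α ^ q = 1) :
    ∃ z : H, z ∈ omegaZ H p ∧ z ≠ 1 ∧ α z = z := by
  have hp1 : 1 < p := hp.out.one_lt
  have hWne : omegaZ H p ≠ ⊥ := omegaZ_ne_bot p H hH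
  obtain ⟨j, hj⟩ := IsPGroup.iff_card.mp (hH.to_subgroup (omegaZ H p))
  have hj0 : j ≠ 0 := by
    rintro rfl
    apply hWne
    rw [pow_zero] at hj
    exact (Subgroup.card_eq_one).mp hj
  have hj2 : j ≤ d := by
    rw [hj] at hd
    exact (Nat.pow_dvd_pow_iff_le_right hp1).mp hd
  by_contra hno
  push Not at hno
  let β : MulAut (omegaZ H p) := restrOmega p α
  have hβ : IsPGroup q (Subgroup.zpowers β) := by
    rintro ⟨g, i, rfl⟩
    refine ⟨1, ?_⟩
    apply Subtype.ext
    have hβq : β ^ q = 1 := by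
      ext w
      have h1 : ∀ n : ℕ, (((β ^ n) w : omegaZ H p) : H) = (α ^ n) w := by
        intro n
        induction n with
        | zero => simp
        | succ n ih =>
          rw [pow_succ', pow_succ', MulAut.mul_apply, MulAut.mul_apply, restrOmega_apply, ih]
      rw [h1, hα]; rfl
    show (β ^ i) ^ q ^ 1 = 1
    rw [pow_one, ← zpow_natCast, ← zpow_mul, mul_comm, zpow_mul, zpow_natCast, hβq, one_zpow]
  have key := hβ.card_modEq_card_fixedPoints (omegaZ H p)
  have hfix : Nat.card (MulAction.fixedPoints (Subgroup.zpowers β) (omegaZ H p)) = 1 := by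
    rw [Nat.card_eq_one_iff_unique]
    have h1 : ∀ w : MulAction.fixedPoints (Subgroup.zpowers β) (omegaZ H p),
        (w : omegaZ H p) = 1 := by
      intro w
      have h2 := w.2 ⟨β, Subgroup.mem_zpowers β⟩
      have h3 : α (w : omegaZ H p) = (w : omegaZ H p) := congrArg Subtype.val h2
      by_contra h4
      exact hno _ (w : omegaZ H p).2 (fun h => h4 (Subtype.ext h)) h3
    refine ⟨⟨fun a b => ?_⟩, ⟨⟨1, fun g => smul_one g⟩⟩⟩
    apply Subtype.ext
    rw [h1 a, h1 b]
  rw [hfix, hj] at key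
  have hpos : 1 ≤ p ^ j := Nat.one_le_pow _ _ (by omega)
  have hdvd : q ∣ p ^ j - 1 := (Nat.modEq_iff_dvd' hpos).mp key.symm
  exact hqd j (by omega) hj2 hdvd

/-- For a quotient-closed class `C` of finite groups whose `p`-members have `|omegaZ| ∣ p ^ d`:
automorphisms of prime order `q ≠ p` with `q ∤ p ^ i - 1` (`1 ≤ i ≤ d`) of `p`-groups in `C`
are trivial. -/
theorem aut_trivial_of_class (p q d : ℕ) [hp : Fact p.Prime] [hq : Fact q.Prime] (hqp : q ≠ p)
    (hqd : ∀ i, 1 ≤ i → i ≤ d → ¬ q ∣ p ^ i - 1)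
    (C : ∀ (H : Type u) [Group H] [Finite H], Prop)
    (hquot : ∀ (H : Type u) [Group H] [Finite H] (K : Subgroup H) [K.Normal], C H → C (H ⧸ K))
    (hW : ∀ (H : Type u) [Group H] [Finite H], IsPGroup p H → C H →
      Nat.card (omegaZ H p) ∣ p ^ d) :
    ∀ n : ℕ, ∀ (H : Type u) [Group H] [Finite H], Nat.card H = n → IsPGroup p H →
      C H → ∀ α : MulAut H, α ^ q = 1 → α = 1 := by
  intro n
  induction n using Nat.strong_induction_on with
  | _ n ih =>
  intro H _ _ hn hH hm α hα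
  by_cases htriv : Subsingleton H
  · ext x; exact Subsingleton.elim _ _
  rw [not_subsingleton_iff_nontrivial] at htriv
  obtain ⟨z, hzW, hz1, hαz⟩ := exists_fixed_omegaZ p q H hH d (hW H hH hm) hqd α hα
  have hzc : z ∈ Subgroup.center H := hzW.1
  have hzp : z ^ p = 1 := hzW.2
  let K : Subgroup H := Subgroup.zpowers z
  have hKc : K ≤ Subgroup.center H := (Subgroup.zpowers_le).2 hzc
  have hKn : K.Normal := ⟨fun k hk g => by
    have := Subgroup.mem_center_iff.mp (hKc hk) g
    rw [this, mul_inv_cancel_right]; exact hk⟩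
  have hKα : ∀ c ∈ K, α c = c := by
    rintro c ⟨i, rfl⟩
    show α (z ^ i) = z ^ i
    rw [map_zpow, hαz]
  have hKp : ∀ c ∈ K, c ^ p = 1 := by
    rintro c ⟨i, rfl⟩
    show (z ^ i) ^ p = 1
    rw [← zpow_natCast, ← zpow_mul, mul_comm, zpow_mul, zpow_natCast, hzp, one_zpow]
  have hmap : K.map (α : H ≃* H).toMonoidHom = K := by
    ext c; constructor
    · rintro ⟨d, hd, rfl⟩
      rw [MulEquiv.coe_toMonoidHom, hKα d hd]; exact hd
    · intro hc; exact ⟨c, hc, hKα c hc⟩
  let α' : MulAut (H ⧸ K) := QuotientGroup.congr K K α hmap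
  have hpow : ∀ (n : ℕ) (x : H),
      (α' ^ n) (QuotientGroup.mk x) = QuotientGroup.mk ((α ^ n) x) := by
    intro n
    induction n with
    | zero => intro x; simp
    | succ n ih =>
      intro x
      rw [pow_succ, pow_succ, MulAut.mul_apply, MulAut.mul_apply]
      exact ih (α x)
  have hα' : α' ^ q = 1 := by
    ext y
    obtain ⟨x, rfl⟩ := QuotientGroup.mk_surjective y
    rw [hpow, hα]; rfl
  have hcard : Nat.card (H ⧸ K) < n := by
    have h1 := Subgroup.card_eq_card_quotient_mul_card_subgroup K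
    have h2 : 1 < Nat.card K := by
      rw [Subgroup.one_lt_card_iff_ne_bot]
      intro h
      apply hz1
      have : z ∈ K := Subgroup.mem_zpowers z
      rw [h] at this
      exact Subgroup.mem_bot.mp this
    have h3 : 0 < Nat.card (H ⧸ K) := Nat.card_pos
    rw [← hn, h1]
    nlinarith
  have hbar : α' = 1 := ih _ hcard (H ⧸ K) rfl (hH.to_quotient K) (hquot H K hm) α' hα'
  ext x
  show α x = x
  have hc : x⁻¹ * α x ∈ K := by
    have h1 := congrArg (fun f : MulAut (H ⧸ K) => f (QuotientGroup.mk x)) hbar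
    have h2 : (QuotientGroup.mk (α x) : H ⧸ K) = QuotientGroup.mk x := h1
    exact QuotientGroup.eq.mp h2.symm
  obtain ⟨c, hcdef⟩ : ∃ c, c = x⁻¹ * α x := ⟨_, rfl⟩
  rw [← hcdef] at hc
  have hαx : α x = x * c := by rw [hcdef, mul_inv_cancel_left]
  have hpow2 : ∀ n : ℕ, (α ^ n) x = x * c ^ n := by
    intro n
    induction n with
    | zero => simp
    | succ n ih =>
      rw [pow_succ', MulAut.mul_apply, ih, map_mul, map_pow, hKα c hc, hαx, mul_assoc, ← pow_succ']
  have hcq : c ^ q = 1 := by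
    have h := hpow2 q
    rw [hα] at h
    have h' : x = x * c ^ q := h
    exact mul_eq_left.mp h'.symm
  have hcp : c ^ p = 1 := hKp c hc
  have hc1 : c = 1 := by
    have h1 := orderOf_dvd_of_pow_eq_one hcq
    have h2 := orderOf_dvd_of_pow_eq_one hcp
    have h3 : Nat.Coprime q p := (Nat.coprime_primes hq.out hp.out).mpr hqp
    have h4 := Nat.dvd_gcd h1 h2
    rw [h3] at h4
    exact orderOf_eq_one_iff.mp (Nat.dvd_one.mp h4)
  rw [hαx, hc1, mul_one]

/-- The version of `aut_trivial_of_class` for `α ^ m = 1` with `m` coprime to `p` and to all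
`p ^ i - 1`, `1 ≤ i ≤ d`. -/
theorem aut_trivial_of_class' (p d : ℕ) [hp : Fact p.Prime]
    (C : ∀ (H : Type u) [Group H] [Finite H], Prop)
    (hquot : ∀ (H : Type u) [Group H] [Finite H] (K : Subgroup H) [K.Normal], C H → C (H ⧸ K))
    (hW : ∀ (H : Type u) [Group H] [Finite H], IsPGroup p H → C H →
      Nat.card (omegaZ H p) ∣ p ^ d)
    (H : Type u) [Group H] [Finite H] (hH : IsPGroup p H) (hC : C H) (α : MulAut H) (m : ℕ)
    (hα : α ^ m = 1) (hmp : Nat.Coprime m p)
    (hm2 : ∀ i, 1 ≤ i → i ≤ d → Nat.Coprime m (p ^ i - 1)) : α = 1 := by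
  by_contra hne
  have hm0 : m ≠ 0 := by
    rintro rfl
    rw [Nat.coprime_zero_left] at hmp
    exact hp.out.one_lt.ne' hmp
  have hdvd : orderOf α ∣ m := orderOf_dvd_of_pow_eq_one hα
  have ho0 : orderOf α ≠ 0 := fun h => hm0 (by rw [h] at hdvd; exact zero_dvd_iff.mp hdvd)
  have ho1 : orderOf α ≠ 1 := fun h => hne (orderOf_eq_one_iff.mp h)
  obtain ⟨q, hq, hqd⟩ := Nat.exists_prime_and_dvd ho1
  have : Fact q.Prime := ⟨hq⟩
  have hqm : q ∣ m := hqd.trans hdvd
  have hqp : q ≠ p := by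
    rintro rfl
    have h := Nat.dvd_gcd hqm dvd_rfl
    rw [hmp] at h
    exact hq.one_lt.ne' (Nat.dvd_one.mp h)
  have hq2 : ∀ i, 1 ≤ i → i ≤ d → ¬ q ∣ p ^ i - 1 := by
    intro i hi1 hid h
    have h' := Nat.dvd_gcd hqm h
    rw [hm2 i hi1 hid] at h'
    exact hq.one_lt.ne' (Nat.dvd_one.mp h')
  have hβ : (α ^ (orderOf α / q)) ^ q = 1 := by
    rw [← pow_mul, Nat.div_mul_cancel hqd, pow_orderOf_eq_one]
  have h1 := aut_trivial_of_class p q d hqp hq2 C hquot hW _ H rfl hH hC _ hβ
  have h2 := orderOf_pow_orderOf_div ho0 hqd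
  rw [h1, orderOf_one] at h2
  exact hq.one_lt.ne' h2.symm


/-- the class of abelian groups of rank at most `d` -/
def AbRankLE (d : ℕ) (H : Type u) [Group H] [Finite H] : Prop :=
  (∀ a b : H, a * b = b * a) ∧ Group.rank H ≤ d

theorem abRankLE_quot (d : ℕ) (H : Type u) [Group H] [Finite H] (K : Subgroup H) [K.Normal]
    (h : AbRankLE d H) : AbRankLE d (H ⧸ K) := by
  refine ⟨?_, (Group.rank_le_of_surjective (QuotientGroup.mk' K)
    (QuotientGroup.mk'_surjective K)).trans h.2⟩
  intro a b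
  obtain ⟨a, rfl⟩ := QuotientGroup.mk_surjective a
  obtain ⟨b, rfl⟩ := QuotientGroup.mk_surjective b
  rw [← QuotientGroup.mk_mul, ← QuotientGroup.mk_mul, h.1]

theorem abRankLE_omegaZ (p d : ℕ) (H : Type u) [Group H] [Finite H] (h : AbRankLE d H) :
    Nat.card (omegaZ H p) ∣ p ^ d := by
  let _ : CommGroup H := { (inferInstance : Group H) with mul_comm := h.1 }
  let φ : H →* H := powMonoidHom p
  have hker : omegaZ H p = φ.ker := by
    ext z
    rw [mem_omegaZ, MonoidHom.mem_ker]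
    constructor
    · intro hz; exact hz.2
    · intro hz
      refine ⟨?_, hz⟩
      rw [Subgroup.mem_center_iff]
      intro g
      exact h.1 g z
  have h1 : Nat.card (omegaZ H p) = φ.range.index := by
    have e1 : Nat.card φ.ker * Nat.card φ.range = Nat.card H := by
      rw [← Subgroup.index_ker, Subgroup.card_mul_index]
    have e2 := Subgroup.card_mul_index φ.range
    have hpos : 0 < Nat.card φ.range := Nat.card_pos
    rw [hker]
    rw [← e2, mul_comm] at e1
    exact Nat.eq_of_mul_eq_mul_left hpos e1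
  rw [h1]
  have h2 : φ.range.index ∣ p ^ Group.rank (H ⧸ φ.range) := by
    have h3 : φ.range.index = Nat.card (H ⧸ φ.range) := rfl
    rw [h3]
    apply card_dvd_exponent_pow_rank'
    intro g
    obtain ⟨g, rfl⟩ := QuotientGroup.mk_surjective g
    rw [← QuotientGroup.mk_pow, QuotientGroup.eq_one_iff]
    exact ⟨g, rfl⟩
  refine h2.trans (pow_dvd_pow p ?_)
  exact (Group.rank_le_of_surjective (QuotientGroup.mk' φ.range)
    (QuotientGroup.mk'_surjective _)).trans h.2

/-- An automorphism `α` of a finite abelian `p`-group `H` with `α ^ m = 1`, `m` coprime to `p` and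
to `p ^ i - 1` for `1 ≤ i ≤ rank H`, is trivial. -/
theorem aut_trivial_abelian (p : ℕ) [Fact p.Prime] (H : Type u) [Group H] [Finite H]
    (hH : IsPGroup p H) (hc : ∀ a b : H, a * b = b * a) (α : MulAut H) (m : ℕ)
    (hα : α ^ m = 1) (hmp : m.Coprime p)
    (hm : ∀ i, 1 ≤ i → i ≤ Group.rank H → m.Coprime (p ^ i - 1)) : α = 1 :=
  aut_trivial_of_class' p (Group.rank H) (AbRankLE (Group.rank H)) (abRankLE_quot _)
    (fun H _ _ _ h => abRankLE_omegaZ p _ H h) H hH ⟨hc, le_rfl⟩ α m hα hmp hm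

end Cfsg.Agent.H77
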