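import Mathlib

/-!
# S5958-R6B (helper77, for helper99): a monomial element of prime order `r` on `t` lines has
`t ≤ dim ker (T - 1) * r` when `r ∤ q - 1`
-/

namespace Cfsg.Agent.H77.Dec

open Module

variable {F : Type*} [Field F] [Fintype F] {V : Type*} [AddCommGroup V] [Module F V]
  [FiniteDimensional F V]

theorem le_of_line_decomposition (T : Module.End F V) (r : ℕ) (hr : r.Prime)
    (hrF : (r : F) ≠ 0) (hT : T ^ r = 1) (t : ℕ) (D : Fin t → Submodule F V)
    (hD : ∀ j, Module.finrank F (D j) = 1) (hind : iSupIndep D) (htop : (⨆ j, D j) = ⊤)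
    (σ : Equiv.Perm (Fin t)) (hσ : ∀ j, (D j).map T = D (σ j))
    (hc : 2 ≤ orderOf (Fintype.card F : ZMod r)) :
    t ≤ Module.finrank F (LinearMap.ker (T - 1)) * r := by
  classical
  have hr0 : 0 < r := hr.pos
  have : NeZero r := ⟨hr.ne_zero⟩
  -- generators of the lines
  have hgen : ∀ j, ∃ d : V, d ∈ D j ∧ d ≠ 0 ∧ D j = Submodule.span F {d} := by
    intro j
    obtain ⟨v, hv0, hv⟩ := finrank_eq_one_iff'.1 (hD j)
    refine ⟨v, v.2, fun h => hv0 (Subtype.ext h), ?_⟩
    apply le_antisymm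
    · intro w hw
      obtain ⟨c, hc⟩ := hv ⟨w, hw⟩
      rw [Submodule.mem_span_singleton]
      exact ⟨c, congrArg Subtype.val hc⟩
    · rw [Submodule.span_singleton_le_iff_mem]
      exact v.2
  choose d hdm hd0 hdspan using hgen
  have hli : LinearIndependent F d := hind.linearIndependent D hdm hd0
  have hsp : ⊤ ≤ Submodule.span F (Set.range d) := by
    rw [Submodule.span_range_eq_iSup, ← htop]
    apply iSup_mono
    intro j
    rw [hdspan j]
  let b : Basis (Fin t) F V := Basis.mk hli hsp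
  have hb : ∀ j, b j = d j := fun j => Basis.mk_apply hli hsp j
  -- T acts monomially
  have hTb : ∀ j, ∃ c : F, T (b j) = c • b (σ j) := by
    intro j
    have h1 : T (b j) ∈ D (σ j) := by
      rw [← hσ j]
      exact Submodule.mem_map_of_mem (by rw [hb]; exact hdm j)
    rw [hdspan (σ j), Submodule.mem_span_singleton] at h1
    obtain ⟨c, hc⟩ := h1
    exact ⟨c, by rw [hb (σ j)]; exact hc.symm⟩
  have hTpow : ∀ (i : ℕ) (j : Fin t), ∃ C : F, (T ^ i) (b j) = C • b ((σ ^ i) j) := by
    intro i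
    induction i with
    | zero => intro j; exact ⟨1, by simp⟩
    | succ i ih =>
      intro j
      obtain ⟨C, hC⟩ := ih j
      obtain ⟨c, hc⟩ := hTb ((σ ^ i) j)
      refine ⟨C * c, ?_⟩
      rw [pow_succ', Module.End.mul_apply, hC, map_smul, hc, smul_smul, pow_succ',
        Equiv.Perm.mul_apply]
  have hrepr : ∀ j k : Fin t, b.coord k (b j) = if j = k then 1 else 0 := by
    intro j k
    rw [Basis.coord_apply, Basis.repr_self, Finsupp.single_apply]
  -- σ ^ r = 1
  have hσr : σ ^ r = 1 := by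
    refine Equiv.ext fun j => ?_
    rw [Equiv.Perm.one_apply]
    by_contra hne
    obtain ⟨C, hC⟩ := hTpow r j
    have hC' : b j = C • b ((σ ^ r) j) := by simpa [hT] using hC
    have h1 := congrArg (b.coord j) hC'
    rw [map_smul, hrepr, hrepr, if_pos rfl, if_neg hne, smul_zero] at h1
    exact one_ne_zero h1
  have hpowmod : ∀ i : ℕ, σ ^ i = σ ^ (i % r) := fun i => pow_eq_pow_mod i hσr
  -- non-fixed points have full orbits
  have hfix : ∀ k : Fin t, σ k ≠ k → ∀ i, 0 < i → i < r → (σ ^ i) k ≠ k := by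
    intro k hk i hi0 hir hik
    have hcop : Nat.Coprime i r :=
      ((Nat.Prime.coprime_iff_not_dvd hr).2 (Nat.not_dvd_of_pos_of_lt hi0 hir)).symm
    obtain ⟨m, -, hm⟩ := Nat.exists_mul_mod_eq_one_of_coprime hcop hr.one_lt
    have h1 : ∀ n : ℕ, ((σ ^ i) ^ n) k = k := by
      intro n
      induction n with
      | zero => simp
      | succ n ih => rw [pow_succ, Equiv.Perm.mul_apply, hik, ih]
    have h2 := h1 m
    rw [← pow_mul, hpowmod, hm, pow_one] at h2
    exact hk h2
  -- eigenvalues that are r-th roots of unity are trivial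
  have hq1 : ¬ r ∣ Fintype.card F - 1 := by
    intro hdvd
    have hq : 0 < Fintype.card F := Fintype.card_pos
    have h1 : (Fintype.card F : ZMod r) = 1 := by
      have h2 : Fintype.card F = (Fintype.card F - 1) + 1 := by omega
      rw [h2, Nat.cast_add, Nat.cast_one, (ZMod.natCast_eq_zero_iff _ _).2 hdvd, zero_add]
    rw [h1, orderOf_one] at hc
    omega
  have hc1 : ∀ c : F, c ^ r = 1 → c = 1 := by
    intro c hcr
    have hc0 : c ≠ 0 := by
      rintro rfl
      rw [zero_pow hr.ne_zero] at hcr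
      exact zero_ne_one hcr
    have h1 : c ^ (Fintype.card F - 1) = 1 := FiniteField.pow_card_sub_one_eq_one c hc0
    have h2 := pow_gcd_eq_one.2 ⟨hcr, h1⟩
    have h3 : Nat.gcd r (Fintype.card F - 1) = 1 := (Nat.Prime.coprime_iff_not_dvd hr).2 hq1
    rw [h3, pow_one] at h2
    exact h2
  -- the averaging operator
  set Φ : Module.End F V := ∑ i ∈ Finset.range r, T ^ i with hΦ
  have hTΦ : T * Φ = Φ := by
    rw [hΦ, Finset.mul_sum]
    have h1 : ∑ i ∈ Finset.range r, T * T ^ i = ∑ i ∈ Finset.range r, T ^ (i + 1) := by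
      apply Finset.sum_congr rfl
      intro i _
      rw [pow_succ']
    rw [h1]
    have h2 := Finset.sum_range_succ' (fun i => T ^ i) r
    have h3 := Finset.sum_range_succ (fun i => T ^ i) r
    rw [h3, hT, pow_zero] at h2
    exact (add_right_cancel h2).symm
  have hΦker : ∀ v, Φ v ∈ LinearMap.ker (T - 1) := by
    intro v
    rw [LinearMap.mem_ker, LinearMap.sub_apply, ← Module.End.mul_apply, hTΦ]
    simp
  -- orbit representatives
  have hA : ∀ j k : Fin t, (∀ i : ℕ, j ≤ (σ ^ i) j) → (∀ i : ℕ, k ≤ (σ ^ i) k) →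
      ∀ i : ℕ, (σ ^ i) j = k → j = k := by
    intro j k hj hk i hik
    have h1 : j ≤ k := hik ▸ hj i
    have h2 : (σ ^ (r * i - i)) k = j := by
      rw [← hik, ← Equiv.Perm.mul_apply, ← pow_add]
      have h3 : r * i - i + i = r * i := Nat.sub_add_cancel (Nat.le_mul_of_pos_left i hr0)
      rw [h3, pow_mul, hσr, one_pow, Equiv.Perm.one_apply]
    have h3 : k ≤ j := h2 ▸ hk (r * i - i)
    exact le_antisymm h1 h3
  have hcoordΦ : ∀ j k, b.coord k (Φ (b j)) =
      ∑ i ∈ Finset.range r, b.coord k ((T ^ i) (b j)) := by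
    intro j k
    rw [hΦ, LinearMap.sum_apply, map_sum]
  have hzero : ∀ (j k : Fin t) (i : ℕ), (σ ^ i) j ≠ k → b.coord k ((T ^ i) (b j)) = 0 := by
    intro j k i hne
    obtain ⟨C, hC⟩ := hTpow i j
    rw [hC, map_smul, hrepr, if_neg hne, smul_zero]
  have hγ : ∀ k : Fin t, b.coord k (Φ (b k)) ≠ 0 := by
    intro k
    rw [hcoordΦ]
    by_cases hk : σ k = k
    · obtain ⟨c, hc⟩ := hTb k
      rw [hk] at hc
      have hpow : ∀ i : ℕ, (T ^ i) (b k) = c ^ i • b k := by
        intro i
        induction i with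
        | zero => simp
        | succ i ih => rw [pow_succ', Module.End.mul_apply, ih, map_smul, hc, smul_smul, pow_succ]
      have hcr : c ^ r = 1 := by
        have h1 := hpow r
        rw [hT] at h1
        have h2 := congrArg (b.coord k) h1
        rw [map_smul, Module.End.one_apply, hrepr, if_pos rfl, smul_eq_mul, mul_one] at h2
        exact h2.symm
      have hc1' := hc1 c hcr
      have hterm : ∀ i ∈ Finset.range r, b.coord k ((T ^ i) (b k)) = 1 := by
        intro i _
        rw [hpow i, hc1', one_pow, one_smul, hrepr, if_pos rfl]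
      rw [Finset.sum_congr rfl hterm, Finset.sum_const, Finset.card_range, nsmul_eq_mul, mul_one]
      exact hrF
    · rw [Finset.sum_eq_single 0]
      · simp [hrepr]
      · intro i hi hi0
        exact hzero k k i (hfix k hk i (Nat.pos_of_ne_zero hi0) (Finset.mem_range.1 hi))
      · intro h
        exact absurd (Finset.mem_range.2 hr0) h
  have hLI : LinearIndependent F
      (fun j : {j : Fin t // ∀ i : ℕ, j ≤ (σ ^ i) j} => Φ (b j.1)) := by
    rw [Fintype.linearIndependent_iff]
    intro g hg k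
    have h1 := congrArg (b.coord k.1) hg
    rw [map_sum, map_zero] at h1
    simp only [map_smul, smul_eq_mul] at h1
    rw [Finset.sum_eq_single k] at h1
    · exact (mul_eq_zero.1 h1).resolve_right (hγ k.1)
    · intro j _ hjk
      have h2 : b.coord k.1 (Φ (b j.1)) = 0 := by
        rw [hcoordΦ]
        apply Finset.sum_eq_zero
        intro i _
        apply hzero
        intro hik
        exact hjk (Subtype.ext (hA j.1 k.1 j.2 k.2 i hik))
      rw [h2, mul_zero]
    · intro h
      exact absurd (Finset.mem_univ k) h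
  have hLI' : LinearIndependent F (fun j : {j : Fin t // ∀ i : ℕ, j ≤ (σ ^ i) j} =>
      (⟨Φ (b j.1), hΦker _⟩ : LinearMap.ker (T - 1))) := by
    apply LinearIndependent.of_comp (LinearMap.ker (T - 1)).subtype
    exact hLI
  have hcard : Fintype.card {j : Fin t // ∀ i : ℕ, j ≤ (σ ^ i) j} ≤
      Module.finrank F (LinearMap.ker (T - 1)) := hLI'.fintype_card_le_finrank
  -- counting
  have hsurj : Function.Surjective
      (fun p : Fin r × {j : Fin t // ∀ i : ℕ, j ≤ (σ ^ i) j} => (σ ^ (p.1 : ℕ))⁻¹ p.2.1) := by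
    intro k
    have hne : ({x | ∃ i : ℕ, x = (σ ^ i) k} : Set (Fin t)).Nonempty := ⟨k, 0, by simp⟩
    obtain ⟨m, ⟨i0, hm⟩, hmin⟩ := wellFounded_lt.has_min _ hne
    have hmR : ∀ i : ℕ, m ≤ (σ ^ i) m := by
      intro i
      have h1 : (σ ^ i) m ∈ {x | ∃ i : ℕ, x = (σ ^ i) k} :=
        ⟨i + i0, by rw [hm, pow_add, Equiv.Perm.mul_apply]⟩
      exact not_lt.1 (hmin _ h1)
    refine ⟨(⟨i0 % r, Nat.mod_lt _ hr0⟩, ⟨m, hmR⟩), ?_⟩
    show (σ ^ (i0 % r))⁻¹ m = k
    rw [← hpowmod, hm]
    simp
  have hcount := Fintype.card_le_of_surjective _ hsurj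
  rw [Fintype.card_fin, Fintype.card_prod, Fintype.card_fin] at hcount
  calc t ≤ r * Fintype.card {j : Fin t // ∀ i : ℕ, j ≤ (σ ^ i) j} := hcount
    _ ≤ r * Module.finrank F (LinearMap.ker (T - 1)) := Nat.mul_le_mul_left r hcard
    _ = Module.finrank F (LinearMap.ker (T - 1)) * r := mul_comm _ _

example (T : Module.End F V) (r : ℕ) (hr : r.Prime)
    (hrF : (r : F) ≠ 0) (hT : T ^ r = 1) (t : ℕ) (D : Fin t → Submodule F V)
    (hD : ∀ j, Module.finrank F (D j) = 1) (hind : iSupIndep D) (htop : (⨆ j, D j) = ⊤)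
    (σ : Equiv.Perm (Fin t)) (hσ : ∀ j, (D j).map T = D (σ j))
    (hc : 2 ≤ orderOf (Fintype.card F : ZMod r)) :
    t ≤ Module.finrank F (LinearMap.ker (T - 1)) * r :=
  le_of_line_decomposition T r hr hrF hT t D hD hind htop σ hσ hc

end Cfsg.Agent.H77.Dec
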