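import Mathlib
import Cfsg.Agent.H77.FxDefs
import Cfsg.Agent.H42.ElusSpA

/-!
# S5975-EMB (helper77): `Sp_{2m}(q^k)` inside `N_Sp(K)`
-/

set_option autoImplicit false
set_option linter.style.haveILetI false

namespace Cfsg.Agent.H77.Fx

open Cfsg.Agent.H45 Cfsg.Agent.H42.Spd Module

universe u

section Transport

variable {F : Type u} [Field F] {d m : ℕ} {L : Type u} [Field L] [Algebra F L]

/-- Transport of `L`-matrices along an `F`-linear equivalence (the underlying function). -/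
noncomputable def trFun (φ : (Fin m ⊕ Fin m → L) ≃ₗ[F] Vec d F)
    (A : Matrix (Fin m ⊕ Fin m) (Fin m ⊕ Fin m) L) : Mat d F :=
  LinearMap.toMatrix' ((φ : (Fin m ⊕ Fin m → L) →ₗ[F] Vec d F) ∘ₗ
    ((Matrix.toLin' A).restrictScalars F) ∘ₗ (φ.symm : Vec d F →ₗ[F] (Fin m ⊕ Fin m → L)))

theorem trFun_mulVec (φ : (Fin m ⊕ Fin m → L) ≃ₗ[F] Vec d F)
    (A : Matrix (Fin m ⊕ Fin m) (Fin m ⊕ Fin m) L) (v : Vec d F) :
    Matrix.mulVec (trFun φ A) v = φ (Matrix.mulVec A (φ.symm v)) := by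
  rw [← Matrix.toLin'_apply]
  unfold trFun
  rw [Matrix.toLin'_toMatrix']
  rfl

/-- Transport of `L`-matrices along an `F`-linear equivalence. -/
noncomputable def trMat (φ : (Fin m ⊕ Fin m → L) ≃ₗ[F] Vec d F) :
    Matrix (Fin m ⊕ Fin m) (Fin m ⊕ Fin m) L →* Mat d F where
  toFun A := trFun φ A
  map_one' := by
    apply Cfsg.Agent.H42.mat_ext_mulVecG
    intro v
    rw [trFun_mulVec, Matrix.one_mulVec, Matrix.one_mulVec, LinearEquiv.apply_symm_apply]
  map_mul' A B := by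
    apply Cfsg.Agent.H42.mat_ext_mulVecG
    intro v
    have h1 : Matrix.mulVec (trFun φ A * trFun φ B) v =
        φ (Matrix.mulVec A (Matrix.mulVec B (φ.symm v))) := by
      rw [← Matrix.mulVec_mulVec, trFun_mulVec, trFun_mulVec, LinearEquiv.symm_apply_apply]
    rw [h1, trFun_mulVec, Matrix.mulVec_mulVec]

theorem trMat_mulVec (φ : (Fin m ⊕ Fin m → L) ≃ₗ[F] Vec d F)
    (A : Matrix (Fin m ⊕ Fin m) (Fin m ⊕ Fin m) L) (v : Vec d F) :
    Matrix.mulVec (trMat φ A) v = φ (Matrix.mulVec A (φ.symm v)) :=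
  trFun_mulVec φ A v

theorem trMat_injective (φ : (Fin m ⊕ Fin m → L) ≃ₗ[F] Vec d F) :
    Function.Injective (trMat φ) := by
  intro A B h
  apply Cfsg.Agent.H42.mat_ext_mulVecG
  intro w
  have h1 := trMat_mulVec φ A (φ w)
  rw [h, trMat_mulVec, LinearEquiv.symm_apply_apply] at h1
  exact (φ.injective h1).symm

/-- The transported matrices commute with the transported scalars. -/
theorem trMat_comm (φ : (Fin m ⊕ Fin m → L) ≃ₗ[F] Vec d F) (ψ : L →ₐ[F] Mat d F)
    (hφ : ∀ (c : L) (w : Fin m ⊕ Fin m → L), φ (c • w) = Matrix.mulVec (ψ c) (φ w))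
    (A : Matrix (Fin m ⊕ Fin m) (Fin m ⊕ Fin m) L) (c : L) :
    trMat φ A * ψ c = ψ c * trMat φ A := by
  apply Cfsg.Agent.H42.mat_ext_mulVecG
  intro v
  have h1 : φ.symm (Matrix.mulVec (ψ c) v) = c • φ.symm v := by
    apply φ.injective
    rw [LinearEquiv.apply_symm_apply, hφ, LinearEquiv.apply_symm_apply]
  rw [← Matrix.mulVec_mulVec, ← Matrix.mulVec_mulVec, trMat_mulVec, trMat_mulVec, h1,
    Matrix.mulVec_smul, hφ]

/-- An invertible matrix commuting with `K` normalizes `K`. -/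
theorem mem_normalizer_of_comm (K : Subalgebra F (Mat d F))
    (g : Matrix.GeneralLinearGroup (Fin d ⊕ Fin d) F)
    (hg : ∀ a ∈ K, (g : Mat d F) * a = a * (g : Mat d F)) :
    g ∈ Cfsg.Geo.subalgebraNormalizer K := by
  have e1 : ((g⁻¹ : Matrix.GeneralLinearGroup (Fin d ⊕ Fin d) F) : Mat d F) * (g : Mat d F) = 1 := by
    rw [← Units.val_mul, inv_mul_cancel, Units.val_one]
  have e2 : (g : Mat d F) * ((g⁻¹ : Matrix.GeneralLinearGroup (Fin d ⊕ Fin d) F) : Mat d F) = 1 := by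
    rw [← Units.val_mul, mul_inv_cancel, Units.val_one]
  have hcomm : ∀ a ∈ K, (g : Mat d F) * a *
      ((g⁻¹ : Matrix.GeneralLinearGroup (Fin d ⊕ Fin d) F) : Mat d F) = a := by
    intro a ha
    rw [hg a ha, mul_assoc, e2, mul_one]
  intro a
  constructor
  · intro ha
    rw [hcomm a ha]
    exact ha
  · intro ha
    have h1 := hcomm _ ha
    have h2 : a = (g : Mat d F) * a *
        ((g⁻¹ : Matrix.GeneralLinearGroup (Fin d ⊕ Fin d) F) : Mat d F) := by
      have h3 : ((g⁻¹ : Matrix.GeneralLinearGroup (Fin d ⊕ Fin d) F) : Mat d F) *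
          ((g : Mat d F) * ((g : Mat d F) * a *
            ((g⁻¹ : Matrix.GeneralLinearGroup (Fin d ⊕ Fin d) F) : Mat d F)) *
            ((g⁻¹ : Matrix.GeneralLinearGroup (Fin d ⊕ Fin d) F) : Mat d F)) * (g : Mat d F) =
          ((g⁻¹ : Matrix.GeneralLinearGroup (Fin d ⊕ Fin d) F) : Mat d F) *
          ((g : Mat d F) * a *
            ((g⁻¹ : Matrix.GeneralLinearGroup (Fin d ⊕ Fin d) F) : Mat d F)) * (g : Mat d F) := by
        rw [h1]
      have h4 : ((g⁻¹ : Matrix.GeneralLinearGroup (Fin d ⊕ Fin d) F) : Mat d F) *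
          ((g : Mat d F) * ((g : Mat d F) * a *
            ((g⁻¹ : Matrix.GeneralLinearGroup (Fin d ⊕ Fin d) F) : Mat d F)) *
            ((g⁻¹ : Matrix.GeneralLinearGroup (Fin d ⊕ Fin d) F) : Mat d F)) * (g : Mat d F) =
          (((g⁻¹ : Matrix.GeneralLinearGroup (Fin d ⊕ Fin d) F) : Mat d F) * (g : Mat d F)) *
          ((g : Mat d F) * a *
            ((g⁻¹ : Matrix.GeneralLinearGroup (Fin d ⊕ Fin d) F) : Mat d F)) *
          (((g⁻¹ : Matrix.GeneralLinearGroup (Fin d ⊕ Fin d) F) : Mat d F) * (g : Mat d F)) := by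
        simp only [mul_assoc]
      have h5 : ((g⁻¹ : Matrix.GeneralLinearGroup (Fin d ⊕ Fin d) F) : Mat d F) *
          ((g : Mat d F) * a *
            ((g⁻¹ : Matrix.GeneralLinearGroup (Fin d ⊕ Fin d) F) : Mat d F)) * (g : Mat d F) =
          (((g⁻¹ : Matrix.GeneralLinearGroup (Fin d ⊕ Fin d) F) : Mat d F) * (g : Mat d F)) * a *
          (((g⁻¹ : Matrix.GeneralLinearGroup (Fin d ⊕ Fin d) F) : Mat d F) * (g : Mat d F)) := by
        simp only [mul_assoc]
      rw [h4, h5, e1, one_mul, mul_one, one_mul, mul_one] at h3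
      exact h3.symm
    rw [h2]
    exact ha

end Transport

/-- S5975-EMB. -/
theorem emb (hS : StStruct.{u}) : StEmb.{u} := by
  intro F _ _ d k K hK hk
  classical
  obtain ⟨m, L, instL, instFin, instAlg, ψ, φ, hd, hcard, hψK, hKψ, hφ, hform⟩ := hS F d k K hK hk
  refine ⟨m, hd, ?_⟩
  rw [show spOrd (Fintype.card F ^ k) m = Nat.card ↥(Matrix.symplecticGroup (Fin m) L) from
    (Cfsg.Agent.H50.SpCard.card_sp hcard m).symm]
  -- the homomorphism
  let Θ : ↥(Matrix.symplecticGroup (Fin m) L) →* Matrix.GeneralLinearGroup (Fin d ⊕ Fin d) F :=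
    (Units.map (trMat φ)).comp ((Units.map (Matrix.symplecticGroup (Fin m) L).subtype).comp
      (toUnits (G := ↥(Matrix.symplecticGroup (Fin m) L))).toMonoidHom)
  have hΘ : ∀ A : ↥(Matrix.symplecticGroup (Fin m) L),
      ((Θ A : Matrix.GeneralLinearGroup (Fin d ⊕ Fin d) F) : Mat d F) =
        trMat φ (A : Matrix (Fin m ⊕ Fin m) (Fin m ⊕ Fin m) L) := fun A => rfl
  have hmem : ∀ A : ↥(Matrix.symplecticGroup (Fin m) L),
      Θ A ∈ Cfsg.Geo.subalgebraNormalizer K ⊓ Cfsg.spGL d F := by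
    intro A
    refine Subgroup.mem_inf.2 ⟨?_, ?_⟩
    · apply mem_normalizer_of_comm
      intro a ha
      obtain ⟨c, rfl⟩ := hKψ a ha
      rw [hΘ, trMat_comm φ ψ hφ]
    · -- preserves the form
      rw [Cfsg.Agent.H42.mem_spGL_iff']
      intro u v
      rw [hΘ, trMat_mulVec, trMat_mulVec, hform,
        (Cfsg.Agent.H17.mem_symplecticGroup_iff_form m _).1 A.2, ← hform,
        LinearEquiv.apply_symm_apply, LinearEquiv.apply_symm_apply]
  let Θ' : ↥(Matrix.symplecticGroup (Fin m) L) →*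
      ↥(Cfsg.Geo.subalgebraNormalizer K ⊓ Cfsg.spGL d F) := Θ.codRestrict _ hmem
  have hinj : Function.Injective Θ' := by
    intro A B h
    have h1 : Θ A = Θ B := congrArg Subtype.val h
    have h2 : trMat φ (A : Matrix (Fin m ⊕ Fin m) (Fin m ⊕ Fin m) L) = trMat φ B := by
      rw [← hΘ, ← hΘ, h1]
    exact Subtype.ext (trMat_injective φ h2)
  exact Subgroup.card_dvd_of_injective Θ' hinj

example : (StStruct.{u} → StEmb.{u}) := emb

end Cfsg.Agent.H77.Fx
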