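import Mathlib
import Cfsg.Agent.H77.FxDefs
import Cfsg.Agent.H77.SpnGlue
import Cfsg.Agent.H42.ElusSpA

/-!
# S5975 (helper77): assembly

`fx_main` derives the statement S5975 from the pieces of `FxDefs`.
-/

set_option autoImplicit false
open scoped MatrixGroups
open scoped Matrix

namespace Cfsg.Agent.H77.Fx

open Cfsg.Agent.H45 Cfsg.Agent.H42.Spd Cfsg.Agent.H42.Spn Cfsg.Agent.H77.Spn Module

universe u

section Core

variable {F : Type u} [Field F] [Fintype F] {d k : ℕ} {K : Subalgebra F (Mat d F)}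

theorem mem_fixSp (y : Mat d F) (u : Vec d F) : u ∈ fixSp d y ↔ y *ᵥ u = u := by
  rw [LinearMap.mem_ker, LinearMap.sub_apply, Matrix.toLin'_apply, Module.End.one_apply,
    sub_eq_zero]

theorem finrank_vec : Module.finrank F (Vec d F) = 2 * d := by
  rw [Module.finrank_fintype_fun_eq_card, Fintype.card_sum, Fintype.card_fin]
  ring

/-- Commuting case, nondegenerate fixed space: `2 k` divides the codimension of the fixed
space. -/
theorem comm_case (hKD : StKDim.{u}) (hK : KHyp d k K) (y : Mat d F)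
    (hcomm : ∀ a ∈ K, y * a = a * y)
    (hnd : fixSp d y ⊓ perp (stdB d F) (fixSp d y) = ⊥) :
    2 * k ∣ 2 * d - Module.finrank F ↥(fixSp d y) := by
  have hinv : ∀ a ∈ K, ∀ w ∈ perp (stdB d F) (fixSp d y),
      a *ᵥ w ∈ perp (stdB d F) (fixSp d y) := by
    intro a ha w hw u hu
    rw [stdB_apply, ← hK.sa a ha u w, ← stdB_apply]
    apply hw
    rw [mem_fixSp] at hu ⊢
    rw [Matrix.mulVec_mulVec, hcomm a ha, ← Matrix.mulVec_mulVec, hu]
  have h1 := hKD F d k K hK _ hinv (perp_nd d _ hnd)
  have h2 : Module.finrank F ↥(fixSp d y) + Module.finrank F ↥(perp (stdB d F) (fixSp d y))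
      = 2 * d := by
    rw [← finrank_vec (F := F) (d := d)]
    exact finrank_perp d _ hnd
  have h3 : 2 * d - Module.finrank F ↥(fixSp d y)
      = Module.finrank F ↥(perp (stdB d F) (fixSp d y)) := by omega
  rw [h3]
  exact h1

/-- Commuting case: `k` divides the rank of `y - 1`. -/
theorem comm_range (hKV : StKDvd.{u}) (hKf : Cfsg.Geo.IsFieldSubalgebra k K) (y : Mat d F)
    (hcomm : ∀ a ∈ K, y * a = a * y) :
    k ∣ Module.finrank F ↥(LinearMap.range (Matrix.toLin' y - 1)) := by
  apply hKV F d k K hKf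
  rintro a ha _ ⟨v, rfl⟩
  refine ⟨a *ᵥ v, ?_⟩
  simp only [LinearMap.sub_apply, Matrix.toLin'_apply, Module.End.one_apply]
  rw [Matrix.mulVec_sub, Matrix.mulVec_mulVec, Matrix.mulVec_mulVec, hcomm a ha]

end Core

theorem fx_main (hKV : StKDvd.{u}) (hKD : StKDim.{u}) (hSemi : StSemi.{u}) (hAut : StAut.{u})
    (hConjK : StConjK.{u}) (hEmb : StEmb.{u}) (hInvA : StInvA.{u}) (hInvB : StInvB.{u})
    (hC1 : StConj1.{u}) (hC2 : StConj2.{u}) (hTr : StTransv.{u}) (hInvol : StInvol.{u})
    (hMin : StMinEl.{u}) (hIdx : StIdx.{u})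
    {F : Type u} [Field F] [Fintype F] {p : ℕ} [Fact p.Prime] [CharP F p] {q : ℕ}
    (hq : Fintype.card F = q) (d : ℕ) (hd : 2 ≤ d) (k : ℕ) (hk : k.Prime)
    (K : Subalgebra F (Matrix (Fin d ⊕ Fin d) (Fin d ⊕ Fin d) F))
    (hK : Cfsg.Geo.IsFieldSubalgebra k K)
    (hKf : Cfsg.Geo.IsSelfAdjointFor (Cfsg.sympForm d F) K)
    (hKalt : ∀ a ∈ K, ∀ v : Fin d ⊕ Fin d → F, Cfsg.sympForm d F (a *ᵥ v) v = 0)
    (r : ℕ) [Fact r.Prime]
    (hΩ : r ∣ (Cfsg.Geo.subalgebraNormalizer K).relIndex (Cfsg.spGL d F)) :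
    (∀ x ∈ Cfsg.spGL d F, (∃ z : F, ((x ^ r : GL (Fin d ⊕ Fin d) F) :
        Matrix (Fin d ⊕ Fin d) (Fin d ⊕ Fin d) F)
          = z • (1 : Matrix (Fin d ⊕ Fin d) (Fin d ⊕ Fin d) F)) →
      (∀ z : F, (x : Matrix (Fin d ⊕ Fin d) (Fin d ⊕ Fin d) F)
          ≠ z • (1 : Matrix (Fin d ⊕ Fin d) (Fin d ⊕ Fin d) F)) →
      ∃ g ∈ Cfsg.spGL d F, g⁻¹ * x * g ∈ Cfsg.Geo.subalgebraNormalizer K) ↔
    (r = 2 ∧ d = 2 ∧ k = 2 ∧ Odd q) := by
  classical
  have hp : p.Prime := Fact.out
  have hr : r.Prime := Fact.out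
  have hKH : KHyp d k K := ⟨hK, hKf, hKalt⟩
  obtain ⟨n, -, hn⟩ := FiniteField.card F p
  constructor
  · intro hall
    -- a witness of order `r` lies in the normalizer of a conjugate of `K`
    have key : ∀ x ∈ Cfsg.spGL d F, x ^ r = 1 →
        (∀ z : F, (x : Mat d F) ≠ z • (1 : Mat d F)) →
        ∃ K' : Subalgebra F (Mat d F), KHyp d k K' ∧ x ∈ Cfsg.Geo.subalgebraNormalizer K' := by
      intro x hx hxr hns
      obtain ⟨g, hg, hgx⟩ := hall x hx ⟨1, by rw [hxr, one_smul]; rfl⟩ hns
      obtain ⟨K', hK', hN⟩ := hConjK F d k K hKH g hg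
      exact ⟨K', hK', hN x hgx⟩
    by_cases hrp : r = p
    · -- transvections
      exfalso
      obtain ⟨x, hx, hxp, hns, hrank⟩ := hTr F p d (by omega)
      obtain ⟨K', hK', hxN⟩ := key x hx (by rw [hrp]; exact hxp) hns
      by_cases hcomm : ∀ a ∈ K', (x : Mat d F) * a = a * (x : Mat d F)
      · have h1 := comm_range hKV hK'.field (x : Mat d F) hcomm
        rw [hrank, Nat.dvd_one] at h1
        exact hk.ne_one h1
      · push Not at hcomm
        have h1 := hSemi F d k K' hK'.field hk x hxN hcomm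
        have h2 := LinearMap.finrank_range_add_finrank_ker
          (Matrix.toLin' (x : Mat d F) - 1)
        rw [hrank, finrank_vec] at h2
        have h3 : Module.finrank F ↥(fixSp d (x : Mat d F)) = 2 * d - 1 := by
          have : Module.finrank F ↥(fixSp d (x : Mat d F))
              = Module.finrank F ↥(LinearMap.ker (Matrix.toLin' (x : Mat d F) - 1)) := rfl
          omega
        rw [h3] at h1
        have hk2 := hk.two_le
        have h4 : 2 * (2 * d - 1) ≤ k * (2 * d - 1) := Nat.mul_le_mul_right _ hk2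
        omega
    · by_cases hr2 : r = 2
      · -- involutions
        have hp2 : p ≠ 2 := fun h => hrp (hr2.trans h.symm)
        have h2F : (2 : F) ≠ 0 := by
          intro h
          have h1 : ((2 : ℕ) : F) = 0 := by exact_mod_cast h
          rw [CharP.cast_eq_zero_iff F p 2] at h1
          exact hp2 ((Nat.prime_dvd_prime_iff_eq hp Nat.prime_two).mp h1)
        have hoddq : Odd q := by
          rw [← hq, hn]
          exact (hp.odd_of_ne_two hp2).pow
        obtain ⟨x, hx, hxx, hns, hnd, hfix⟩ := hInvol F d hd h2F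
        have hxr : x ^ r = 1 := by
          rw [hr2]
          apply Units.ext
          rw [Units.val_pow_eq_pow_val, pow_two]
          exact hxx
        obtain ⟨K', hK', hxN⟩ := key x hx hxr hns
        by_cases hcomm : ∀ a ∈ K', (x : Mat d F) * a = a * (x : Mat d F)
        · exfalso
          have h1 := comm_case hKD hK' (x : Mat d F) hcomm hnd
          have h3 : 2 * d - Module.finrank F ↥(fixSp d (x : Mat d F)) = 2 := by omega
          rw [h3] at h1
          have h4 := Nat.le_of_dvd (by norm_num) h1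
          have hk2 := hk.two_le
          omega
        · push Not at hcomm
          have h1 := hSemi F d k K' hK'.field hk x hxN hcomm
          have h3 : Module.finrank F ↥(fixSp d (x : Mat d F)) = 2 * d - 2 := by omega
          rw [h3] at h1
          have hk2 := hk.two_le
          have hk3 : k = 2 := by
            by_contra hne
            have hk3 : 3 ≤ k := by omega
            have h4 : 3 * (2 * d - 2) ≤ k * (2 * d - 2) := Nat.mul_le_mul_right _ hk3
            omega
          rw [hk3] at h1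
          exact ⟨hr2, by omega, hk3, hoddq⟩
      · -- odd `r ≠ p`
        exfalso
        obtain ⟨m, hdm, hdiv⟩ := hEmb F d k K hKH hk
        obtain ⟨hc2d, hn2k⟩ := hIdx F p d k m r (Cfsg.Geo.subalgebraNormalizer K) hr hr2 hrp hdm
          hk.pos hdiv hΩ
        obtain ⟨x, hx, hxr, hns, hnd, hfix⟩ := hMin F p r hr hr2 hrp d hc2d
        obtain ⟨K', hK', hxN⟩ := key x hx hxr hns
        by_cases hcomm : ∀ a ∈ K', (x : Mat d F) * a = a * (x : Mat d F)
        · have h1 := comm_case hKD hK' (x : Mat d F) hcomm hnd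
          have h3 : 2 * d - Module.finrank F ↥(fixSp d (x : Mat d F)) = cc F r := by omega
          rw [h3] at h1
          exact hn2k h1
        · by_cases hrk : r = k
          · push Not at hcomm
            have h1 := hSemi F d k K' hK'.field hk x hxN hcomm
            -- `c ≤ r - 1`
            have hrq : ¬ r ∣ Fintype.card F := by
              rw [hn]
              intro h
              exact hrp ((Nat.prime_dvd_prime_iff_eq hr hp).mp (hr.dvd_of_dvd_pow h))
            have hq0 : ((Fintype.card F : ℕ) : ZMod r) ≠ 0 := by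
              intro h
              exact hrq ((ZMod.natCast_eq_zero_iff _ _).mp h)
            have hord : orderOf ((Fintype.card F : ℕ) : ZMod r) ∣ r - 1 :=
              orderOf_dvd_of_pow_eq_one (ZMod.pow_card_sub_one_eq_one hq0)
            have hcle := cc_le (F := F) r hr hr2 hord
            have hm1 : 1 ≤ m := by
              rcases Nat.eq_zero_or_pos m with h0 | h0
              · rw [h0, mul_zero] at hdm
                omega
              · exact h0
            have hkd : k ≤ d := by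
              rw [hdm]
              exact Nat.le_mul_of_pos_right k hm1
            have hk2 := hk.two_le
            have hcle' : cc F r ≤ k - 1 := by
              rw [← hrk]
              exact hcle
            -- `φ + c = 2 d`, `c ≤ k - 1`, `k φ ≤ 2 d`, `k ≤ d`
            generalize Module.finrank F ↥(fixSp d (x : Mat d F)) = φ at h1 hfix
            have h5 : 2 * d + 1 ≤ φ + k := by omega
            have h6 : k * (2 * d + 1) ≤ k * (φ + k) := Nat.mul_le_mul_left _ h5
            have h7 : k * k ≤ k * d := Nat.mul_le_mul_left _ hkd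
            have h8 : 2 * d ≤ k * d := Nat.mul_le_mul_right d hk2
            nlinarith
          · apply hcomm
            exact hAut F d k K' hK'.field hk x r 1 hxN hr hrk (by rw [hxr, one_smul]; rfl)
  · rintro ⟨hr2, hd2, hk2, hodd⟩
    subst hd2
    subst hk2
    intro x hx hz hns
    obtain ⟨z, hz⟩ := hz
    have hp2 : p ≠ 2 := by
      intro h
      rw [← hq, hn, h] at hodd
      have : Even (2 ^ (n : ℕ)) := (Nat.even_pow.mpr ⟨even_two, n.pos.ne'⟩)
      exact (Nat.not_odd_iff_even.mpr this) hodd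
    have h2F : (2 : F) ≠ 0 := by
      intro h
      have h1 : ((2 : ℕ) : F) = 0 := by exact_mod_cast h
      rw [CharP.cast_eq_zero_iff F p 2] at h1
      exact hp2 ((Nat.prime_dvd_prime_iff_eq hp Nat.prime_two).mp h1)
    have hxx : (x : Mat 2 F) * (x : Mat 2 F) = z • (1 : Mat 2 F) := by
      rw [hr2, Units.val_pow_eq_pow_val, pow_two] at hz
      exact hz
    -- `z ^ 2 = 1`
    have hzz : z * z = 1 := by
      have h1 := (Cfsg.Agent.H42.mem_spGL_iff' x).mp hx
      have h2 := (h1 ((x : Mat 2 F) *ᵥ (Pi.single (Sum.inr ⟨0, by norm_num⟩) 1))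
        ((x : Mat 2 F) *ᵥ (Pi.single (Sum.inl ⟨0, by norm_num⟩) 1))).trans (h1 _ _)
      rw [Matrix.mulVec_mulVec, Matrix.mulVec_mulVec, hxx, Matrix.smul_mulVec,
        Matrix.smul_mulVec, Matrix.one_mulVec, Matrix.one_mulVec] at h2
      have h3 : Cfsg.sympForm 2 F (z • (Pi.single (Sum.inr ⟨0, by norm_num⟩) 1 : Vec 2 F))
          (z • (Pi.single (Sum.inl ⟨0, by norm_num⟩) 1 : Vec 2 F))
          = z * z * Cfsg.sympForm 2 F (Pi.single (Sum.inr ⟨0, by norm_num⟩) 1 : Vec 2 F)
            (Pi.single (Sum.inl ⟨0, by norm_num⟩) 1 : Vec 2 F) := by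
        rw [← stdB_apply, ← stdB_apply, stdB_smul_smul]
      rw [h3, Cfsg.Agent.H42.symp_e0_f0 (by norm_num : 1 ≤ 2), mul_one] at h2
      exact h2
    have hz1 : z = 1 ∨ z = -1 := by
      have h1 : (z - 1) * (z + 1) = 0 := by ring_nf; rw [show z ^ 2 = z * z by ring, hzz]; ring
      rcases mul_eq_zero.mp h1 with h | h
      · left; exact sub_eq_zero.mp h
      · right; exact eq_neg_of_add_eq_zero_left h
    rcases hz1 with rfl | rfl
    · obtain ⟨y, hy1, hy2, hy3, hy4⟩ := hInvA F 2 K hKH
      obtain ⟨g, hg, hgx⟩ := hC1 F h2F x y hx hy1 (by rw [hxx, one_smul]) hy3 hns hy4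
      exact ⟨g, hg, by rw [hgx]; exact hy2⟩
    · obtain ⟨y, hy1, hy2, hy3⟩ := hInvB F 2 2 K hKH hk
      obtain ⟨g, hg, hgx⟩ := hC2 F 2 h2F x y hx hy1 (by rw [hxx, neg_smul, one_smul]) hy3
      exact ⟨g, hg, by rw [hgx]; exact hy2⟩

end Cfsg.Agent.H77.Fx
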