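import Mathlib
import Cfsg.Agent.H77.FxDefs
import Cfsg.Agent.H77.SpdFix
import Cfsg.Agent.H42.SpdEx
import Cfsg.Agent.H42.ElusSpA

/-!
# S5975-MINEL (helper77): an element of order `r` with `[V, x]` of minimal dimension
-/

set_option autoImplicit false
set_option linter.style.haveILetI false

namespace Cfsg.Agent.H77.Fx

open Cfsg.Agent.H45 Cfsg.Agent.H42.Spd Module

universe u

/-- S5975-MINEL. -/
theorem minEl : StMinEl.{u} := by
  intro F _ _ p _ _ r hr hr2 hrp d hcd
  classical
  have hp : p.Prime := Fact.out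
  have hpr : ¬ p ∣ r := fun h => hrp ((Nat.prime_dvd_prime_iff_eq hp hr).mp h).symm
  have hrF : (r : F) ≠ 0 := by
    intro h0
    exact hpr ((CharP.cast_eq_zero_iff F p r).mp h0)
  have hipos : 0 < orderOf (Fintype.card F : ZMod r) :=
    Cfsg.Agent.H99.El.orderOf_card_pos r hr hrF
  have hcpos : 0 < cc F r := cc_pos r hipos
  have hfinV : Module.finrank F (Fin d ⊕ Fin d → F) = 2 * d := by
    rw [Module.finrank_fintype_fun_eq_card, Fintype.card_sum, Fintype.card_fin]
    ring
  obtain ⟨x₀, hx₀r, hx₀fix⟩ := Cfsg.Agent.H42.Spd.ex F p r hr hr2 hrp d 1 (by rw [mul_one]; exact hcd)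
  rw [mul_one] at hx₀fix
  set A : Matrix (Fin d ⊕ Fin d) (Fin d ⊕ Fin d) F := (x₀ : Matrix (Fin d ⊕ Fin d) (Fin d ⊕ Fin d) F)
    with hA
  have hAr : A ^ r = 1 := by
    have := congrArg (Subtype.val) hx₀r
    simpa using this
  set x : ↥(Cfsg.spGL d F) := Cfsg.Agent.H42.spGLEquiv.symm x₀ with hx
  have hxA : ((x : Matrix.GeneralLinearGroup (Fin d ⊕ Fin d) F) : Mat d F) = A := by
    have := Cfsg.Agent.H42.spGLEquiv_coe x
    rw [hx, Equiv.apply_symm_apply] at this
    exact this.symm
  refine ⟨x, x.2, ?_, ?_, ?_, ?_⟩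
  · apply Units.ext
    rw [Units.val_pow_eq_pow_val, hxA, hAr]
    rfl
  · intro z hz
    rw [hxA] at hz
    -- z^2 = 1 and z^r = 1, so z = 1
    have hd : 0 < d := by omega
    have hz2 : z * z = 1 := by
      have hmem := (Cfsg.Agent.H17.mem_symplecticGroup_iff_form d A).1 x₀.2
      -- a pair with form value 1
      obtain ⟨u, v, huv⟩ : ∃ u v : Fin d ⊕ Fin d → F, Cfsg.sympForm d F u v ≠ 0 := by
        by_contra hcon
        push Not at hcon
        have h1 : (Pi.single (Sum.inl ⟨0, hd⟩) 1 : Fin d ⊕ Fin d → F) = 0 := by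
          apply stdB_nondeg d
          intro y
          rw [stdB_apply]
          exact hcon _ _
        have h2 := congrFun h1 (Sum.inl ⟨0, hd⟩)
        simp at h2
      have h3 := hmem u v
      rw [hz, Matrix.smul_mulVec, Matrix.smul_mulVec, Matrix.one_mulVec, Matrix.one_mulVec,
        ← stdB_apply, ← stdB_apply, stdB_smul_smul] at h3
      have h4 : (z * z - 1) * stdB d F u v = 0 := by linear_combination h3
      rcases mul_eq_zero.mp h4 with h5 | h5
      · exact sub_eq_zero.mp h5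
      · exact absurd (by rw [← stdB_apply]; exact h5) huv
    have hzr : z ^ r = 1 := by
      have h1 : (z • (1 : Mat d F)) ^ r = 1 := by rw [← hz]; exact hAr
      rw [smul_pow, one_pow] at h1
      have h2 := congrFun (congrFun h1 (Sum.inl ⟨0, hd⟩)) (Sum.inl ⟨0, hd⟩)
      simpa using h2
    have hz1 : z = 1 := by
      obtain ⟨t, ht⟩ := hr.eq_two_or_odd'.resolve_left hr2
      have h1 : z ^ (2 * t) = 1 := by rw [pow_mul, pow_two, hz2, one_pow]
      rw [ht, pow_succ, h1, one_mul] at hzr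
      exact hzr
    rw [hz1, one_smul] at hz
    have hfix : LinearMap.ker (Matrix.toLin' A - 1) = ⊤ := by
      rw [eq_top_iff]
      intro v _
      rw [LinearMap.mem_ker, hz, Matrix.toLin'_one]
      simp
    rw [hfix, finrank_top, hfinV] at hx₀fix
    omega
  · rw [hxA]
    have hisom : ∀ u v, stdB d F (Matrix.toLin' A u) (Matrix.toLin' A v) = stdB d F u v :=
      stdB_isom d A x₀.2
    have hT : (Matrix.toLin' A) ^ r = 1 := by
      rw [← Matrix.toLin'_pow, hAr, Matrix.toLin'_one]
      rfl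
    have hctx : Ctx r (stdB d F) (Matrix.toLin' A) :=
      ⟨hr, hr2, hrF, stdB_good d p r hpr _ hisom hT, hT⟩
    have hrefl : ∀ x y : Fin d ⊕ Fin d → F, stdB d F x y = 0 → stdB d F y x = 0 := by
      intro x y h
      rw [stdB_skew, h, neg_zero]
    have hnd := Cfsg.Agent.H77.Spd.fix F (Fin d ⊕ Fin d → F) r (stdB d F) (Matrix.toLin' A) hctx ⊤
      (nd_top (stdB d F) (Matrix.toLin' A) (stdB_nondeg d) hrefl)
    rw [top_inf_eq] at hnd
    exact hnd.2
  · rw [hxA]
    exact hx₀fix

example : StMinEl.{u} := minEl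

end Cfsg.Agent.H77.Fx
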