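import Mathlib
import Cfsg.Agent.H77.FxDefs

/-!
# S5975-STRUCT (helper77): the `K`-structure on `F^{2d}`
-/

set_option autoImplicit false
set_option linter.style.haveILetI false

namespace Cfsg.Agent.H77.Fx

open Cfsg.Agent.H45 Cfsg.Agent.H42.Spd Module

universe u

/-- The structure theorem for an abstract field `L` acting through `ψ`. -/
theorem struct_aux (hT : StTrForm.{u}) (hB : StSympBasis.{u}) (F : Type u) [Field F] [Fintype F]
    (d : ℕ) (L : Type u) [Field L] [Fintype L] [Algebra F L] (ψ : L →ₐ[F] Mat d F)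
    (hsa : ∀ (c : L) (u v : Vec d F), Cfsg.sympForm d F (Matrix.mulVec (ψ c) u) v =
      Cfsg.sympForm d F u (Matrix.mulVec (ψ c) v))
    (halt : ∀ (c : L) (v : Vec d F), Cfsg.sympForm d F (Matrix.mulVec (ψ c) v) v = 0) :
    ∃ (m : ℕ) (φ : (Fin m ⊕ Fin m → L) ≃ₗ[F] Vec d F),
      2 * d = Module.finrank F L * (2 * m) ∧
      (∀ (c : L) (w : Fin m ⊕ Fin m → L), φ (c • w) = Matrix.mulVec (ψ c) (φ w)) ∧
      (∀ w w' : Fin m ⊕ Fin m → L,
        Cfsg.sympForm d F (φ w) (φ w') = Algebra.trace F L (Cfsg.sympForm m L w w')) := by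
  classical
  let ρ : L →ₐ[F] Module.End F (Vec d F) :=
    (Matrix.toLinAlgEquiv' : Mat d F ≃ₐ[F] Module.End F (Vec d F)).toAlgHom.comp ψ
  letI instM : Module L (Vec d F) := Module.compHom (Vec d F) (ρ : L →+* Module.End F (Vec d F))
  have hsmul : ∀ (c : L) (v : Vec d F), c • v = Matrix.mulVec (ψ c) v := by
    intro c v
    show ρ c v = _
    simp [ρ]
  haveI instT : IsScalarTower F L (Vec d F) := by
    refine ⟨fun a c v => ?_⟩
    rw [hsmul, hsmul, map_smul, Matrix.smul_mulVec]
  haveI instFD : FiniteDimensional L (Vec d F) := Module.Finite.right F L (Vec d F)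
  obtain ⟨B, hB1, hB2, hB3⟩ := hT F L (Vec d F) (stdB d F) (by
    intro c u v
    rw [stdB_apply, stdB_apply, hsmul, hsmul]
    exact hsa c u v)
  have hBalt : ∀ v, B v v = 0 := hB2 (by
    intro c v
    rw [stdB_apply, hsmul]
    exact halt c v)
  have hBnd : ∀ u, (∀ v, B u v = 0) → u = 0 := hB3 (fun u hu => stdB_nondeg d u hu)
  obtain ⟨m, e, he⟩ := hB L (Vec d F) B hBalt hBnd
  refine ⟨m, e.restrictScalars F, ?_, ?_, ?_⟩
  · have h1 : Module.finrank F (Vec d F) = 2 * d := by
      rw [Module.finrank_fintype_fun_eq_card, Fintype.card_sum, Fintype.card_fin]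
      ring
    have h2 : Module.finrank L (Vec d F) = 2 * m := by
      rw [← e.finrank_eq, Module.finrank_fintype_fun_eq_card, Fintype.card_sum, Fintype.card_fin]
      ring
    rw [← h1, ← h2, Module.finrank_mul_finrank F L (Vec d F)]
  · intro c w
    show e (c • w) = _
    rw [map_smul, hsmul]
    rfl
  · intro w w'
    show Cfsg.sympForm d F (e w) (e w') = _
    rw [← stdB_apply, hB1, he]

/-- S5975-STRUCT. -/
theorem struct (hT : StTrForm.{u}) (hB : StSympBasis.{u}) : StStruct.{u} := by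
  intro F _ _ d k K hK hk
  classical
  have hfr := hK.field.finrank_eq
  have hnt : Nontrivial ↥K :=
    Module.nontrivial_of_finrank_pos (R := F) (by rw [hfr]; exact hk.pos)
  have hfld : IsField ↥K :=
    { exists_pair_ne := ⟨0, 1, zero_ne_one⟩
      mul_comm := fun a b => Subtype.ext (hK.field.comm a a.2 b b.2)
      mul_inv_cancel := fun {a} ha => by
        obtain ⟨y, hy, hxy⟩ := hK.field.inv a a.2 (fun h => ha (Subtype.ext h))
        exact ⟨⟨y, hy⟩, Subtype.ext hxy⟩ }
  letI instF : Field ↥K := hfld.toField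
  letI instFin : Fintype ↥K := Fintype.ofFinite _
  obtain ⟨m, φ, hdim, hφ, hform⟩ := struct_aux hT hB F d ↥K K.val
    (fun c u v => hK.sa c c.2 u v) (fun c v => hK.alt c c.2 v)
  refine ⟨m, ↥K, instF, instFin, inferInstance, K.val, φ, ?_, ?_, fun c => c.2,
    fun a ha => ⟨⟨a, ha⟩, rfl⟩, hφ, hform⟩
  · rw [hfr] at hdim
    have : k * (2 * m) = 2 * (k * m) := by ring
    omega
  · rw [← hfr]
    exact Module.card_eq_pow_finrank (K := F) (V := ↥K)

example : (StTrForm.{u} → StSympBasis.{u} → StStruct.{u}) := struct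

end Cfsg.Agent.H77.Fx
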