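import Mathlib
import Cfsg.Agent.H79.HtDefs
import Cfsg.Agent.H75.HcGT0
import Cfsg.Agent.H80.GroupBasic
import Cfsg.Agent.S0169

/-!
# S4439-H1 (helper77, for helper79): with a central `p'`-core, the `p`-part of an irreducible
degree is at most `|P : Z(P)|`
-/

set_option autoImplicit false

namespace Cfsg.Agent.H77.Hc

open Cfsg Cfsg.Agent.H79.Hc

universe u

theorem stmtHtCentral (p : ℕ) [Fact p.Prime] : StmtHtCentral.{u} p := by
  intro Γ _ _ hsolv hZ ξ P
  have hp : p.Prime := Fact.out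
  have hZn : (pPrimeCore p Γ).Normal := H80.pPrimeCore_normal p Γ
  have hQn : (pCore p Γ).Normal := H80.pCore_normal p Γ
  have hQp : IsPGroup p (pCore p Γ) := H80.pCore_isPGroup p Γ
  have hQP : pCore p Γ ≤ (P : Subgroup Γ) := hQp.le_sylow_of_normal P
  have hcent := (Cfsg.Agent.H75.Hc.stmtGT0 p Γ hsolv hZ).1
  -- A := Z(Q)
  obtain ⟨A, hA⟩ : ∃ A : Subgroup Γ, A = (Subgroup.center ↥(pCore p Γ)).map (pCore p Γ).subtype :=
    ⟨_, rfl⟩
  have hAmem : ∀ x : Γ, x ∈ A ↔ x ∈ pCore p Γ ∧ ∀ y ∈ pCore p Γ, y * x = x * y := by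
    intro x
    rw [hA, Subgroup.mem_map]
    constructor
    · rintro ⟨a, ha, rfl⟩
      refine ⟨a.2, fun y hy => ?_⟩
      have := Subgroup.mem_center_iff.1 ha ⟨y, hy⟩
      exact congrArg Subtype.val this
    · rintro ⟨hx, hcomm⟩
      refine ⟨⟨x, hx⟩, ?_, rfl⟩
      rw [Subgroup.mem_center_iff]
      intro y
      exact Subtype.ext (hcomm y y.2)
  have hAn : A.Normal := by
    constructor
    intro x hx g
    rw [hAmem] at hx ⊢
    refine ⟨hQn.conj_mem x hx.1 g, fun y hy => ?_⟩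
    have h1 := hx.2 (g⁻¹ * y * g) (by have := hQn.conj_mem y hy g⁻¹; simpa using this)
    calc y * (g * x * g⁻¹) = g * ((g⁻¹ * y * g) * x) * g⁻¹ := by group
      _ = g * (x * (g⁻¹ * y * g)) * g⁻¹ := by rw [h1]
      _ = g * x * g⁻¹ * y := by group
  have hAab : ∀ a ∈ A, ∀ b ∈ A, a * b = b * a := by
    intro a ha b hb
    exact ((hAmem b).1 hb).2 a ((hAmem a).1 ha).1
  have hAP : A ≤ (P : Subgroup Γ) := fun x hx => hQP ((hAmem x).1 hx).1
  -- Itô
  obtain ⟨n, ρ, hirr, hχ⟩ := ξ.2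
  have := hirr
  have hito : Module.finrank ℂ (Fin n → ℂ) ∣ A.index := Cfsg.Agent.S0169.result ρ A hAab
  have hdeg : charDegree (ξ : Γ → ℂ) = n := by
    have h1 : (ξ : Γ → ℂ) 1 = (n : ℂ) := by
      rw [← hχ, Representation.char_one]
      simp
    unfold charDegree
    rw [h1]
    simp
  have hdvd : charDegree (ξ : Γ → ℂ) ∣ A.index := by
    rw [hdeg]
    simpa using hito
  -- Z(P) ≤ A
  have hZPA : (Subgroup.center ↥(P : Subgroup Γ)).map (P : Subgroup Γ).subtype ≤ A := by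
    rintro _ ⟨z, hz, rfl⟩
    have hzc : ∀ y ∈ (P : Subgroup Γ), y * (z : Γ) = (z : Γ) * y := by
      intro y hy
      have := Subgroup.mem_center_iff.1 hz ⟨y, hy⟩
      exact congrArg Subtype.val this
    have hzC : (z : Γ) ∈ Subgroup.centralizer ((pCore p Γ : Subgroup Γ) : Set Γ) := by
      rw [Subgroup.mem_centralizer_iff]
      intro y hy
      exact hzc y (hQP hy)
    have h3 : (z : Γ) ∈ ((pCore p Γ ⊔ pPrimeCore p Γ : Subgroup Γ) : Set Γ) := hcent hzC
    rw [Subgroup.mul_normal] at h3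
    obtain ⟨q, hq, c, hc, hqc⟩ := Set.mem_mul.1 h3
    have hcP : c ∈ (P : Subgroup Γ) := by
      have h4 : c = q⁻¹ * (z : Γ) := by rw [← hqc]; group
      rw [h4]
      exact Subgroup.mul_mem _ (Subgroup.inv_mem _ (hQP hq)) z.2
    have hc1 : c = 1 := by
      obtain ⟨k, hk⟩ := P.2 ⟨c, hcP⟩
      have hord : orderOf c ∣ p ^ k := by
        apply orderOf_dvd_of_pow_eq_one
        simpa using congrArg Subtype.val hk
      have hord2 : orderOf c ∣ Nat.card (pPrimeCore p Γ) := by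
        have h1 : orderOf (⟨c, hc⟩ : pPrimeCore p Γ) ∣ Nat.card (pPrimeCore p Γ) :=
          orderOf_dvd_natCard _
        rwa [Subgroup.orderOf_mk] at h1
      have hcop : Nat.Coprime (p ^ k) (Nat.card (pPrimeCore p Γ)) :=
        Nat.Coprime.pow_left k (H80.pPrimeCore_coprime p Γ).symm
      exact orderOf_eq_one_iff.1 (Nat.eq_one_of_dvd_coprimes hcop hord hord2)
    rw [hc1, mul_one] at hqc
    show (z : Γ) ∈ A
    rw [hAmem, ← hqc]
    refine ⟨hq, fun y hy => ?_⟩
    rw [hqc]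
    exact hzc y (hQP hy)
  -- numerics
  have hrel : ((Subgroup.center ↥(P : Subgroup Γ)).map (P : Subgroup Γ).subtype).relIndex
      (P : Subgroup Γ) = (Subgroup.center ↥(P : Subgroup Γ)).index := by
    rw [Subgroup.relIndex]
    show (((Subgroup.center ↥(P : Subgroup Γ)).map (P : Subgroup Γ).subtype).comap
      (P : Subgroup Γ).subtype).index = _
    rw [Subgroup.comap_map_eq_self_of_injective (Subgroup.subtype_injective _)]
  have h1 : A.relIndex (P : Subgroup Γ) ∣ (Subgroup.center ↥(P : Subgroup Γ)).index := by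
    rw [← hrel]
    exact Subgroup.relIndex_dvd_of_le_left _ hZPA
  have h2 : A.relIndex (P : Subgroup Γ) * (P : Subgroup Γ).index = A.index :=
    Subgroup.relIndex_mul_index hAP
  have hm0 : (Subgroup.center ↥(P : Subgroup Γ)).index ≠ 0 := Subgroup.index_ne_zero_of_finite
  have h3 : p ^ (charDegree (ξ : Γ → ℂ)).factorization p ∣
      A.relIndex (P : Subgroup Γ) * (P : Subgroup Γ).index := by
    rw [h2]
    exact (Nat.ordProj_dvd _ p).trans hdvd
  have hcop : Nat.Coprime (p ^ (charDegree (ξ : Γ → ℂ)).factorization p)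
      (P : Subgroup Γ).index :=
    Nat.Coprime.pow_left _ ((Nat.Prime.coprime_iff_not_dvd hp).2 P.not_dvd_index)
  have h4 : p ^ (charDegree (ξ : Γ → ℂ)).factorization p ∣
      (Subgroup.center ↥(P : Subgroup Γ)).index :=
    (hcop.dvd_of_dvd_mul_right h3).trans h1
  exact (hp.pow_dvd_iff_le_factorization hm0).1 h4

example (p : ℕ) [Fact p.Prime] : StmtHtCentral.{u} p := stmtHtCentral p

end Cfsg.Agent.H77.Hc
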