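import Mathlib
import Cfsg.Agent.H79.HtDefs

/-!
# S4439-H2 (helper77, for helper79): a surjection with `p'`-kernel preserves `|P : Z(P)|`
-/

set_option autoImplicit false

namespace Cfsg.Agent.H77.Hc

open Cfsg Cfsg.Agent.H79.Hc

universe u

/-- The index of the centre is invariant under isomorphism. -/
theorem index_center_congr {A B : Type*} [Group A] [Group B] (e : A ≃* B) :
    (Subgroup.center A).index = (Subgroup.center B).index := by
  have h1 : (Subgroup.center B).comap e.toMonoidHom = Subgroup.center A := by
    ext x
    rw [Subgroup.mem_comap, Subgroup.mem_center_iff, Subgroup.mem_center_iff]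
    constructor
    · intro h a
      apply e.injective
      have := h (e a)
      simpa using this
    · intro h b
      obtain ⟨a, rfl⟩ := e.surjective b
      have := congrArg e (h a)
      simpa using this
  rw [← h1]
  exact Subgroup.index_comap_of_surjective _ e.surjective

theorem stmtSylowCenter (p : ℕ) [Fact p.Prime] : StmtSylowCenter.{u} p := by
  intro X Y _ _ _ _ f hf hker P Q
  -- `f` is injective on `P`
  have hinj : Function.Injective (f.subgroupMap (P : Subgroup X)) := by
    rw [injective_iff_map_eq_one]
    intro x hx
    have hx1 : f (x : X) = 1 := congrArg Subtype.val hx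
    have hxk : (x : X) ∈ f.ker := hx1
    -- the order of x is a power of p and divides |ker f|
    obtain ⟨k, hk⟩ := (P.2 x)
    have hord : orderOf (x : X) ∣ p ^ k := by
      apply orderOf_dvd_of_pow_eq_one
      have := congrArg Subtype.val hk
      simpa using this
    have hord2 : orderOf (x : X) ∣ Nat.card f.ker := by
      have h1 : orderOf (⟨(x : X), hxk⟩ : f.ker) ∣ Nat.card f.ker := orderOf_dvd_natCard _
      rwa [Subgroup.orderOf_mk] at h1
    have hcop : Nat.Coprime (p ^ k) (Nat.card f.ker) := (Nat.Coprime.pow_left k hker.symm)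
    have h1 : orderOf (x : X) = 1 := Nat.eq_one_of_dvd_coprimes hcop hord hord2
    have h2 : (x : X) = 1 := orderOf_eq_one_iff.1 h1
    exact Subtype.ext h2
  let e1 : ↥(P : Subgroup X) ≃* ↥((P : Subgroup X).map f) :=
    MulEquiv.ofBijective (f.subgroupMap (P : Subgroup X))
      ⟨hinj, f.subgroupMap_surjective (P : Subgroup X)⟩
  let P' : Sylow p Y := P.mapSurjective hf
  have hP' : (P' : Subgroup Y) = (P : Subgroup X).map f := Sylow.coe_mapSurjective hf P
  let e2 : ↥(P' : Subgroup Y) ≃* ↥(Q : Subgroup Y) := Sylow.equiv P' Q
  have h1 : (Subgroup.center ↥(P : Subgroup X)).index =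
      (Subgroup.center ↥((P : Subgroup X).map f)).index := index_center_congr e1
  have h2 : (Subgroup.center ↥(P' : Subgroup Y)).index =
      (Subgroup.center ↥(Q : Subgroup Y)).index := index_center_congr e2
  have h3 : (Subgroup.center ↥(P' : Subgroup Y)).index =
      (Subgroup.center ↥((P : Subgroup X).map f)).index :=
    index_center_congr (MulEquiv.subgroupCongr hP')
  rw [h1, ← h3, h2]

example (p : ℕ) [Fact p.Prime] : StmtSylowCenter.{u} p := stmtSylowCenter p

end Cfsg.Agent.H77.Hc
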