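import Mathlib
import Cfsg.Agent.H45.MDefs
import Cfsg.Agent.H45.MSeed
import Cfsg.Agent.H44.MBase
import Cfsg.Agent.H60.MUnip

/-!
# helper77: shared lemmas for the pieces P-UNIPC and P-SPREAD of S2414 (helper45's project)
-/

set_option autoImplicit false
set_option linter.unusedSectionVars false
set_option linter.unusedVariables false

namespace Cfsg.Agent.H77.MP

open Matrix Cfsg.Agent.H49 Cfsg.Agent.H45.M

variable {F : Type*} [Field F] {k : ℕ}

/-- An upper unipotent element whose `γ` occurs in `K` lies in `K`, once `K` contains all the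
alternating central elements. -/
theorem mem_of_unipC {a b : F} (K : Subgroup (OM k F a b))
    (hZ : ∀ S : Matrix (Fin k) (Fin k) F, (∀ y : Fin k → F, y ⬝ᵥ S *ᵥ y = 0) →
      S ∈ Cfsg.Agent.H60.M.unipZ K)
    {h : OM k F a b} {γ : Matrix (Fin 2) (Fin k) F} {S : Matrix (Fin k) (Fin k) F}
    (hU : IsU h γ S) (hγ : γ ∈ Cfsg.Agent.H60.M.unipC K) : h ∈ K := by
  obtain ⟨h₀, hK₀, S₀, hS₀⟩ := hγ
  have hdU : IsU (h₀⁻¹ * h) 0 (S - S₀) := Cfsg.Agent.H60.M.isU_inv_mul hU hS₀
  have halt : ∀ y : Fin k → F, y ⬝ᵥ (S - S₀) *ᵥ y = 0 := by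
    intro y
    have hq := Q_act (QMin k F a b) (h₀⁻¹ * h) (tri 0 y 0)
    rw [hdU, QMin_tri, QMin_tri] at hq
    have e : (0 : Fin k → F) + (S - S₀) *ᵥ y
        - ((0 : Matrix (Fin 2) (Fin k) F)ᵀ * gam a b) *ᵥ (0 : Fin 2 → F) = (S - S₀) *ᵥ y := by
      simp
    have e' : (0 : Fin 2 → F) + (0 : Matrix (Fin 2) (Fin k) F) *ᵥ y = 0 := by simp
    rw [e, e'] at hq
    simp only [map_zero, add_zero, zero_dotProduct] at hq
    rw [dotProduct_comm]
    exact hq
  obtain ⟨h'', hK'', hS''⟩ := hZ (S - S₀) halt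
  have heq : h₀⁻¹ * h = h'' := isometry_ext (fun v => by
    obtain ⟨x, y, z, rfl⟩ := tri_eta v
    exact (hdU x y z).trans (hS'' x y z).symm)
  have hh : h = h₀ * h'' := by rw [← heq]; group
  rw [hh]
  exact K.mul_mem hK₀ hK''

/-- Commutator of two upper unipotent elements of `K`. -/
theorem comm_mem_unipZ' {a b : F} (K : Subgroup (OM k F a b))
    (γ γ' : Matrix (Fin 2) (Fin k) F) (hγ : γ ∈ Cfsg.Agent.H60.M.unipC K)
    (hγ' : γ' ∈ Cfsg.Agent.H60.M.unipC K) :
    γ'ᵀ * gam a b * γ - γᵀ * gam a b * γ' ∈ Cfsg.Agent.H60.M.unipZ K := by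
  obtain ⟨h, hK, S, hS⟩ := hγ
  obtain ⟨h', hK', S', hS'⟩ := hγ'
  have h1 := Cfsg.Agent.H60.M.isU_mul hS hS'
  have h2 := Cfsg.Agent.H60.M.isU_congr (Cfsg.Agent.H60.M.isU_mul hS' hS) (add_comm γ' γ) rfl
  have h3 := Cfsg.Agent.H60.M.isU_inv_mul h1 h2
  exact ⟨_, K.mul_mem (K.inv_mem (K.mul_mem hK' hK)) (K.mul_mem hK hK'),
    Cfsg.Agent.H60.M.isU_congr h3 rfl (by abel)⟩

/-- An alternating matrix is a sum of elementary alternating matrices. -/
theorem alt_mem_of_elem (P : AddSubmonoid (Matrix (Fin k) (Fin k) F))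
    (helem : ∀ w w' : Fin k → F, vecMulVec w' w - vecMulVec w w' ∈ P)
    (S : Matrix (Fin k) (Fin k) F) (hS : ∀ y : Fin k → F, y ⬝ᵥ S *ᵥ y = 0) : S ∈ P := by
  have hdiag : ∀ p, S p p = 0 := by
    intro p
    have h := hS (Pi.single p 1)
    rw [Matrix.mulVec_single_one, single_one_dotProduct, Matrix.col_apply] at h
    exact h
  have hanti : ∀ p q, S p q + S q p = 0 := by
    intro p q
    have h := hS (Pi.single p 1 + Pi.single q 1)
    rw [Matrix.mulVec_add, Matrix.mulVec_single_one, Matrix.mulVec_single_one, add_dotProduct,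
      dotProduct_add, dotProduct_add, single_one_dotProduct, single_one_dotProduct,
      single_one_dotProduct, single_one_dotProduct, Matrix.col_apply, Matrix.col_apply,
      Matrix.col_apply, Matrix.col_apply, hdiag, hdiag] at h
    linear_combination h
  have hsum : S = ∑ i : Fin k, (vecMulVec (Pi.single i 1) (fun j => if i < j then S i j else 0)
      - vecMulVec (fun j => if i < j then S i j else 0) (Pi.single i 1)) := by
    ext p q
    rw [Matrix.sum_apply]
    simp only [Matrix.sub_apply, Matrix.vecMulVec_apply, Finset.sum_sub_distrib]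
    have s1 : ∑ i : Fin k, ((Pi.single i (1 : F) : Fin k → F) p) * (if i < q then S i q else 0)
        = if p < q then S p q else 0 := by
      rw [Finset.sum_eq_single p]
      · rw [Pi.single_eq_same, one_mul]
      · intro i _ hi
        rw [Pi.single_eq_of_ne (Ne.symm hi), zero_mul]
      · intro h
        exact absurd (Finset.mem_univ p) h
    have s2 : ∑ i : Fin k, (if i < p then S i p else 0) * ((Pi.single i (1 : F) : Fin k → F) q)
        = if q < p then S q p else 0 := by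
      rw [Finset.sum_eq_single q]
      · rw [Pi.single_eq_same, mul_one]
      · intro i _ hi
        rw [Pi.single_eq_of_ne (Ne.symm hi), mul_zero]
      · intro h
        exact absurd (Finset.mem_univ q) h
    rw [s1, s2]
    rcases lt_trichotomy p q with h | h | h
    · rw [if_pos h, if_neg (not_lt_of_gt h), sub_zero]
    · subst h
      rw [if_neg (lt_irrefl p), sub_zero, hdiag]
    · rw [if_neg (not_lt_of_gt h), if_pos h, zero_sub]
      linear_combination hanti p q
  rw [hsum]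
  exact sum_mem (fun i _ => helem _ _)

/-- polarisation of an alternating matrix. -/
theorem alt_polar (M : Matrix (Fin k) (Fin k) F) (hM : ∀ y : Fin k → F, y ⬝ᵥ M *ᵥ y = 0)
    (u v : Fin k → F) : u ⬝ᵥ M *ᵥ v + v ⬝ᵥ M *ᵥ u = 0 := by
  have h := hM (u + v)
  rw [Matrix.mulVec_add, add_dotProduct, dotProduct_add, dotProduct_add, hM u, hM v] at h
  linear_combination h

/-- `M ↦ B * M + M * Bᵀ` preserves alternating matrices. -/
theorem alt_der (B M : Matrix (Fin k) (Fin k) F) (hM : ∀ y : Fin k → F, y ⬝ᵥ M *ᵥ y = 0)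
    (y : Fin k → F) : y ⬝ᵥ (B * M + M * Bᵀ) *ᵥ y = 0 := by
  rw [Matrix.add_mulVec, dotProduct_add, ← Matrix.mulVec_mulVec, ← Matrix.mulVec_mulVec,
    Matrix.dotProduct_mulVec y B, ← Matrix.mulVec_transpose]
  exact alt_polar M hM _ _

theorem vmv_zero (d : Fin 2 → F) : vecMulVec d (0 : Fin k → F) = 0 := by
  ext i j
  simp [Matrix.vecMulVec_apply]

theorem graph_zero (d₁ d₂ : Fin 2 → F) (B : Matrix (Fin k) (Fin k) F) :
    vecMulVec d₁ (0 : Fin k → F) + vecMulVec d₂ (B *ᵥ (0 : Fin k → F)) = 0 := by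
  rw [Matrix.mulVec_zero, vmv_zero, vmv_zero, add_zero]

theorem graph_add (d₁ d₂ : Fin 2 → F) (B : Matrix (Fin k) (Fin k) F) (x y : Fin k → F) :
    vecMulVec d₁ (x + y) + vecMulVec d₂ (B *ᵥ (x + y))
      = (vecMulVec d₁ x + vecMulVec d₂ (B *ᵥ x)) + (vecMulVec d₁ y + vecMulVec d₂ (B *ᵥ y)) := by
  rw [Matrix.mulVec_add, Matrix.vecMulVec_add, Matrix.vecMulVec_add]
  abel

theorem graph_neg (d₁ d₂ : Fin 2 → F) (B : Matrix (Fin k) (Fin k) F) (x : Fin k → F) :
    vecMulVec d₁ (-x) + vecMulVec d₂ (B *ᵥ (-x))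
      = -(vecMulVec d₁ x + vecMulVec d₂ (B *ᵥ x)) := by
  rw [Matrix.mulVec_neg, Matrix.vecMulVec_neg, Matrix.vecMulVec_neg]
  abel

end Cfsg.Agent.H77.MP
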