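import Mathlib
import Cfsg.Agent.H42.SpdDefs

/-!
# helper77: piece SPD-INDEP of S5961 (helper42's project)
-/

set_option autoImplicit false

namespace Cfsg.Agent.H77.Spd

open Cfsg.Agent.H45 Cfsg.Agent.H42.Spd Module

universe u v

theorem indep : StIndep.{u, v} := by
  intro F _ V _ _ B ι D h1 h2 i
  rw [disjoint_iff, eq_bot_iff, ← h1 i]
  exact inf_le_inf_left _ (iSup₂_le (fun j hj => h2 i j (Ne.symm hj)))

example : Cfsg.Agent.H42.Spd.StIndep.{u, v} := indep

end Cfsg.Agent.H77.Spd
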