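import Mathlib
import Cfsg.Agent.H42.SpdDefs
import Cfsg.Agent.H45.IsoConj
import Cfsg.Agent.H45.IsoSp

/-!
# helper77: piece SPD-WITT of S5961 (helper42's project)

The symplectic group is transitive on the ordered orthogonal decompositions into nondegenerate
subspaces of a fixed dimension: the pieces are isometric (helper45's `isoConj_of_charpoly_eq`
with `g = 1`), and the isometries glue along the two internal direct sums.
-/

set_option autoImplicit false

namespace Cfsg.Agent.H77.Spd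

open Cfsg.Agent.H45 Cfsg.Agent.H42.Spd Module Matrix

universe u

section

variable {F : Type u} [Field F]

/-- The symplectic form as a bilinear map. -/
noncomputable abbrev jB (d : ℕ) (F : Type u) [Field F] :
    (Fin d ⊕ Fin d → F) →ₗ[F] (Fin d ⊕ Fin d → F) →ₗ[F] F :=
  Matrix.toLinearMap₂' F (Matrix.J (Fin d) F)

theorem jB_apply (d : ℕ) (x y : Fin d ⊕ Fin d → F) : jB d F x y = Cfsg.sympForm d F x y := by
  rw [Matrix.toLinearMap₂'_apply']
  rfl

theorem jB_symm (d : ℕ) (x y : Fin d ⊕ Fin d → F) : jB d F y x = - jB d F x y := by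
  rw [Matrix.toLinearMap₂'_apply', Matrix.toLinearMap₂'_apply', Matrix.dotProduct_mulVec,
    ← Matrix.mulVec_transpose, Matrix.J_transpose, Matrix.neg_mulVec, neg_dotProduct,
    dotProduct_comm]

theorem jB_self (d : ℕ) (x : Fin d ⊕ Fin d → F) : jB d F x x = 0 := by
  rw [Matrix.toLinearMap₂'_apply']
  exact J_form_alt d x

/-- The restriction of the symplectic form to a nondegenerate subspace, with the identity. -/
theorem good_restrict (d : ℕ) (W : Submodule F (Fin d ⊕ Fin d → F))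
    (hW : ∀ u ∈ W, u ≠ 0 → ∃ v ∈ W, Cfsg.sympForm d F u v ≠ 0) :
    Good (RingHom.id F) (-1) ((jB d F).domRestrict₁₂ W W) (1 : Module.End F W) := by
  refine ⟨?_, ?_, ?_, ?_, ?_⟩
  · intro x y
    show jB d F y x = -1 * jB d F x y
    rw [jB_symm]
    ring
  · intro x hx
    by_contra hne
    have hne' : (x : Fin d ⊕ Fin d → F) ≠ 0 := fun h => hne (Subtype.ext h)
    obtain ⟨v, hv, hv2⟩ := hW x x.2 hne'
    apply hv2
    rw [← jB_apply]
    exact hx ⟨v, hv⟩
  · intro _ x
    exact jB_self d (x : Fin d ⊕ Fin d → F)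
  · intro x y
    rfl
  · exact Module.End.isSemisimple_id

end

theorem witt : StWitt.{u} := by
  intro F _ _ d a t D D' hD hD'
  classical
  obtain ⟨hdec, hnd, horth⟩ := hD
  obtain ⟨hdec', hnd', horth'⟩ := hD'
  -- isometries of the pieces
  have hpiece : ∀ j, ∃ e : ↥(D j) ≃ₗ[F] ↥(D' j), ∀ x y : ↥(D j),
      jB d F (e x : Fin d ⊕ Fin d → F) (e y : Fin d ⊕ Fin d → F)
        = jB d F (x : Fin d ⊕ Fin d → F) (y : Fin d ⊕ Fin d → F) := by
    intro j
    obtain ⟨e, -, he⟩ := isoConj_of_charpoly_eq (RingHom.id F) (fun _ => rfl) (-1) a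
      ((jB d F).domRestrict₁₂ (D j) (D j)) ((jB d F).domRestrict₁₂ (D' j) (D' j)) 1 1
      (hdec.finrank_eq j) (good_restrict d (D j) (hnd j)) (good_restrict d (D' j) (hnd' j))
      (by rw [LinearMap.charpoly_one, LinearMap.charpoly_one, hdec.finrank_eq j,
        hdec'.finrank_eq j])
    exact ⟨e, fun x y => he x y⟩
  choose e he using hpiece
  have hint : DirectSum.IsInternal D :=
    DirectSum.isInternal_submodule_of_iSupIndep_of_iSup_eq_top hdec.indep hdec.iSup_eq_top
  have hint' : DirectSum.IsInternal D' :=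
    DirectSum.isInternal_submodule_of_iSupIndep_of_iSup_eq_top hdec'.indep hdec'.iSup_eq_top
  let b : ∀ j, Basis (Fin a) F (D j) :=
    fun j => Module.finBasisOfFinrankEq F (D j) (hdec.finrank_eq j)
  let b' : ∀ j, Basis (Fin a) F (D' j) := fun j => (b j).map (e j)
  have hcb : ∀ (j : Fin t) (i : Fin a),
      hint.collectedBasis b ⟨j, i⟩ = (b j i : Fin d ⊕ Fin d → F) := by
    intro j i
    rw [DirectSum.IsInternal.collectedBasis_coe]
  have hcb' : ∀ (j : Fin t) (i : Fin a),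
      hint'.collectedBasis b' ⟨j, i⟩ = (e j (b j i) : Fin d ⊕ Fin d → F) := by
    intro j i
    rw [DirectSum.IsInternal.collectedBasis_coe]
    show ((b j).map (e j) i : Fin d ⊕ Fin d → F) = _
    rw [Basis.map_apply]
  let E : (Fin d ⊕ Fin d → F) ≃ₗ[F] (Fin d ⊕ Fin d → F) :=
    (hint.collectedBasis b).equiv (hint'.collectedBasis b') (Equiv.refl _)
  have hE : ∀ (j : Fin t) (i : Fin a),
      E (b j i : Fin d ⊕ Fin d → F) = (e j (b j i) : Fin d ⊕ Fin d → F) := by
    intro j i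
    rw [← hcb, ← hcb']
    exact Basis.equiv_apply _ _ _ _
  have hEsub : ∀ (j : Fin t) (x : ↥(D j)),
      E (x : Fin d ⊕ Fin d → F) = (e j x : Fin d ⊕ Fin d → F) := by
    intro j
    have h1 : (E : (Fin d ⊕ Fin d → F) →ₗ[F] (Fin d ⊕ Fin d → F)) ∘ₗ (D j).subtype
        = (D' j).subtype ∘ₗ (e j : ↥(D j) →ₗ[F] ↥(D' j)) := by
      apply (b j).ext
      intro i
      exact hE j i
    intro x
    exact LinearMap.congr_fun h1 x
  have hmap : ∀ j, (D j).map (E : (Fin d ⊕ Fin d → F) →ₗ[F] (Fin d ⊕ Fin d → F)) = D' j := by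
    intro j
    apply le_antisymm
    · rintro _ ⟨x, hx, rfl⟩
      have h1 := hEsub j ⟨x, hx⟩
      show E x ∈ D' j
      have h2 : E x = (e j ⟨x, hx⟩ : Fin d ⊕ Fin d → F) := h1
      rw [h2]
      exact (e j ⟨x, hx⟩).2
    · intro y hy
      refine ⟨((e j).symm ⟨y, hy⟩ : Fin d ⊕ Fin d → F), ((e j).symm ⟨y, hy⟩).2, ?_⟩
      have h1 := hEsub j ((e j).symm ⟨y, hy⟩)
      rw [LinearEquiv.apply_symm_apply] at h1
      exact h1
  have hiso : ∀ x y, jB d F (E x) (E y) = jB d F x y := by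
    have hbil : (jB d F).compl₁₂ (E : (Fin d ⊕ Fin d → F) →ₗ[F] (Fin d ⊕ Fin d → F))
        (E : (Fin d ⊕ Fin d → F) →ₗ[F] (Fin d ⊕ Fin d → F)) = jB d F := by
      apply LinearMap.ext_basis (hint.collectedBasis b) (hint.collectedBasis b)
      rintro ⟨j, i⟩ ⟨j', i'⟩
      rw [LinearMap.compl₁₂_apply, hcb, hcb]
      show jB d F (E (b j i : Fin d ⊕ Fin d → F)) (E (b j' i' : Fin d ⊕ Fin d → F))
        = jB d F (b j i : Fin d ⊕ Fin d → F) (b j' i' : Fin d ⊕ Fin d → F)
      rw [hEsub j, hEsub j']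
      by_cases hjj : j = j'
      · subst hjj
        exact he j _ _
      · rw [jB_apply, jB_apply, horth' j j' hjj _ (e j (b j i)).2 _ (e j' (b j' i')).2,
          horth j j' hjj _ (b j i).2 _ (b j' i').2]
    intro x y
    have h1 := LinearMap.congr_fun (LinearMap.congr_fun hbil x) y
    rw [LinearMap.compl₁₂_apply] at h1
    exact h1
  -- the symplectic matrix
  have hsymp : LinearMap.toMatrix' (E : (Fin d ⊕ Fin d → F) →ₗ[F] (Fin d ⊕ Fin d → F))
      ∈ Matrix.symplecticGroup (Fin d) F := by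
    rw [SymplecticGroup.mem_iff']
    apply (Matrix.toLinearMap₂' F (S₁ := F) (S₂ := F) (N₂ := F) (n := Fin d ⊕ Fin d)
      (m := Fin d ⊕ Fin d)).injective
    apply LinearMap.ext
    intro x
    apply LinearMap.ext
    intro y
    have h1 := hiso x y
    rw [Matrix.toLinearMap₂'_apply', Matrix.toLinearMap₂'_apply'] at h1
    have h2 : ∀ z, E z
        = LinearMap.toMatrix' (E : (Fin d ⊕ Fin d → F) →ₗ[F] (Fin d ⊕ Fin d → F)) *ᵥ z := by
      intro z
      rw [← Matrix.toLin'_apply, Matrix.toLin'_toMatrix']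
      rfl
    rw [h2, h2] at h1
    rw [Matrix.toLinearMap₂'_apply', Matrix.toLinearMap₂'_apply', ← h1, form_mulVec]
  refine ⟨⟨_, hsymp⟩, fun j => ?_⟩
  show (D j).map (Matrix.toLin'
    (LinearMap.toMatrix' (E : (Fin d ⊕ Fin d → F) →ₗ[F] (Fin d ⊕ Fin d → F)))) = D' j
  rw [Matrix.toLin'_toMatrix']
  exact hmap j

example : Cfsg.Agent.H42.Spd.StWitt.{u} := witt

end Cfsg.Agent.H77.Spd
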