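import Mathlib
import Cfsg.Agent.H77.SpnGlue

/-!
# helper77: piece SPN-SPLIT of S5956 (helper42's project)

The stabiliser in `Sp_{2d}(F)` of a nondegenerate subspace `W` is in bijection with the product
of the isometry groups of `W` and of `W^⊥`.
-/

set_option autoImplicit false

namespace Cfsg.Agent.H77.Spn

open Cfsg.Agent.H45 Cfsg.Agent.H42.Spd Cfsg.Agent.H42.Spn Module Matrix

universe u

variable {F : Type u} [Field F]

/-- Restriction of an injective endomorphism to an invariant subspace, as an equivalence. -/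
theorem exists_restrict_equiv {V : Type*} [AddCommGroup V] [Module F V] [FiniteDimensional F V]
    (T : V →ₗ[F] V) (hT : Function.Injective T) (K : Submodule F V) (hK : ∀ x ∈ K, T x ∈ K) :
    ∃ e : ↥K ≃ₗ[F] ↥K, ∀ x : ↥K, (e x : V) = T (x : V) := by
  have hinj : Function.Injective (T.restrict hK) := by
    intro x y hxy
    apply Subtype.ext
    apply hT
    have := congrArg (fun z : ↥K => (z : V)) hxy
    simpa using this
  refine ⟨LinearEquiv.ofInjectiveEndo (T.restrict hK) hinj, fun x => ?_⟩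
  rw [LinearEquiv.coe_ofInjectiveEndo]
  rfl

theorem stabSplit : StStabSplit.{u} := by
  intro F _ _ d W hW
  classical
  rw [← Nat.card_prod]
  have hc := isCompl_perp (stdB d F) W hW
  have hres : ∀ g : {g : ↥(Matrix.symplecticGroup (Fin d) F) //
        W.map (Matrix.toLin' (g : Matrix (Fin d ⊕ Fin d) (Fin d ⊕ Fin d) F)) = W},
      ∃ p : {e : ↥W ≃ₗ[F] ↥W // ∀ x y : ↥W, stdB d F (e x) (e y) = stdB d F x y} ×
        {e : ↥(perp (stdB d F) W) ≃ₗ[F] ↥(perp (stdB d F) W) //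
          ∀ x y : ↥(perp (stdB d F) W), stdB d F (e x) (e y) = stdB d F x y},
        (∀ x : ↥W, (p.1.1 x : Fin d ⊕ Fin d → F)
          = Matrix.toLin' (g.1 : Matrix (Fin d ⊕ Fin d) (Fin d ⊕ Fin d) F) x) ∧
        (∀ y : ↥(perp (stdB d F) W), (p.2.1 y : Fin d ⊕ Fin d → F)
          = Matrix.toLin' (g.1 : Matrix (Fin d ⊕ Fin d) (Fin d ⊕ Fin d) F) y) := by
    rintro ⟨g, hg⟩
    have hiso := stdB_isom d (g : Matrix (Fin d ⊕ Fin d) (Fin d ⊕ Fin d) F) g.2
    have hinj : Function.Injective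
        (Matrix.toLin' (g : Matrix (Fin d ⊕ Fin d) (Fin d ⊕ Fin d) F)) := by
      rw [← LinearMap.ker_eq_bot, eq_bot_iff]
      intro x hx
      rw [Submodule.mem_bot]
      apply stdB_nondeg d x
      intro y
      rw [← hiso x y, LinearMap.mem_ker.mp hx, map_zero, LinearMap.zero_apply]
    have hKW : ∀ x ∈ W, Matrix.toLin' (g : Matrix (Fin d ⊕ Fin d) (Fin d ⊕ Fin d) F) x ∈ W := by
      intro x hx
      have h1 : Matrix.toLin' (g : Matrix (Fin d ⊕ Fin d) (Fin d ⊕ Fin d) F) x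
          ∈ W.map (Matrix.toLin' (g : Matrix (Fin d ⊕ Fin d) (Fin d ⊕ Fin d) F)) :=
        ⟨x, hx, rfl⟩
      rw [hg] at h1
      exact h1
    have hKP : ∀ y ∈ perp (stdB d F) W,
        Matrix.toLin' (g : Matrix (Fin d ⊕ Fin d) (Fin d ⊕ Fin d) F) y ∈ perp (stdB d F) W := by
      intro y hy u hu
      have h1 : u ∈ W.map (Matrix.toLin' (g : Matrix (Fin d ⊕ Fin d) (Fin d ⊕ Fin d) F)) := by
        rw [hg]
        exact hu
      obtain ⟨u', hu', rfl⟩ := h1
      rw [hiso]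
      exact hy u' hu'
    obtain ⟨e₁, he₁⟩ := exists_restrict_equiv _ hinj W hKW
    obtain ⟨e₂, he₂⟩ := exists_restrict_equiv _ hinj (perp (stdB d F) W) hKP
    refine ⟨(⟨e₁, fun x y => ?_⟩, ⟨e₂, fun x y => ?_⟩), he₁, he₂⟩
    · rw [he₁, he₁, hiso]
    · rw [he₂, he₂, hiso]
  choose Φ hΦ1 hΦ2 using hres
  apply Nat.card_eq_of_bijective Φ
  constructor
  · intro g g' h
    apply Subtype.ext
    apply Subtype.ext
    have h1 : Matrix.toLin' (g.1 : Matrix (Fin d ⊕ Fin d) (Fin d ⊕ Fin d) F)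
        = Matrix.toLin' (g'.1 : Matrix (Fin d ⊕ Fin d) (Fin d ⊕ Fin d) F) := by
      apply LinearMap.ext
      intro v
      have hv : v ∈ W ⊔ perp (stdB d F) W := by
        rw [hc.sup_eq_top]
        exact Submodule.mem_top
      obtain ⟨w, hw, y, hy, rfl⟩ := Submodule.mem_sup.mp hv
      rw [map_add, map_add, ← hΦ1 g ⟨w, hw⟩, ← hΦ2 g ⟨y, hy⟩, h, hΦ1 g' ⟨w, hw⟩,
        hΦ2 g' ⟨y, hy⟩]
    exact Matrix.toLin'.injective h1
  · rintro ⟨⟨e₁, h₁⟩, ⟨e₂, h₂⟩⟩
    obtain ⟨g, hg1, hg2⟩ := glue d W W hW hW e₁ e₂ h₁ h₂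
    have hmap : W.map (Matrix.toLin' (g : Matrix (Fin d ⊕ Fin d) (Fin d ⊕ Fin d) F)) = W := by
      apply le_antisymm
      · rintro _ ⟨x, hx, rfl⟩
        have h4 : Matrix.toLin' (g : Matrix (Fin d ⊕ Fin d) (Fin d ⊕ Fin d) F) x
            = (e₁ ⟨x, hx⟩ : Fin d ⊕ Fin d → F) := hg1 ⟨x, hx⟩
        show Matrix.toLin' (g : Matrix (Fin d ⊕ Fin d) (Fin d ⊕ Fin d) F) x ∈ W
        rw [h4]
        exact (e₁ ⟨x, hx⟩).2
      · intro y hy
        refine ⟨(e₁.symm ⟨y, hy⟩ : Fin d ⊕ Fin d → F), (e₁.symm ⟨y, hy⟩).2, ?_⟩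
        have h3 := hg1 (e₁.symm ⟨y, hy⟩)
        rw [LinearEquiv.apply_symm_apply] at h3
        exact h3
    refine ⟨⟨g, hmap⟩, ?_⟩
    apply Prod.ext
    · apply Subtype.ext
      apply LinearEquiv.ext
      intro x
      apply Subtype.ext
      show ((Φ ⟨g, hmap⟩).1.1 x : Fin d ⊕ Fin d → F) = (e₁ x : Fin d ⊕ Fin d → F)
      rw [hΦ1, hg1]
    · apply Subtype.ext
      apply LinearEquiv.ext
      intro y
      apply Subtype.ext
      show ((Φ ⟨g, hmap⟩).2.1 y : Fin d ⊕ Fin d → F) = (e₂ y : Fin d ⊕ Fin d → F)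
      rw [hΦ2, hg2]

example : Cfsg.Agent.H42.Spn.StStabSplit.{u} := stabSplit

end Cfsg.Agent.H77.Spn
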