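import Mathlib

/-!
# helper77: shared lemmas for the witness pieces S5965-WB / S5965-WE (helper99's project)
-/

set_option autoImplicit false

namespace Cfsg.Agent.H77.Sub

open scoped MatrixGroups

variable {F : Type*} [Field F] [Fintype F]

/-- The rank of `diagonal d - ν • 1` is the number of diagonal entries different from `ν`. -/
theorem rank_diag_sub [DecidableEq F] {n : ℕ} (d : Fin n → F) (ν : F) :
    (Matrix.diagonal d - ν • (1 : Matrix (Fin n) (Fin n) F)).rank
      = Fintype.card {i : Fin n // d i ≠ ν} := by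
  have e : Matrix.diagonal d - ν • (1 : Matrix (Fin n) (Fin n) F)
      = Matrix.diagonal (fun i => d i - ν) := by
    ext i j
    by_cases hij : i = j
    · subst hij
      simp
    · simp [Matrix.diagonal_apply_ne _ hij, Matrix.one_apply_ne hij]
  rw [e, Matrix.rank_diagonal]
  exact Fintype.card_congr (Equiv.subtypeEquivRight (fun i => by rw [Ne, sub_eq_zero]))

/-- A root of unity of order dividing `r` fixed by `a ↦ a ^ q₀` is trivial when `r ∤ q₀ - 1`. -/
theorem eq_one_of_pow_fix (F₀ : Subfield F) (r : ℕ) (hr : r.Prime)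
    (hNR : ¬ r ∣ Nat.card ↥F₀ - 1) (θ : F) (h1 : θ ^ Nat.card ↥F₀ = θ) (h2 : θ ^ r = 1) :
    θ = 1 := by
  have hθ0 : θ ≠ 0 := by
    rintro rfl
    rw [zero_pow hr.ne_zero] at h2
    exact zero_ne_one h2
  have hq0 : 0 < Nat.card ↥F₀ := Nat.card_pos
  have h3 : θ ^ (Nat.card ↥F₀ - 1) = 1 := by
    have h : θ ^ (Nat.card ↥F₀ - 1) * θ = 1 * θ := by
      rw [← pow_succ, Nat.sub_add_cancel hq0, h1, one_mul]
    exact mul_right_cancel₀ hθ0 h
  have h4 : orderOf θ ∣ r := orderOf_dvd_of_pow_eq_one h2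
  have h5 : orderOf θ ∣ Nat.card ↥F₀ - 1 := orderOf_dvd_of_pow_eq_one h3
  rcases (Nat.dvd_prime hr).mp h4 with h6 | h6
  · exact orderOf_eq_one_iff.mp h6
  · rw [h6] at h5
    exact absurd h5 hNR

/-- `a ↦ a ^ q₀` is injective on `F`. -/
theorem pow_card_sub_inj (F₀ : Subfield F) (a b : F)
    (h : a ^ Nat.card ↥F₀ = b ^ Nat.card ↥F₀) : a = b := by
  have hk : Fintype.card F = Nat.card ↥F₀ ^ Module.finrank ↥F₀ F := by
    rw [← Nat.card_eq_fintype_card]
    exact Module.natCard_eq_pow_finrank (K := ↥F₀) (V := F)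
  have hkpos : 0 < Module.finrank ↥F₀ F := Module.finrank_pos
  obtain ⟨k, hk'⟩ : ∃ k, Module.finrank ↥F₀ F = k + 1 := ⟨Module.finrank ↥F₀ F - 1, by omega⟩
  have ha : a ^ Fintype.card F = a := FiniteField.pow_card a
  have hb : b ^ Fintype.card F = b := FiniteField.pow_card b
  rw [hk, hk', pow_succ', pow_mul] at ha hb
  rw [← ha, ← hb, h]

/-- The number of `i : Fin n` with `i < r`. -/
theorem card_fin_lt (n r : ℕ) (h : r ≤ n) : Fintype.card {i : Fin n // (i : ℕ) < r} = r := by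
  have e : {i : Fin n // (i : ℕ) < r} ≃ Fin r :=
    { toFun := fun i => ⟨(i.1 : ℕ), i.2⟩
      invFun := fun j => ⟨⟨(j : ℕ), lt_of_lt_of_le j.2 h⟩, j.2⟩
      left_inv := fun i => rfl
      right_inv := fun j => rfl }
  rw [Fintype.card_congr e, Fintype.card_fin]

end Cfsg.Agent.H77.Sub
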