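import Mathlib
import Cfsg.Agent.H77.TpDefs
import Cfsg.Agent.H77.FxConj1

/-!
# S5980-CONJINV and S5980-INVDIM (helper77): symplectic involutions
-/

set_option autoImplicit false
set_option linter.style.haveILetI false
open scoped MatrixGroups
open scoped Matrix

namespace Cfsg.Agent.H77.Tp

open Cfsg.Agent.H45 Cfsg.Agent.H42.Spd Cfsg.Agent.H42.Spn Cfsg.Agent.H77.Fx Module

universe u

theorem mem_fixSp' {F : Type u} [Field F] {d : ℕ} (M : Mat d F) (u : Vec d F) :
    u ∈ fixSp d M ↔ Matrix.mulVec M u = u := by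
  rw [LinearMap.mem_ker, LinearMap.sub_apply, Matrix.toLin'_apply, Module.End.one_apply,
    sub_eq_zero]

/-- S5980-INVDIM. -/
theorem invDim : StInvDim.{u} := by
  intro F _ _ d h2 x hx hxx hns
  classical
  have hA := (Cfsg.Agent.H42.mem_spGL_iff' x).1 hx
  obtain ⟨a1, a2, a3⟩ := invol_facts h2 _ hA hxx
  have hnd : fixSp d (x : Mat d F) ⊓ perp (stdB d F) (fixSp d (x : Mat d F)) = ⊥ := by
    rw [nd_iff]
    intro u hu hu0
    by_contra hcon
    push Not at hcon
    exact hu0 (a2 u ((mem_fixSp' _ u).1 hu) (fun v hv => hcon v ((mem_fixSp' _ v).2 hv)))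
  have hiso : Iso (stdB d F) (1 : Module.End F (Vec d F)) :=
    ⟨stdB_alt d, stdB_nondeg d, fun x y => rfl⟩
  have heven : Even (Module.finrank F ↥(fixSp d (x : Mat d F))) :=
    Cfsg.Agent.H60.Spn.even Cfsg.Agent.H54.Spn.isoHyp Cfsg.Agent.H75.Spn.isoCompl F (Vec d F)
      (stdB d F) 1 hiso _ hnd
  have hfinV : Module.finrank F (Vec d F) = 2 * d := by
    rw [Module.finrank_fintype_fun_eq_card, Fintype.card_sum, Fintype.card_fin]
    ring
  have hle : Module.finrank F ↥(fixSp d (x : Mat d F)) ≤ 2 * d := by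
    rw [← hfinV]
    exact Submodule.finrank_le _
  have hne4 : Module.finrank F ↥(fixSp d (x : Mat d F)) ≠ 2 * d := by
    intro h4
    have htop : fixSp d (x : Mat d F) = ⊤ := Submodule.eq_top_of_finrank_eq (by rw [h4, hfinV])
    apply hns 1
    rw [one_smul]
    apply Cfsg.Agent.H42.mat_ext_mulVecG
    intro v
    rw [Matrix.one_mulVec]
    exact (mem_fixSp' _ v).1 (by rw [htop]; exact Submodule.mem_top)
  have hne0 : Module.finrank F ↥(fixSp d (x : Mat d F)) ≠ 0 := by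
    intro h0
    have hbot : fixSp d (x : Mat d F) = ⊥ := Submodule.finrank_eq_zero.mp h0
    apply hns (-1)
    apply Cfsg.Agent.H42.mat_ext_mulVecG
    intro v
    rw [Matrix.smul_mulVec, Matrix.one_mulVec, neg_one_smul]
    have h1 : v + Matrix.mulVec (x : Mat d F) v ∈ fixSp d (x : Mat d F) := by
      rw [mem_fixSp', Matrix.mulVec_add, Matrix.mulVec_mulVec, hxx, Matrix.one_mulVec, add_comm]
    rw [hbot, Submodule.mem_bot] at h1
    exact eq_neg_of_add_eq_zero_right h1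
  obtain ⟨t, ht⟩ := heven
  exact ⟨t, by omega, by omega, by omega⟩

/-- S5980-CONJINV. -/
theorem conjInv : StConjInv.{u} := by
  intro F _ _ d h2 x y hx hy hxx hyy hdim
  classical
  have hA := (Cfsg.Agent.H42.mem_spGL_iff' x).1 hx
  have hB := (Cfsg.Agent.H42.mem_spGL_iff' y).1 hy
  obtain ⟨a1, a2, a3⟩ := invol_facts h2 _ hA hxx
  obtain ⟨b1, b2, b3⟩ := invol_facts h2 _ hB hyy
  have hW : ∀ (M : Mat d F) (u : Vec d F), u ∈ fixSp d M ↔ Matrix.mulVec M u = u := mem_fixSp'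
  have hnd1 : ∀ u ∈ fixSp d (x : Mat d F), u ≠ 0 →
      ∃ v ∈ fixSp d (x : Mat d F), Cfsg.sympForm d F u v ≠ 0 := by
    intro u hu hu0
    by_contra hcon
    push Not at hcon
    exact hu0 (a2 u ((hW _ u).1 hu) (fun v hv => hcon v ((hW _ v).2 hv)))
  have hnd2 : ∀ u ∈ fixSp d (y : Mat d F), u ≠ 0 →
      ∃ v ∈ fixSp d (y : Mat d F), Cfsg.sympForm d F u v ≠ 0 := by
    intro u hu hu0
    by_contra hcon
    push Not at hcon
    exact hu0 (b2 u ((hW _ u).1 hu) (fun v hv => hcon v ((hW _ v).2 hv)))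
  obtain ⟨g, hg⟩ := Cfsg.Agent.H77.Spn.ndTrans F d (fixSp d (x : Mat d F)) (fixSp d (y : Mat d F))
    hdim hnd1 hnd2
  set G : Mat d F := (g : Mat d F) with hGdef
  have hGiso := (Cfsg.Agent.H17.mem_symplecticGroup_iff_form d G).1 g.2
  have hG1 : ∀ u, Matrix.mulVec (x : Mat d F) u = u →
      Matrix.mulVec (y : Mat d F) (Matrix.mulVec G u) = Matrix.mulVec G u := by
    intro u hu
    rw [← hW]
    rw [← hg]
    exact ⟨u, (hW _ u).2 hu, by rw [Matrix.toLin'_apply]⟩
  have hG2 : ∀ v, Matrix.mulVec (x : Mat d F) v = -v →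
      Matrix.mulVec (y : Mat d F) (Matrix.mulVec G v) = -Matrix.mulVec G v := by
    intro v hv
    apply b3
    intro w hw
    have hw' : w ∈ fixSp d (y : Mat d F) := (hW _ w).2 hw
    rw [← hg] at hw'
    obtain ⟨u, hu, rfl⟩ := hw'
    rw [Matrix.toLin'_apply, hGiso]
    exact a1 u ((hW _ u).1 hu) v hv
  have hxxv : ∀ v, Matrix.mulVec (x : Mat d F) (Matrix.mulVec (x : Mat d F) v) = v := by
    intro v
    rw [Matrix.mulVec_mulVec, hxx, Matrix.one_mulVec]
  have hcomm : G * (x : Mat d F) = (y : Mat d F) * G := by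
    apply Cfsg.Agent.H42.mat_ext_mulVecG
    intro v
    have e1 := hG1 (v + Matrix.mulVec (x : Mat d F) v) (by
      rw [Matrix.mulVec_add, hxxv, add_comm])
    have e2 := hG2 (v - Matrix.mulVec (x : Mat d F) v) (by
      rw [Matrix.mulVec_sub, hxxv, neg_sub])
    rw [Matrix.mulVec_add, Matrix.mulVec_add] at e1
    rw [Matrix.mulVec_sub, Matrix.mulVec_sub] at e2
    have e3 : (2 : F) • (Matrix.mulVec (y : Mat d F) (Matrix.mulVec G v)) =
        (2 : F) • (Matrix.mulVec G (Matrix.mulVec (x : Mat d F) v)) := by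
      rw [two_smul, two_smul]
      linear_combination (exp := 1) e1 + e2
    have e5 := smul_right_injective (Vec d F) h2 e3
    rw [← Matrix.mulVec_mulVec, ← Matrix.mulVec_mulVec]
    exact e5.symm
  set g' : ↥(Cfsg.spGL d F) := Cfsg.Agent.H42.spGLEquiv.symm g with hg'
  have hg'G : ((g' : GL (Fin d ⊕ Fin d) F) : Mat d F) = G := by
    have := Cfsg.Agent.H42.spGLEquiv_coe g'
    rw [hg', Equiv.apply_symm_apply] at this
    exact this.symm
  refine ⟨(g' : GL (Fin d ⊕ Fin d) F)⁻¹, inv_mem g'.2, ?_⟩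
  rw [inv_inv]
  have hGL : (g' : GL (Fin d ⊕ Fin d) F) * x = y * (g' : GL (Fin d ⊕ Fin d) F) := by
    apply Units.ext
    rw [Units.val_mul, Units.val_mul, hg'G]
    exact hcomm
  rw [hGL, mul_assoc, mul_inv_cancel, mul_one]

example : StInvDim.{u} := invDim
example : StConjInv.{u} := conjInv

end Cfsg.Agent.H77.Tp
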