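import Mathlib
import Cfsg.Agent.H77.TpDefs

/-!
# S5980-GLUE (helper77): membership in the tensor product subgroup
(adapted from helper99's `Cfsg.Agent.H99.Ten.tensor_of_mem` / `mem_of_tensor`).
-/

set_option autoImplicit false
open scoped MatrixGroups
open scoped Matrix
open scoped Kronecker

namespace Cfsg.Agent.H77.Tp

open Cfsg.Agent.H77.Fx

universe u

theorem glReindex_coe' {F : Type u} [Field F] {d a b : ℕ} (e : (Fin d ⊕ Fin d) ≃ Fin a × Fin b)
    (k : GL (Fin a × Fin b) F) :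
    ((Cfsg.Geo.glReindex (F := F) e.symm k : GL (Fin d ⊕ Fin d) F) : Mat d F)
      = Matrix.reindex e.symm e.symm (k : Matrix (Fin a × Fin b) (Fin a × Fin b) F) := rfl

/-- S5980-GLUE. -/
theorem glue : StGlue.{u} := by
  intro F _ d a b e P x g
  constructor
  · intro h
    unfold Cfsg.Geo.tensorProductSubgroup at h
    obtain ⟨y, hy, hyx⟩ := Subgroup.mem_map.mp h
    obtain ⟨k, hk, rfl⟩ := Subgroup.mem_map.mp hy
    obtain ⟨A, B, hAB⟩ := hk
    refine ⟨A, B, Matrix.isUnits_det_units A, Matrix.isUnits_det_units B, ?_⟩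
    have h1 : P * Cfsg.Geo.glReindex (F := F) e.symm k * P⁻¹ = g⁻¹ * x * g := hyx
    have h2 : x * (g * P) = (g * P) * Cfsg.Geo.glReindex (F := F) e.symm k := by
      have h3 : g * (P * Cfsg.Geo.glReindex (F := F) e.symm k * P⁻¹) * P
          = g * (g⁻¹ * x * g) * P := by
        rw [h1]
      simp only [mul_assoc, inv_mul_cancel, mul_one, mul_inv_cancel_left] at h3
      rw [mul_assoc]
      exact h3.symm
    have h4 := congrArg (fun u : GL (Fin d ⊕ Fin d) F => (u : Mat d F)) h2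
    simp only [Units.val_mul] at h4
    rw [glReindex_coe', hAB] at h4
    rw [Units.val_mul]
    exact h4
  · intro A B hA hB h
    obtain ⟨A', hA'⟩ : ∃ A' : GL (Fin a) F, (A' : Matrix (Fin a) (Fin a) F) = A :=
      ⟨((Matrix.isUnit_iff_isUnit_det A).mpr hA).unit, rfl⟩
    obtain ⟨B', hB'⟩ : ∃ B' : GL (Fin b) F, (B' : Matrix (Fin b) (Fin b) F) = B :=
      ⟨((Matrix.isUnit_iff_isUnit_det B).mpr hB).unit, rfl⟩
    subst hA' hB'
    obtain ⟨k, hk⟩ : ∃ k : GL (Fin a × Fin b) F, (k : Matrix (Fin a × Fin b) (Fin a × Fin b) F)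
        = (A' : Matrix (Fin a) (Fin a) F) ⊗ₖ (B' : Matrix (Fin b) (Fin b) F) := by
      refine ⟨⟨(A' : Matrix (Fin a) (Fin a) F) ⊗ₖ (B' : Matrix (Fin b) (Fin b) F),
        ((A'⁻¹ : GL (Fin a) F) : Matrix (Fin a) (Fin a) F) ⊗ₖ
          ((B'⁻¹ : GL (Fin b) F) : Matrix (Fin b) (Fin b) F), ?_, ?_⟩, rfl⟩
      · rw [← Matrix.mul_kronecker_mul, ← Units.val_mul, ← Units.val_mul, mul_inv_cancel,
          mul_inv_cancel, Units.val_one, Units.val_one, Matrix.one_kronecker_one]
      · rw [← Matrix.mul_kronecker_mul, ← Units.val_mul, ← Units.val_mul, inv_mul_cancel,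
          inv_mul_cancel, Units.val_one, Units.val_one, Matrix.one_kronecker_one]
    have hkmem : k ∈ Cfsg.Geo.kroneckerSubgroup a b F := ⟨A', B', hk⟩
    have h2 : x * (g * P) = (g * P) * Cfsg.Geo.glReindex (F := F) e.symm k := by
      apply Units.ext
      show (x : Mat d F) * ((g * P : GL (Fin d ⊕ Fin d) F) : Mat d F)
        = ((g * P : GL (Fin d ⊕ Fin d) F) : Mat d F)
          * ((Cfsg.Geo.glReindex (F := F) e.symm k : GL (Fin d ⊕ Fin d) F) : Mat d F)
      rw [glReindex_coe', hk]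
      exact h
    unfold Cfsg.Geo.tensorProductSubgroup
    refine Subgroup.mem_map.mpr ⟨Cfsg.Geo.glReindex (F := F) e.symm k,
      Subgroup.mem_map.mpr ⟨k, hkmem, rfl⟩, ?_⟩
    show P * Cfsg.Geo.glReindex (F := F) e.symm k * P⁻¹ = g⁻¹ * x * g
    have h3 : Cfsg.Geo.glReindex (F := F) e.symm k = (g * P)⁻¹ * x * (g * P) := by
      rw [mul_assoc, h2, inv_mul_cancel_left]
    rw [h3]
    group

example : StGlue.{u} := glue

end Cfsg.Agent.H77.Tp
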