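import Mathlib
import Cfsg.Agent.H77.TpDefs
import Cfsg.Agent.H18.FxIdx
import Cfsg.Agent.H42.ElusSpA

/-!
# S5980-IDXLE (helper77)
-/

set_option autoImplicit false
open scoped MatrixGroups
open scoped Matrix

namespace Cfsg.Agent.H77.Tp

open Cfsg.Agent.H45 Cfsg.Agent.H42.Spd Cfsg.Agent.H77.Fx Module

universe u

/-- S5980-IDXLE. -/
theorem idxLe : StIdxLe.{u} := by
  intro F _ _ p _ _ d r H hr hr2 hrp hdiv
  classical
  have hp : p.Prime := Fact.out
  obtain ⟨n, -, hn⟩ := FiniteField.card F p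
  have h1 : r ∣ Nat.card ↥(Cfsg.spGL d F) :=
    dvd_trans hdiv (Subgroup.relIndex_dvd_card H (Cfsg.spGL d F))
  rw [Cfsg.Agent.H42.card_spGL rfl d] at h1
  have hrq : ¬ r ∣ Fintype.card F := by
    rw [hn]
    intro h
    exact hrp ((Nat.prime_dvd_prime_iff_eq hr hp).mp (hr.dvd_of_dvd_pow h))
  have h2 : r ∣ ∏ i ∈ Finset.range d, (Fintype.card F ^ (2 * (i + 1)) - 1) := by
    rcases (Nat.Prime.dvd_mul hr).mp h1 with h | h
    · exact absurd (hr.dvd_of_dvd_pow h) hrq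
    · exact h
  obtain ⟨i, hi, h3⟩ := (Prime.dvd_finsetProd_iff hr.prime _).mp h2
  have h4 := Cfsg.Agent.H18.Fx.cc_dvd_of_dvd (F := F) r (i + 1) h3
  have h5 := Nat.le_of_dvd (by omega) h4
  have h6 := Finset.mem_range.mp hi
  omega

example : StIdxLe.{u} := idxLe

end Cfsg.Agent.H77.Tp
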