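import Mathlib
import Cfsg.Agent.H77.TpDefs
import Cfsg.Agent.H42.ElusSpA

/-!
# S5980 (helper77): assembly

`tp_main` derives the statement S5980 from the pieces of `TpDefs`.
-/

set_option autoImplicit false
open scoped MatrixGroups
open scoped Matrix
open scoped Kronecker

namespace Cfsg.Agent.H77.Tp

open Cfsg.Agent.H45 Cfsg.Agent.H42.Spd Cfsg.Agent.H77.Fx Module

universe u

section Core

variable {F : Type u} [Field F] {d : ℕ}

theorem finrank_vec' : Module.finrank F (Vec d F) = 2 * d := by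
  rw [Module.finrank_fintype_fun_eq_card, Fintype.card_sum, Fintype.card_fin]
  ring

/-- Rank and fixed space. -/
theorem rank_add_fix (x : Mat d F) :
    (x - 1).rank + Module.finrank F ↥(fixSp d x) = 2 * d := by
  have h1 := LinearMap.finrank_range_add_finrank_ker (Matrix.toLin' x - 1)
  rw [finrank_vec'] at h1
  have h2 : (x - 1).rank = Module.finrank F ↥(LinearMap.range (Matrix.toLin' x - 1)) := by
    have h3 : (x - 1).mulVecLin = Matrix.toLin' x - 1 := by
      rw [← Matrix.toLin'_apply', map_sub, Matrix.toLin'_one]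
      rfl
    unfold Matrix.rank
    rw [h3]
  rw [h2]
  exact h1

/-- The rank bound for non-scalar elements conjugate into the tensor product subgroup. -/
theorem rank_low (hGlue : StGlue.{u}) (hTri : StTri.{u}) (a b : ℕ) (ha : 0 < a) (hb : 0 < b)
    (e : (Fin d ⊕ Fin d) ≃ Fin a × Fin b) (P x g : GL (Fin d ⊕ Fin d) F)
    (h : g⁻¹ * x * g ∈ Cfsg.Geo.tensorProductSubgroup a b e P)
    (hns : ∀ z : F, (x : Mat d F) ≠ z • (1 : Mat d F)) :
    min a b ≤ ((x : Mat d F) - 1).rank := by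
  obtain ⟨A, B, hA, hB, hxQ⟩ := (hGlue F d a b e P x g).1 h
  obtain ⟨-, -, -, h4, h5, -, -, h8⟩ := hTri F d a b e (x : Mat d F)
    ((g * P : GL (Fin d ⊕ Fin d) F) : Mat d F) A B ha hb (Matrix.isUnits_det_units (g * P)) hA hB hxQ
  by_cases hAs : ∃ α : F, A = α • (1 : Matrix (Fin a) (Fin a) F)
  · by_cases hBs : ∃ β : F, B = β • (1 : Matrix (Fin b) (Fin b) F)
    · obtain ⟨z, hz⟩ := h8 hAs hBs
      exact absurd hz (hns z)
    · exact le_trans (min_le_left a b) (h5 hBs)
  · exact le_trans (min_le_right a b) (h4 hAs)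

end Core

theorem tp_main (hGlue : StGlue.{u}) (hTri : StTri.{u}) (hOdd : StOddOut.{u})
    (hInvModel : StInvModel.{u}) (hNegModel : StNegModel.{u}) (hConjInv : StConjInv.{u})
    (hInvDim : StInvDim.{u}) (hIdxLe : StIdxLe.{u}) (hC2 : StConj2.{u}) (hTr : StTransv.{u})
    (hInvol : StInvol.{u}) (hMin : StMinEl.{u})
    {F : Type u} [Field F] [Fintype F] {p : ℕ} [Fact p.Prime] [CharP F p] {q : ℕ}
    (hq : Fintype.card F = q) (hodd : Odd q) (d : ℕ) (hd : 2 ≤ d) (a b : ℕ)
    (hab : 2 * d = a * b) (ha : Even a) (ha2 : 2 ≤ a) (hb : 3 ≤ b)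
    (e : (Fin d ⊕ Fin d) ≃ Fin a × Fin b) (P : GL (Fin d ⊕ Fin d) F)
    (f₁ : (Fin a → F) → (Fin a → F) → F) (f₂ : (Fin b → F) → (Fin b → F) → F)
    (hf₁ : Cfsg.Geo.IsSymplecticForm f₁) (hf₂ : Cfsg.Geo.IsSymmetricForm f₂)
    (hS : Cfsg.Geo.IsTensorFormStructure id (Cfsg.sympForm d F) f₁ f₂ e P)
    (r : ℕ) [Fact r.Prime]
    (hΩ : r ∣ (Cfsg.Geo.tensorProductSubgroup a b e P).relIndex (Cfsg.spGL d F)) :
    (∀ x ∈ Cfsg.spGL d F, (∃ z : F, ((x ^ r : GL (Fin d ⊕ Fin d) F) :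
        Matrix (Fin d ⊕ Fin d) (Fin d ⊕ Fin d) F)
          = z • (1 : Matrix (Fin d ⊕ Fin d) (Fin d ⊕ Fin d) F)) →
      (∀ z : F, (x : Matrix (Fin d ⊕ Fin d) (Fin d ⊕ Fin d) F)
          ≠ z • (1 : Matrix (Fin d ⊕ Fin d) (Fin d ⊕ Fin d) F)) →
      ∃ g ∈ Cfsg.spGL d F, g⁻¹ * x * g ∈ Cfsg.Geo.tensorProductSubgroup a b e P) ↔
    (r = 2 ∧ a = 2) := by
  classical
  have hp : p.Prime := Fact.out
  have hr : r.Prime := Fact.out
  have hTH : THyp d a b e P f₁ f₂ := ⟨hf₁, hf₂, hS⟩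
  obtain ⟨n, -, hn⟩ := FiniteField.card F p
  have hp2 : p ≠ 2 := by
    intro h
    rw [← hq, hn, h] at hodd
    have : Even (2 ^ (n : ℕ)) := (Nat.even_pow.mpr ⟨even_two, n.pos.ne'⟩)
    exact (Nat.not_odd_iff_even.mpr this) hodd
  have h2F : (2 : F) ≠ 0 := by
    intro h
    have h1 : ((2 : ℕ) : F) = 0 := by exact_mod_cast h
    rw [CharP.cast_eq_zero_iff F p 2] at h1
    exact hp2 ((Nat.prime_dvd_prime_iff_eq hp Nat.prime_two).mp h1)
  constructor
  · intro hall
    -- a witness of order `r` is conjugate into the tensor product subgroup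
    have key : ∀ x ∈ Cfsg.spGL d F, x ^ r = 1 →
        (∀ z : F, (x : Mat d F) ≠ z • (1 : Mat d F)) →
        ∃ g ∈ Cfsg.spGL d F, g⁻¹ * x * g ∈ Cfsg.Geo.tensorProductSubgroup a b e P := by
      intro x hx hxr hns
      exact hall x hx ⟨1, by rw [hxr, one_smul]; rfl⟩ hns
    by_cases hrp : r = p
    · -- transvections
      exfalso
      obtain ⟨x, hx, hxp, hns, hrank⟩ := hTr F p d (by omega)
      obtain ⟨g, hg, hgx⟩ := key x hx (by rw [hrp]; exact hxp) hns
      have h1 := rank_low hGlue hTri a b (by omega) (by omega) e P x g hgx hns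
      have h2 := rank_add_fix (x : Mat d F)
      have h3 := LinearMap.finrank_range_add_finrank_ker (Matrix.toLin' (x : Mat d F) - 1)
      rw [hrank, finrank_vec'] at h3
      have h4 : Module.finrank F ↥(fixSp d (x : Mat d F))
          = Module.finrank F ↥(LinearMap.ker (Matrix.toLin' (x : Mat d F) - 1)) := rfl
      have h5 : 2 ≤ min a b := le_min ha2 (by omega)
      omega
    · by_cases hr2 : r = 2
      · -- involutions
        refine ⟨hr2, ?_⟩
        by_contra ha2'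
        have ha4 : 4 ≤ a := by
          obtain ⟨t, ht⟩ := ha
          omega
        obtain ⟨x, hx, hxx, hns, -, hfix⟩ := hInvol F d hd h2F
        have hxr : x ^ r = 1 := by
          rw [hr2]
          apply Units.ext
          rw [Units.val_pow_eq_pow_val, pow_two]
          exact hxx
        obtain ⟨g, hg, hgx⟩ := key x hx hxr hns
        have h1 := rank_low hGlue hTri a b (by omega) (by omega) e P x g hgx hns
        have h2 := rank_add_fix (x : Mat d F)
        have h5 : 3 ≤ min a b := le_min (by omega) hb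
        omega
      · -- odd `r ≠ p`
        exfalso
        have hc2d := hIdxLe F p d r (Cfsg.Geo.tensorProductSubgroup a b e P) hr hr2 hrp hΩ
        obtain ⟨x, hx, hxr, hns, -, hfix⟩ := hMin F p r hr hr2 hrp d hc2d
        obtain ⟨g, hg, hgx⟩ := key x hx hxr hns
        exact hOdd F p d a b e P f₁ f₂ hTH ha ha2 hb r hr hr2 hrp x g hx hg hxr hns hfix hgx
  · rintro ⟨hr2, rfl⟩
    intro x hx hz hns
    obtain ⟨z, hz⟩ := hz
    have hbd : b = d := by omega
    have hxx : (x : Mat d F) * (x : Mat d F) = z • (1 : Mat d F) := by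
      rw [hr2, Units.val_pow_eq_pow_val, pow_two] at hz
      exact hz
    -- `z ^ 2 = 1`
    have hzz : z * z = 1 := by
      have h1 := (Cfsg.Agent.H42.mem_spGL_iff' x).mp hx
      have h2 := (h1 ((x : Mat d F) *ᵥ (Pi.single (Sum.inr ⟨0, by omega⟩) 1))
        ((x : Mat d F) *ᵥ (Pi.single (Sum.inl ⟨0, by omega⟩) 1))).trans (h1 _ _)
      rw [Matrix.mulVec_mulVec, Matrix.mulVec_mulVec, hxx, Matrix.smul_mulVec,
        Matrix.smul_mulVec, Matrix.one_mulVec, Matrix.one_mulVec] at h2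
      have h3 : Cfsg.sympForm d F (z • (Pi.single (Sum.inr ⟨0, by omega⟩) 1 : Vec d F))
          (z • (Pi.single (Sum.inl ⟨0, by omega⟩) 1 : Vec d F))
          = z * z * Cfsg.sympForm d F (Pi.single (Sum.inr ⟨0, by omega⟩) 1 : Vec d F)
            (Pi.single (Sum.inl ⟨0, by omega⟩) 1 : Vec d F) := by
        rw [← stdB_apply, ← stdB_apply, stdB_smul_smul]
      rw [h3, Cfsg.Agent.H42.symp_e0_f0 (by omega : 1 ≤ d), mul_one] at h2
      exact h2
    have hz1 : z = 1 ∨ z = -1 := by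
      have h1 : (z - 1) * (z + 1) = 0 := by ring_nf; rw [show z ^ 2 = z * z by ring, hzz]; ring
      rcases mul_eq_zero.mp h1 with h | h
      · left; exact sub_eq_zero.mp h
      · right; exact eq_neg_of_add_eq_zero_left h
    rcases hz1 with rfl | rfl
    · rw [one_smul] at hxx
      obtain ⟨j, hj1, hjd, hjfix⟩ := hInvDim F d h2F x hx hxx hns
      obtain ⟨y, hy1, hy2, hy3, hy4⟩ := hInvModel F d 2 b e P f₁ f₂ hTH h2F (by norm_num)
        (by omega) j (by omega)
      obtain ⟨g, hg, hgx⟩ := hConjInv F d h2F x y hx hy1 hxx hy3 (by rw [hjfix, hy4])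
      exact ⟨g, hg, by rw [hgx]; exact hy2⟩
    · obtain ⟨y, hy1, hy2, hy3⟩ := hNegModel F d b e P f₁ f₂ hTH (by omega)
      obtain ⟨g, hg, hgx⟩ := hC2 F d h2F x y hx hy1 (by rw [hxx, neg_smul, one_smul]) hy3
      exact ⟨g, hg, by rw [hgx]; exact hy2⟩

end Cfsg.Agent.H77.Tp
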