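import Cfsg.Agent.H77.TqDefs
import Cfsg.Agent.H49.TSTrans
import Cfsg.Agent.H49.SimInst
import Cfsg.Agent.H48.TqBAdapt

/-!
# S5978-ADJB (helper77): the normalizer of an isometry of square `-1` covers `O/Ω`
-/

set_option autoImplicit false
open scoped MatrixGroups

namespace Cfsg.Agent.H77.Tq

open Cfsg.Agent.H49 Matrix

universe u

section
variable {ι : Type} [Fintype ι] [DecidableEq ι] {F : Type u} [Field F]

theorem ab_prod_fix (Q : QuadraticForm F (ι → F)) (vs : List (ι → F)) (x : ι → F)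
    (hx : ∀ v ∈ vs, QuadraticMap.polar (⇑Q) v x = 0) :
    ((((vs.map (reflG Q)).prod : ↥(Cfsg.isometryGroup F (⇑Q))) : GL ι F) : Matrix ι ι F) *ᵥ x
      = x := by
  induction vs with
  | nil => simp
  | cons v vs ih =>
    rw [List.map_cons, List.prod_cons, coe_mul_mulVec, ih (fun w hw => hx w (by simp [hw])),
      reflG_coe, reflectionMatrix_mulVec, hx v (by simp)]
    simp

theorem ab_prod_neg (Q : QuadraticForm F (ι → F)) (vs : List (ι → F))
    (hvs : ∀ v ∈ vs, Q v ≠ 0)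
    (hpw : vs.Pairwise (fun v w => QuadraticMap.polar (⇑Q) v w = 0)) (x : ι → F) (hx : x ∈ vs) :
    ((((vs.map (reflG Q)).prod : ↥(Cfsg.isometryGroup F (⇑Q))) : GL ι F) : Matrix ι ι F) *ᵥ x
      = -x := by
  induction vs with
  | nil => simp at hx
  | cons v vs ih =>
    rw [List.pairwise_cons] at hpw
    rw [List.map_cons, List.prod_cons, coe_mul_mulVec]
    rcases List.mem_cons.mp hx with rfl | hx'
    · rw [ab_prod_fix Q vs x (fun w hw => by rw [QuadraticMap.polar_comm]; exact hpw.1 w hw)]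
      exact reflG_mulVec_self Q x (hvs x (by simp))
    · rw [ih (fun w hw => hvs w (by simp [hw])) hpw.2 hx', reflG_coe, reflectionMatrix_mulVec,
        QuadraticMap.polar_neg_right, hpw.1 x hx']
      simp

end

/-- S5978-ADJB. -/
theorem adjB (hAd : StBAdapt.{u}) : StAdjB.{u} := by
  classical
  intro F _ _ ι _ _ Q n h2 hQ _hm1 hcard hn y g hy hg hyy
  obtain ⟨n', b, hb1, hb2, hb3⟩ := hAd F ι Q h2 hQ y hy hyy
  have hn' : n' = n := by
    have h1 := Module.finrank_eq_card_basis b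
    rw [Module.finrank_fintype_fun_eq_card, hcard] at h1
    simp at h1
    omega
  subst hn'
  set Y : Matrix ι ι F := (y : Matrix ι ι F) with hY
  set yG : ↥(Cfsg.isometryGroup F (⇑Q)) := ⟨y, hy⟩ with hyG
  have hYY : ∀ x : ι → F, Y *ᵥ (Y *ᵥ x) = -x := by
    intro x
    rw [Matrix.mulVec_mulVec, hyy, Matrix.neg_mulVec, Matrix.one_mulVec]
  have hpol : ∀ x z : ι → F,
      QuadraticMap.polar (⇑Q) (Y *ᵥ x) (Y *ᵥ z) = QuadraticMap.polar (⇑Q) x z :=
    fun x z => isometry_polar Q yG x z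
  have hyinv : y⁻¹ = y * y * y := by
    apply inv_eq_of_mul_eq_one_right
    apply Units.ext
    simp only [Units.val_mul, Units.val_one]
    rw [← mul_assoc, ← mul_assoc, mul_assoc, hyy]
    simp
  -- the inverting element
  set vs : List (ι → F) := List.ofFn (fun l : Fin n' => b (Sum.inr l)) with hvs
  have hvsQ : ∀ v ∈ vs, Q v ≠ 0 := by
    intro v hv
    rw [hvs, List.mem_ofFn] at hv
    obtain ⟨l, rfl⟩ := hv
    rw [hb2]; exact one_ne_zero
  have hvspw : vs.Pairwise (fun v w => QuadraticMap.polar (⇑Q) v w = 0) := by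
    rw [hvs, List.pairwise_ofFn]
    intro i j hij
    exact hb3 _ _ (by simp; exact ne_of_lt hij)
  set s₁ : ↥(Cfsg.isometryGroup F (⇑Q)) := (vs.map (reflG Q)).prod with hs₁
  have hs₁det : ((s₁ : GL ι F) : Matrix ι ι F).det = -1 := by
    rw [hs₁, coe_prod_reflG, det_prod_refl Q vs hvsQ, hvs, List.length_ofFn]
    exact hn.neg_one_pow
  have hs₁l : ∀ l : Fin n', ((s₁ : GL ι F) : Matrix ι ι F) *ᵥ b (Sum.inl l) = b (Sum.inl l) := by
    intro l
    apply ab_prod_fix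
    intro v hv
    rw [hvs, List.mem_ofFn] at hv
    obtain ⟨l', rfl⟩ := hv
    exact hb3 _ _ (by simp)
  have hs₁r : ∀ l : Fin n', ((s₁ : GL ι F) : Matrix ι ι F) *ᵥ b (Sum.inr l) = -b (Sum.inr l) := by
    intro l
    apply ab_prod_neg Q vs hvsQ hvspw
    rw [hvs, List.mem_ofFn]
    exact ⟨l, rfl⟩
  have hkey : ∀ i, ((s₁ : GL ι F) : Matrix ι ι F) *ᵥ (Y *ᵥ b i)
      = -(Y *ᵥ (((s₁ : GL ι F) : Matrix ι ι F) *ᵥ b i)) := by
    intro i
    rcases i with l | l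
    · rw [← hb1 l, hs₁r, hs₁l, ← hb1 l]
    · rw [hs₁r, Matrix.mulVec_neg, neg_neg, hb1 l, hYY, Matrix.mulVec_neg, hs₁l]
  have hmat : ((s₁ : GL ι F) : Matrix ι ι F) * Y = -(Y * ((s₁ : GL ι F) : Matrix ι ι F)) := by
    apply Matrix.toLin'.injective
    apply b.ext
    intro i
    rw [Matrix.toLin'_apply, Matrix.toLin'_apply, ← Matrix.mulVec_mulVec, Matrix.neg_mulVec,
      ← Matrix.mulVec_mulVec]
    exact hkey i
  have hs₁y : (s₁ : GL ι F) * y * (s₁ : GL ι F)⁻¹ = y⁻¹ := by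
    rw [mul_inv_eq_iff_eq_mul, hyinv]
    apply Units.ext
    simp only [Units.val_mul]
    rw [hyy, neg_one_mul, neg_mul]
    exact hmat
  -- the commuting element
  have hpos : 0 < n' := hn.pos
  set e₁ : ι → F := b (Sum.inl ⟨0, hpos⟩) with he₁
  set e₂ : ι → F := b (Sum.inr ⟨0, hpos⟩) with he₂
  have hY1 : Y *ᵥ e₁ = e₂ := (hb1 ⟨0, hpos⟩).symm
  have hY2 : Y *ᵥ e₂ = -e₁ := by rw [← hY1, hYY]
  have hQ1 : Q e₁ = 1 := hb2 _
  have hQ2 : Q e₂ = 1 := hb2 _
  have h12 : QuadraticMap.polar (⇑Q) e₁ e₂ = 0 := hb3 _ _ (by simp)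
  obtain ⟨ν, hν⟩ := exists_nonsquare_unit (F := F) h2
  obtain ⟨α, β, hαβ⟩ := Cfsg.Agent.H48.Tq.sum_two_sq (ν : F)
  have hN0 : α ^ 2 + β ^ 2 ≠ 0 := by rw [hαβ]; exact ν.ne_zero
  have hNns : ¬ IsSquare (α ^ 2 + β ^ 2) := by rw [hαβ]; exact hν
  set w : ι → F := α • e₁ + β • e₂ with hw
  have hQw : Q w = α ^ 2 + β ^ 2 := by
    rw [hw, Q_add', QuadraticMap.map_smul, QuadraticMap.map_smul, QuadraticMap.polar_smul_left,
      QuadraticMap.polar_smul_right, h12, hQ1, hQ2]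
    simp only [smul_eq_mul]
    ring
  set s₂ : ↥(Cfsg.isometryGroup F (⇑Q)) := reflG Q e₁ * reflG Q w with hs₂
  have hs₂det : ((s₂ : GL ι F) : Matrix ι ι F).det = 1 := by
    rw [hs₂, det_mul_iso, reflG_coe, reflG_coe, det_reflectionMatrix Q e₁ (by rw [hQ1]; exact one_ne_zero),
      det_reflectionMatrix Q w (by rw [hQw]; exact hN0)]
    ring
  have hs₂spin : spinSign Q s₂ = -1 := by
    rw [hs₂, map_mul, spinSign_reflG Q h2 e₁ (by rw [hQ1]; exact one_ne_zero),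
      spinSign_reflG Q h2 w (by rw [hQw]; exact hN0), if_pos (by rw [hQ1]; exact ⟨1, by ring⟩),
      if_neg (by rw [hQw]; exact hNns)]
    simp
  have hform : ∀ x : ι → F, ((s₂ : GL ι F) : Matrix ι ι F) *ᵥ x
      = x + (α * ((α ^ 2 + β ^ 2)⁻¹ * (α * QuadraticMap.polar (⇑Q) e₁ x
            + β * QuadraticMap.polar (⇑Q) e₂ x)) - QuadraticMap.polar (⇑Q) e₁ x) • e₁
          - (β * ((α ^ 2 + β ^ 2)⁻¹ * (α * QuadraticMap.polar (⇑Q) e₁ x
            + β * QuadraticMap.polar (⇑Q) e₂ x))) • e₂ := by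
    intro x
    have hwx : QuadraticMap.polar (⇑Q) w x
        = α * QuadraticMap.polar (⇑Q) e₁ x + β * QuadraticMap.polar (⇑Q) e₂ x := by
      rw [hw, QuadraticMap.polar_add_left, QuadraticMap.polar_smul_left,
        QuadraticMap.polar_smul_left]
      simp only [smul_eq_mul]
    have h1w : QuadraticMap.polar (⇑Q) e₁ w = 2 * α := by
      rw [hw, QuadraticMap.polar_add_right, QuadraticMap.polar_smul_right,
        QuadraticMap.polar_smul_right, h12, polar_self', hQ1]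
      simp only [smul_eq_mul]
      ring
    rw [hs₂, coe_mul_mulVec, reflG_coe, reflG_coe, reflectionMatrix_mulVec,
      reflectionMatrix_mulVec, QuadraticMap.polar_sub_right, QuadraticMap.polar_smul_right,
      h1w, hwx, hQw, hQ1, inv_one, one_mul]
    simp only [smul_eq_mul]
    rw [hw]
    module
  have hp1 : ∀ x : ι → F, QuadraticMap.polar (⇑Q) e₁ (Y *ᵥ x) = -QuadraticMap.polar (⇑Q) e₂ x := by
    intro x
    rw [← hpol e₁ (Y *ᵥ x), hY1, hYY, QuadraticMap.polar_neg_right]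
  have hp2 : ∀ x : ι → F, QuadraticMap.polar (⇑Q) e₂ (Y *ᵥ x) = QuadraticMap.polar (⇑Q) e₁ x := by
    intro x
    rw [← hY1, hpol]
  have hmat2 : ((s₂ : GL ι F) : Matrix ι ι F) * Y = Y * ((s₂ : GL ι F) : Matrix ι ι F) := by
    apply matrix_ext_mulVec
    intro x
    rw [← Matrix.mulVec_mulVec, ← Matrix.mulVec_mulVec, hform, hform x, hp1, hp2,
      Matrix.mulVec_sub, Matrix.mulVec_add, Matrix.mulVec_smul, Matrix.mulVec_smul, hY1, hY2]
    set p₁ := QuadraticMap.polar (⇑Q) e₁ x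
    set p₂ := QuadraticMap.polar (⇑Q) e₂ x
    have c1 : α * ((α ^ 2 + β ^ 2)⁻¹ * (α * -p₂ + β * p₁)) - -p₂
        = β * ((α ^ 2 + β ^ 2)⁻¹ * (α * p₁ + β * p₂)) := by
      field_simp
      ring
    have c2 : β * ((α ^ 2 + β ^ 2)⁻¹ * (α * -p₂ + β * p₁))
        = -(α * ((α ^ 2 + β ^ 2)⁻¹ * (α * p₁ + β * p₂)) - p₁) := by
      field_simp
      ring
    rw [c1, c2]
    module
  have hs₂y : (s₂ : GL ι F) * y * (s₂ : GL ι F)⁻¹ = y := by
    rw [mul_inv_eq_iff_eq_mul]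
    apply Units.ext
    simp only [Units.val_mul]
    exact hmat2
  obtain ⟨h, hh, hmem⟩ := adjust_odd Q h2 hQ s₁ s₂ hs₁det hs₂det hs₂spin ⟨g, hg⟩
  refine ⟨(h : GL ι F), h.2, ?_, ?_⟩
  · rcases hh with rfl | rfl | rfl | rfl
    · left; simp
    · right; exact hs₁y
    · left; exact hs₂y
    · right
      have e : ((s₂ * s₁ : ↥(Cfsg.isometryGroup F (⇑Q))) : GL ι F) * y
            * ((s₂ * s₁ : ↥(Cfsg.isometryGroup F (⇑Q))) : GL ι F)⁻¹
          = (s₂ : GL ι F) * ((s₁ : GL ι F) * y * (s₁ : GL ι F)⁻¹) * (s₂ : GL ι F)⁻¹ := by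
        rw [Subgroup.coe_mul]
        group
      rw [e, hs₁y]
      have e2 : (s₂ : GL ι F) * y⁻¹ * (s₂ : GL ι F)⁻¹
          = ((s₂ : GL ι F) * y * (s₂ : GL ι F)⁻¹)⁻¹ := by group
      rw [e2, hs₂y]
  · unfold Cfsg.Geo.omegaGL
    exact ⟨_, hmem, rfl⟩

example (hAd : StBAdapt.{u}) : StAdjB.{u} := adjB hAd

end Cfsg.Agent.H77.Tq

#print axioms Cfsg.Agent.H77.Tq.adjB
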