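import Mathlib
import Cfsg.Agent.H77.TqDefs
import Cfsg.Agent.H49.Basic

/-!
# S5978-LIN and S5978-LIFT (helper77): isometries commuting with `K` in adapted coordinates
-/

set_option autoImplicit false
open scoped MatrixGroups
open scoped Matrix

namespace Cfsg.Agent.H77.Tq

open Module

universe u

section

variable {F : Type u} [Field F] [Fintype F] {ι : Type} [Fintype ι] [DecidableEq ι]

/-- Matrices with the same bilinear pairing are equal. -/
theorem matrix_eq_of_dot {R : Type*} [CommRing R] {n : ℕ} (A B : Matrix (Fin n) (Fin n) R)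
    (h : ∀ w w' : Fin n → R, w ⬝ᵥ (A *ᵥ w') = w ⬝ᵥ (B *ᵥ w')) : A = B := by
  ext i j
  have := h (Pi.single i 1) (Pi.single j 1)
  simpa using this

/-- The diagonal form as a dot product. -/
theorem diag_form {R : Type*} [CommRing R] {n : ℕ} (α w w' : Fin n → R) :
    ∑ l, α l * w l * w' l = w ⬝ᵥ (Matrix.diagonal α *ᵥ w') := by
  simp only [dotProduct, Matrix.mulVec_diagonal]
  exact Finset.sum_congr rfl (fun l _ => by ring)

omit [Fintype F] in
/-- An isometry preserves the polar form. -/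
theorem polar_isometry (Q : QuadraticForm F (ι → F)) (y : GL ι F)
    (hy : y ∈ Cfsg.isometryGroup F ⇑Q) (u v : ι → F) :
    QuadraticMap.polar (⇑Q) ((y : Matrix ι ι F) *ᵥ u) ((y : Matrix ι ι F) *ᵥ v) =
      QuadraticMap.polar (⇑Q) u v := by
  have h := Cfsg.Agent.H49.mem_isometryGroup_iff.mp hy
  simp only [QuadraticMap.polar, ← Matrix.mulVec_add, h]

/-- S5978-LIN. -/
theorem lin : StLin.{u} := by
  intro F _ _ ι _ _ Q K L _ _ _ n ψ φ α hKO hC y hy hcomm
  classical
  -- the transported map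
  let T : (Fin n → L) →ₗ[F] (Fin n → L) :=
    (φ.symm : (ι → F) →ₗ[F] (Fin n → L)) ∘ₗ (Matrix.toLin' (y : Matrix ι ι F)) ∘ₗ
      (φ : (Fin n → L) →ₗ[F] (ι → F))
  have hT : ∀ w, φ (T w) = (y : Matrix ι ι F) *ᵥ φ w := by
    intro w
    simp [T]
  have hTs : ∀ (c : L) (w : Fin n → L), T (c • w) = c • T w := by
    intro c w
    apply φ.injective
    rw [hT, hC.smul, hC.smul, hT, Matrix.mulVec_mulVec, Matrix.mulVec_mulVec,
      hcomm (ψ c) (hC.mem c)]
  let T' : (Fin n → L) →ₗ[L] (Fin n → L) :=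
    { toFun := T
      map_add' := T.map_add
      map_smul' := hTs }
  let Y : Matrix (Fin n) (Fin n) L := LinearMap.toMatrix' T'
  have hY : ∀ w, Y *ᵥ w = T w := by
    intro w
    show (LinearMap.toMatrix' T') *ᵥ w = T' w
    rw [LinearMap.toMatrix'_mulVec]
  refine ⟨Y, fun w => by rw [hY, hT], ?_⟩
  -- the form
  have htr : ∀ w w' : Fin n → L,
      Algebra.trace F L ((Y *ᵥ w) ⬝ᵥ (Matrix.diagonal α *ᵥ (Y *ᵥ w')) -
        w ⬝ᵥ (Matrix.diagonal α *ᵥ w')) = 0 := by
    intro w w'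
    rw [map_sub, ← diag_form, ← diag_form, ← hC.form, ← hC.form, hY, hY, hT, hT,
      polar_isometry Q y hy, sub_self]
  have hnd := traceForm_nondegenerate F L
  have hzero : ∀ w w' : Fin n → L,
      (Y *ᵥ w) ⬝ᵥ (Matrix.diagonal α *ᵥ (Y *ᵥ w')) = w ⬝ᵥ (Matrix.diagonal α *ᵥ w') := by
    intro w w'
    apply sub_eq_zero.mp
    apply hnd.1
    intro c
    rw [Algebra.traceForm_apply]
    have := htr (c • w) w'
    rw [Matrix.mulVec_smul, smul_dotProduct, smul_dotProduct, ← smul_sub, smul_eq_mul] at this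
    rw [mul_comm]
    exact this
  apply matrix_eq_of_dot
  intro w w'
  rw [← hzero w w', ← Matrix.mulVec_mulVec, ← Matrix.mulVec_mulVec, Matrix.dotProduct_mulVec,
    Matrix.vecMul_transpose]

/-- S5978-LIFT. -/
theorem lift : StLift.{u} := by
  intro F _ _ ι _ _ Q K L _ _ _ n ψ φ α hKO hC
  classical
  let μ : Matrix (Fin n) (Fin n) L →* Matrix ι ι F :=
    { toFun := fun M => LinearMap.toMatrix'
        ((φ : (Fin n → L) →ₗ[F] (ι → F)) ∘ₗ ((Matrix.toLin' M).restrictScalars F) ∘ₗ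
          (φ.symm : (ι → F) →ₗ[F] (Fin n → L)))
      map_one' := by
        rw [Matrix.toLin'_one]
        have : (φ : (Fin n → L) →ₗ[F] (ι → F)) ∘ₗ
            ((LinearMap.id : (Fin n → L) →ₗ[L] (Fin n → L)).restrictScalars F) ∘ₗ
            (φ.symm : (ι → F) →ₗ[F] (Fin n → L)) = LinearMap.id := by
          ext v
          simp
        rw [this, LinearMap.toMatrix'_id]
      map_mul' := by
        intro M N
        rw [← LinearMap.toMatrix'_comp]
        congr 1
        ext v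
        simp [Matrix.toLin'_mul] }
  have hμ : ∀ (M : Matrix (Fin n) (Fin n) L) (w : Fin n → L), (μ M) *ᵥ φ w = φ (M *ᵥ w) := by
    intro M w
    show (LinearMap.toMatrix' _) *ᵥ φ w = _
    rw [LinearMap.toMatrix'_mulVec]
    simp
  let G := Cfsg.isometryGroup L (fun w : Fin n → L => ∑ l, α l * w l ^ 2)
  let Φ : ↥G →* GL ι F := (Units.map μ).comp G.subtype
  have hΦ : ∀ (Y : ↥G) (w : Fin n → L),
      φ (((Y : GL (Fin n) L) : Matrix (Fin n) (Fin n) L) *ᵥ w) =
        ((Φ Y : GL ι F) : Matrix ι ι F) *ᵥ φ w := by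
    intro Y w
    exact (hμ _ w).symm
  have hQ : ∀ w : Fin n → L, 2 * Q (φ w) = Algebra.trace F L (∑ l, α l * w l ^ 2) := by
    intro w
    have h1 := hC.form w w
    rw [QuadraticMap.polar_self, two_smul, ← two_mul] at h1
    rw [h1]
    congr 1
    exact Finset.sum_congr rfl (fun l _ => by ring)
  refine ⟨Φ, ?_, ?_, ?_, hΦ⟩
  · intro Y Y' h
    apply Subtype.ext
    apply Units.ext
    apply Cfsg.Agent.H49.matrix_ext_mulVec
    intro w
    apply φ.injective
    rw [hΦ, hΦ, h]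
  · intro Y
    rw [Cfsg.Agent.H49.mem_isometryGroup_iff]
    intro u
    obtain ⟨w, rfl⟩ := φ.surjective u
    rw [← hΦ]
    have hY := Cfsg.Agent.H49.mem_isometryGroup_iff.mp Y.2 w
    have e1 := hQ (((Y : GL (Fin n) L) : Matrix (Fin n) (Fin n) L) *ᵥ w)
    have e2 := hQ w
    rw [hY] at e1
    exact mul_left_cancel₀ hKO.two (e1.trans e2.symm)
  · intro Y a ha
    obtain ⟨c, rfl⟩ := hC.surj a ha
    apply Cfsg.Agent.H49.matrix_ext_mulVec
    intro u
    obtain ⟨w, rfl⟩ := φ.surjective u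
    rw [← Matrix.mulVec_mulVec, ← Matrix.mulVec_mulVec, ← hC.smul, ← hΦ, ← hΦ, ← hC.smul,
      Matrix.mulVec_smul]

example : StLin.{u} := lin
example : StLift.{u} := lift

end

end Cfsg.Agent.H77.Tq
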