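import Mathlib
import Cfsg.Agent.H77.TqDefs
import Cfsg.Agent.H49.SimpleForms
import Cfsg.Agent.H49.Disc
import Cfsg.Agent.H49.Basic

/-!
# S5978 (helper77): the assembly of the pieces
-/

set_option autoImplicit false
open scoped MatrixGroups
open scoped Matrix

namespace Cfsg.Agent.H77.Tq

open Module

universe u

/-- The standing hypotheses for the minus-type form. -/
theorem ko_minus {F : Type u} [Field F] [Fintype F] (hodd : Odd (Fintype.card F)) (m : ℕ) (a b : F)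
    (hab : Aniso a b) (K : Subalgebra F (Matrix (MI m) (MI m) F))
    (hK : Cfsg.Geo.IsFieldSubalgebra 2 K)
    (hKf : Cfsg.Geo.IsSelfAdjointFor (QuadraticMap.polar (Cfsg.quadFormMinus m F a b)) K) :
    KO (Cfsg.Agent.H49.QMin m F a b) K :=
  ⟨Cfsg.Agent.H49.two_ne_zero_of_odd_card hodd,
    Cfsg.Agent.H49.QMin_nondeg m a b (Cfsg.Agent.H49.disc_ne_zero_of_aniso a b hab), hK, hKf⟩

/-- A scalar square of an isometry of the minus-type form is `±1`. -/
theorem sq_scalar {F : Type u} [Field F] (m : ℕ) (a b : F) (x : GL (MI m) F)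
    (hx : x ∈ Cfsg.isometryGroup F (Cfsg.quadFormMinus m F a b)) (z : F)
    (hz : (x : Matrix (MI m) (MI m) F) * (x : Matrix (MI m) (MI m) F) = z • 1) :
    z = 1 ∨ z = -1 := by
  classical
  have hiso := Cfsg.Agent.H49.mem_isometryGroup_iff.mp hx
  set v₀ : MI m → F := Pi.single (Sum.inr 0) 1 with hv₀
  have hQ1 : Cfsg.quadFormMinus m F a b v₀ = 1 := by
    simp [Cfsg.quadFormMinus, hv₀]
  have h1 : Cfsg.quadFormMinus m F a b
      ((x : Matrix (MI m) (MI m) F) *ᵥ ((x : Matrix (MI m) (MI m) F) *ᵥ v₀)) = 1 := by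
    rw [hiso, hiso, hQ1]
  rw [Matrix.mulVec_mulVec, hz, Matrix.smul_mulVec, Matrix.one_mulVec] at h1
  have h2 : Cfsg.quadFormMinus m F a b (z • v₀) = z * z * Cfsg.quadFormMinus m F a b v₀ := by
    have := QuadraticMap.map_smul (Cfsg.Agent.H49.QMin m F a b) z v₀
    rw [smul_eq_mul] at this
    exact this
  rw [h2, hQ1, mul_one] at h1
  have h3 : (z - 1) * (z + 1) = 0 := by linear_combination h1
  rcases mul_eq_zero.mp h3 with h | h
  · left; linear_combination h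
  · right; linear_combination h

/-- S5978 from its three main pieces. -/
theorem tq_main (hFwd : StFwd.{u}) (hA : StTypeA.{u}) (hB : StTypeB.{u})
    {F : Type u} [Field F] [Fintype F] {p : ℕ} [Fact p.Prime] [CharP F p] {q : ℕ}
    (hq : Fintype.card F = q) (hodd : Odd q) (d : ℕ) (hd : 4 ≤ d) (a b : F)
    (hab : ∀ x y : F, x ^ 2 + a * x * y + b * y ^ 2 = 0 → x = 0 ∧ y = 0)
    (K : Subalgebra F (Matrix ((Fin (d - 1) ⊕ Fin (d - 1)) ⊕ Fin 2)
      ((Fin (d - 1) ⊕ Fin (d - 1)) ⊕ Fin 2) F)) (hK : Cfsg.Geo.IsFieldSubalgebra 2 K)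
    (hKf : Cfsg.Geo.IsSelfAdjointFor
      (QuadraticMap.polar (Cfsg.quadFormMinus (d - 1) F a b)) K)
    (r : ℕ) [Fact r.Prime]
    (hΩ : r ∣ (Cfsg.Geo.subalgebraNormalizer K).relIndex
      (Cfsg.Geo.omegaGL (Cfsg.quadFormMinus (d - 1) F a b))) :
    (∀ x ∈ Cfsg.Geo.omegaGL (Cfsg.quadFormMinus (d - 1) F a b),
      (∃ z : F, ((x ^ r : GL ((Fin (d - 1) ⊕ Fin (d - 1)) ⊕ Fin 2) F) :
        Matrix ((Fin (d - 1) ⊕ Fin (d - 1)) ⊕ Fin 2) ((Fin (d - 1) ⊕ Fin (d - 1)) ⊕ Fin 2) F) =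
          z • (1 : Matrix ((Fin (d - 1) ⊕ Fin (d - 1)) ⊕ Fin 2)
            ((Fin (d - 1) ⊕ Fin (d - 1)) ⊕ Fin 2) F)) →
      (∀ z : F, (x : Matrix ((Fin (d - 1) ⊕ Fin (d - 1)) ⊕ Fin 2)
        ((Fin (d - 1) ⊕ Fin (d - 1)) ⊕ Fin 2) F) ≠
          z • (1 : Matrix ((Fin (d - 1) ⊕ Fin (d - 1)) ⊕ Fin 2)
            ((Fin (d - 1) ⊕ Fin (d - 1)) ⊕ Fin 2) F)) →
      ∃ g ∈ Cfsg.Geo.omegaGL (Cfsg.quadFormMinus (d - 1) F a b),
        g⁻¹ * x * g ∈ Cfsg.Geo.subalgebraNormalizer K) ↔ r = 2 := by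
  classical
  have hoddF : Odd (Fintype.card F) := by rw [hq]; exact hodd
  have hKO := ko_minus hoddF (d - 1) a b hab K hK hKf
  constructor
  · intro h
    by_contra hr2
    obtain ⟨x, hx, hxr, hns, hno⟩ :=
      hFwd F p (d - 1) a b K (by omega) hab hKO r Fact.out hr2 hΩ
    obtain ⟨g, hg, hgN⟩ := h x hx ⟨1, by rw [hxr, one_smul]; rfl⟩ hns
    exact hno g hg hgN
  · rintro rfl x hx ⟨z, hz⟩ hns
    have hxO : x ∈ Cfsg.isometryGroup F (Cfsg.quadFormMinus (d - 1) F a b) := by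
      obtain ⟨y, -, rfl⟩ := hx
      exact y.2
    have hz' : (x : Matrix (MI (d - 1)) (MI (d - 1)) F) * (x : Matrix (MI (d - 1)) (MI (d - 1)) F) =
        z • 1 := by
      rw [← hz, pow_two, Units.val_mul]
    rcases sq_scalar (d - 1) a b x hxO z hz' with rfl | rfl
    · refine hA F (MI (d - 1)) (Cfsg.Agent.H49.QMin (d - 1) F a b) K hKO ?_ x hx ?_ hns
      · refine ⟨(d - 1) + 1, ?_⟩
        simp [Fintype.card_sum]
        ring
      · rw [hz', one_smul]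
    · refine hB F (d - 1) a b K hab hKO x hx ?_
      rw [hz', neg_smul, one_smul]

end Cfsg.Agent.H77.Tq
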