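import Cfsg.Agent.H77.TqDefs
import Cfsg.Agent.H49.Siegel
import Cfsg.Agent.H49.MinusForm
import Cfsg.Agent.H49.SimpleForms

/-!
# S5978-SIEGEL (helper77): a long root element of `Ω⁻`
-/

set_option autoImplicit false
open scoped MatrixGroups

namespace Cfsg.Agent.H77.Tq

open Cfsg.Agent.H49 Matrix

universe u

section
variable {F : Type u} [Field F]

theorem sg_polar_inl (m : ℕ) (a b : F) (i : Fin m) (x : (Fin m ⊕ Fin m) ⊕ Fin 2 → F) :
    QuadraticMap.polar (⇑(QMin m F a b)) (Pi.single (Sum.inl (Sum.inl i)) 1) x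
      = x (Sum.inl (Sum.inr i)) := by
  show QuadraticMap.polar (⇑(sumQ (QP m F) (binQ a b))) _ _ = _
  rw [polar_sumQ]
  have e1 : (Pi.single (Sum.inl (Sum.inl i)) (1 : F) : (Fin m ⊕ Fin m) ⊕ Fin 2 → F) ∘ Sum.inl
      = Pi.single (Sum.inl i) 1 := by
    funext j
    simp [Pi.single_apply]
  have e2 : (Pi.single (Sum.inl (Sum.inl i)) (1 : F) : (Fin m ⊕ Fin m) ⊕ Fin 2 → F) ∘ Sum.inr
      = 0 := by
    funext j
    simp [Pi.single_apply]
  rw [e1, e2, polar_QP_single_inl, QuadraticMap.polar_zero_left, add_zero]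
  rfl

theorem sg_Q_inl (m : ℕ) (a b : F) (i : Fin m) :
    QMin m F a b (Pi.single (Sum.inl (Sum.inl i)) 1) = 0 := by
  show sumQ (QP m F) (binQ a b) _ = 0
  rw [sumQ_apply]
  have e1 : (Pi.single (Sum.inl (Sum.inl i)) (1 : F) : (Fin m ⊕ Fin m) ⊕ Fin 2 → F) ∘ Sum.inl
      = Pi.single (Sum.inl i) 1 := by
    funext j
    simp [Pi.single_apply]
  have e2 : (Pi.single (Sum.inl (Sum.inl i)) (1 : F) : (Fin m ⊕ Fin m) ⊕ Fin 2 → F) ∘ Sum.inr
      = 0 := by
    funext j
    simp [Pi.single_apply]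
  rw [e1, e2, QuadraticMap.map_zero, add_zero, QP_apply]
  apply Finset.sum_eq_zero
  intro j _
  simp [Pi.single_apply]

end

/-- S5978-SIEGEL. -/
theorem siegelM : StSiegelM.{u} := by
  intro F _ _ p _ _ m a b h2 hm hab
  have hQ := QMin_nondeg m a b (disc_ne_zero_of_aniso a b hab)
  set Q := QMin m F a b with hQdef
  let i0 : Fin m := ⟨0, by omega⟩
  let i1 : Fin m := ⟨1, by omega⟩
  have hi : i0 ≠ i1 := by
    intro h
    have := congrArg Fin.val h
    simp [i0, i1] at this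
  set uu : (Fin m ⊕ Fin m) ⊕ Fin 2 → F := Pi.single (Sum.inl (Sum.inl i0)) 1 with huu
  set vv : (Fin m ⊕ Fin m) ⊕ Fin 2 → F := Pi.single (Sum.inl (Sum.inl i1)) 1 with hvv
  have hu : Q uu = 0 := sg_Q_inl m a b i0
  have hv : Q vv = 0 := sg_Q_inl m a b i1
  have hpu : ∀ x, QuadraticMap.polar (⇑Q) uu x = x (Sum.inl (Sum.inr i0)) :=
    fun x => sg_polar_inl m a b i0 x
  have hpv : ∀ x, QuadraticMap.polar (⇑Q) vv x = x (Sum.inl (Sum.inr i1)) :=
    fun x => sg_polar_inl m a b i1 x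
  have huv : QuadraticMap.polar (⇑Q) uu vv = 0 := by
    rw [hpu, hvv]
    simp [Pi.single_apply]
  set s : F → ↥(Cfsg.isometryGroup F (⇑Q)) := fun c => siegelG Q uu vv hu hv huv c with hs
  have hs0 : s 0 = 1 := by
    apply Subtype.ext
    apply Units.ext
    exact siegel_zero Q uu vv
  have hpow : ∀ k : ℕ, s 1 ^ k = s (k : F) := by
    intro k
    induction k with
    | zero => rw [pow_zero, Nat.cast_zero, hs0]
    | succ k ih =>
      rw [pow_succ, ih]
      show siegelG Q uu vv hu hv huv _ * siegelG Q uu vv hu hv huv _ = _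
      rw [siegelG_mul]
      simp [hs]
  have hmv : ∀ w : (Fin m ⊕ Fin m) ⊕ Fin 2 → F,
      (((s 1 : ↥(Cfsg.isometryGroup F (⇑Q))) : GL (MI m) F) : Matrix (MI m) (MI m) F) *ᵥ w
        = w + (w (Sum.inl (Sum.inr i0)) • vv - w (Sum.inl (Sum.inr i1)) • uu) := by
    intro w
    have := siegelG_mulVec Q uu vv hu hv huv 1 w
    rw [hpu, hpv, one_smul] at this
    exact this
  refine ⟨((s 1 : ↥(Cfsg.isometryGroup F (⇑Q))) : GL (MI m) F), ?_, ?_, ?_, ?_⟩
  · have h := siegelG_mem_commutator_odd Q h2 hQ uu vv hu hv huv 1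
    unfold Cfsg.Geo.omegaGL
    exact ⟨_, h, rfl⟩
  · have h1 : s 1 ^ p = 1 := by
      rw [hpow, CharP.cast_eq_zero, hs0]
    have := congrArg (Subtype.val) h1
    simpa using this
  · intro z hz
    have h1 := hmv (Pi.single (Sum.inl (Sum.inr i0)) 1)
    rw [hz, Matrix.smul_mulVec, Matrix.one_mulVec] at h1
    have h2' := congrFun h1 (Sum.inl (Sum.inl i1))
    simp [huu, hvv, Pi.single_apply, hi, Ne.symm hi] at h2'
  · set M : Matrix (MI m) (MI m) F :=
      (((s 1 : ↥(Cfsg.isometryGroup F (⇑Q))) : GL (MI m) F) : Matrix (MI m) (MI m) F) - 1 with hM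
    have hMv : ∀ w : (Fin m ⊕ Fin m) ⊕ Fin 2 → F,
        M *ᵥ w = w (Sum.inl (Sum.inr i0)) • vv - w (Sum.inl (Sum.inr i1)) • uu := by
      intro w
      rw [hM, Matrix.sub_mulVec, hmv, Matrix.one_mulVec]
      abel
    have hrange : LinearMap.range M.mulVecLin = Submodule.span F (Set.range ![uu, vv]) := by
      apply le_antisymm
      · rintro _ ⟨w, rfl⟩
        rw [Matrix.mulVecLin_apply, hMv]
        apply Submodule.sub_mem
        · exact Submodule.smul_mem _ _ (Submodule.subset_span ⟨1, rfl⟩)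
        · exact Submodule.smul_mem _ _ (Submodule.subset_span ⟨0, rfl⟩)
      · rw [Submodule.span_le]
        rintro _ ⟨j, rfl⟩
        fin_cases j
        · refine ⟨-(Pi.single (Sum.inl (Sum.inr i1)) 1), ?_⟩
          rw [Matrix.mulVecLin_apply, hMv]
          simp [Pi.single_apply, hi, Ne.symm hi]
        · refine ⟨Pi.single (Sum.inl (Sum.inr i0)) 1, ?_⟩
          rw [Matrix.mulVecLin_apply, hMv]
          simp [Pi.single_apply, hi, Ne.symm hi]
    have hli : LinearIndependent F ![uu, vv] := by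
      rw [LinearIndependent.pair_iff]
      intro c d hcd
      have h0 := congrFun hcd (Sum.inl (Sum.inl i0))
      have h1 := congrFun hcd (Sum.inl (Sum.inl i1))
      simp [huu, hvv, Pi.single_apply, hi, Ne.symm hi] at h0 h1
      exact ⟨h0, h1⟩
    show M.rank = 2
    rw [Matrix.rank, hrange, finrank_span_eq_card hli]
    simp

example : StSiegelM.{u} := siegelM

end Cfsg.Agent.H77.Tq

#print axioms Cfsg.Agent.H77.Tq.siegelM
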