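import Mathlib
import Cfsg.Agent.H77.TqDefs
import Cfsg.Agent.H77.FxDefs
import Cfsg.Agent.H15.FxTrForm

/-!
# S5978-STRUCT (helper77): coordinates adapted to `K`
-/

set_option autoImplicit false
set_option linter.style.haveILetI false
open scoped MatrixGroups
open scoped Matrix

namespace Cfsg.Agent.H77.Tq

open Module

universe u

/-- The structure theorem for an abstract field `L` acting through `ψ`. -/
theorem struct_aux (hDiag : StDiag.{u}) (F : Type u) [Field F] [Fintype F] (ι : Type) [Fintype ι]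
    [DecidableEq ι] (Q : QuadraticForm F (ι → F)) (h2 : (2 : F) ≠ 0)
    (hQ : (QuadraticMap.polarBilin Q).Nondegenerate)
    (L : Type u) [Field L] [Fintype L] [Algebra F L] (ψ : L →ₐ[F] Matrix ι ι F)
    (hsa : ∀ (c : L) (u v : ι → F), QuadraticMap.polar (⇑Q) ((ψ c) *ᵥ u) v =
      QuadraticMap.polar (⇑Q) u ((ψ c) *ᵥ v)) :
    ∃ (n : ℕ) (φ : (Fin n → L) ≃ₗ[F] (ι → F)) (α : Fin n → L),
      Fintype.card ι = Module.finrank F L * n ∧
      (∀ (c : L) (w : Fin n → L), φ (c • w) = (ψ c) *ᵥ (φ w)) ∧ (∀ l, α l ≠ 0) ∧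
      (∀ w w' : Fin n → L, QuadraticMap.polar (⇑Q) (φ w) (φ w') =
        Algebra.trace F L (∑ l, α l * w l * w' l)) ∧
      ∀ l : Fin n, (l : ℕ) + 1 < n → ¬ IsSquare (α l) := by
  classical
  let ρ : L →ₐ[F] Module.End F (ι → F) :=
    (Matrix.toLinAlgEquiv' : Matrix ι ι F ≃ₐ[F] Module.End F (ι → F)).toAlgHom.comp ψ
  letI instM : Module L (ι → F) := Module.compHom (ι → F) (ρ : L →+* Module.End F (ι → F))
  have hsmul : ∀ (c : L) (v : ι → F), c • v = (ψ c) *ᵥ v := by
    intro c v
    show ρ c v = _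
    simp [ρ]
  haveI instT : IsScalarTower F L (ι → F) := by
    refine ⟨fun a c v => ?_⟩
    rw [hsmul, hsmul, map_smul, Matrix.smul_mulVec]
  haveI instFD : FiniteDimensional L (ι → F) := Module.Finite.right F L (ι → F)
  obtain ⟨B, hB1, -, hB3⟩ := Cfsg.Agent.H15.Fx.trForm F L (ι → F) (QuadraticMap.polarBilin Q) (by
    intro c u v
    rw [QuadraticMap.polarBilin_apply_apply, QuadraticMap.polarBilin_apply_apply, hsmul, hsmul]
    exact hsa c u v)
  have hBnd : ∀ u, (∀ v, B u v = 0) → u = 0 := hB3 (fun u hu => hQ.1 u hu)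
  have hBsymm : ∀ u v, B u v = B v u := by
    intro u v
    have hnd := traceForm_nondegenerate F L
    have key : ∀ c : L, Algebra.traceForm F L (B u v - B v u) c = 0 := by
      intro c
      rw [Algebra.traceForm_apply, sub_mul, map_sub]
      have e1 : B u v * c = B (c • u) v := by
        rw [map_smul, LinearMap.smul_apply, smul_eq_mul, mul_comm]
      have e2 : B v u * c = B v (c • u) := by
        rw [map_smul, smul_eq_mul, mul_comm]
      rw [e1, e2, ← hB1, ← hB1, QuadraticMap.polarBilin_apply_apply,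
        QuadraticMap.polarBilin_apply_apply, QuadraticMap.polar_comm, sub_self]
    exact sub_eq_zero.mp (hnd.1 _ key)
  have h2L : (2 : L) ≠ 0 := by
    intro h
    apply h2
    have : algebraMap F L 2 = 0 := by rw [map_ofNat]; exact h
    exact (map_eq_zero (algebraMap F L)).mp this
  have hchar : ringChar L ≠ 2 := by
    intro h
    apply h2L
    have := CharP.cast_eq_zero L (ringChar L)
    rw [h] at this
    exact_mod_cast this
  obtain ⟨ν, hν⟩ := FiniteField.exists_nonsquare hchar
  have hν0 : ν ≠ 0 := by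
    rintro rfl
    exact hν ⟨0, by simp⟩
  obtain ⟨n, e, α, hα, hαc, he⟩ := hDiag L (ι → F) B h2L hBsymm hBnd ν hν0
  refine ⟨n, e.restrictScalars F, α, ?_, ?_, hα, ?_, ?_⟩
  · have h1 : Module.finrank F (ι → F) = Fintype.card ι := Module.finrank_fintype_fun_eq_card F
    have h3 : Module.finrank L (ι → F) = n := by
      rw [← e.finrank_eq, Module.finrank_fintype_fun_eq_card, Fintype.card_fin]
    rw [← h1, ← h3, Module.finrank_mul_finrank F L (ι → F)]
  · intro c w
    show e (c • w) = _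
    rw [map_smul, hsmul]
    rfl
  · intro w w'
    show QuadraticMap.polar (⇑Q) (e w) (e w') = _
    rw [← QuadraticMap.polarBilin_apply_apply, hB1, he]
  · intro l hl
    rw [hαc l hl]
    exact hν

/-- S5978-STRUCT. -/
theorem struct (hDiag : StDiag.{u}) : StStruct.{u} := by
  intro F _ _ ι _ _ Q K hKO
  classical
  have hfr := hKO.fld.finrank_eq
  have hnt : Nontrivial ↥K :=
    Module.nontrivial_of_finrank_pos (R := F) (by rw [hfr]; norm_num)
  have hfld : IsField ↥K :=
    { exists_pair_ne := ⟨0, 1, zero_ne_one⟩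
      mul_comm := fun a b => Subtype.ext (hKO.fld.comm a a.2 b b.2)
      mul_inv_cancel := fun {a} ha => by
        obtain ⟨y, hy, hxy⟩ := hKO.fld.inv a a.2 (fun h => ha (Subtype.ext h))
        exact ⟨⟨y, hy⟩, Subtype.ext hxy⟩ }
  letI instF : Field ↥K := hfld.toField
  letI instFin : Fintype ↥K := Fintype.ofFinite _
  obtain ⟨n, φ, α, hdim, hφ, hα, hform, hns⟩ := struct_aux hDiag F ι Q hKO.two hKO.nondeg ↥K K.val
    (fun c u v => hKO.adj c c.2 u v)
  refine ⟨n, ↥K, instF, instFin, inferInstance, K.val, φ, α, ⟨?_, ?_, fun c => c.2,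
    fun a ha => ⟨⟨a, ha⟩, rfl⟩, hφ, hα, hform⟩, hns⟩
  · rw [← hfr]
    exact Module.card_eq_pow_finrank (K := F) (V := ↥K)
  · rw [hfr] at hdim
    exact hdim

example : (StDiag.{u} → StStruct.{u}) := struct

end Cfsg.Agent.H77.Tq
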