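import Mathlib
import Cfsg.Prelude.Def_Classical
import Cfsg.Agent.H77.UfDefs
import Cfsg.Agent.H77.UfData
import Cfsg.Agent.H77.UfDefs3

/-! S2149: two small pieces written by helper77 as insurance (MAPCARD, NOTPRES). -/

set_option autoImplicit false

universe u

namespace Cfsg.Agent.H77.Uf

open Matrix

theorem mapCard77 : StMapCard.{u} := by
  intro S _ _ K hZ
  have hker : (QuotientGroup.mk' (Subgroup.center S)).ker = Subgroup.center S :=
    QuotientGroup.ker_mk' _
  have hcm : (K.map (QuotientGroup.mk' (Subgroup.center S))).comap
      (QuotientGroup.mk' (Subgroup.center S)) = K := by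
    rw [Subgroup.comap_map_eq, hker]
    exact sup_eq_left.mpr hZ
  constructor
  · have hidx : (K.map (QuotientGroup.mk' (Subgroup.center S))).index = K.index := by
      rw [← Subgroup.index_comap_of_surjective _ (QuotientGroup.mk'_surjective _), hcm]
    have h1 := Subgroup.card_mul_index K
    have h2 := Subgroup.card_mul_index (K.map (QuotientGroup.mk' (Subgroup.center S)))
    have h3 := Subgroup.card_eq_card_quotient_mul_card_subgroup (Subgroup.center S)
    have hpos : 0 < K.index := Nat.pos_of_ne_zero Subgroup.index_ne_zero_of_finite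
    rw [hidx] at h2
    have h4 : Nat.card K * K.index = (Nat.card (Subgroup.center S) *
        Nat.card (K.map (QuotientGroup.mk' (Subgroup.center S)))) * K.index := by
      rw [h1, h3, ← h2]
      ring
    exact Nat.eq_of_mul_eq_mul_right hpos h4
  · intro hK htop
    apply hK
    rw [← hcm, htop, Subgroup.comap_top]

set_option maxRecDepth 100000 in
theorem notPres_aux : ¬ ∃ w ∈ Yl, ∃ c : F25, G0 *ᵥ ![0, 1, 0] = c • w := by decide +kernel

theorem notPres77 : StNotPres := by
  intro h
  have hv : (![0, 1, 0] : Fin 3 → F25) ∈ Yl := by decide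
  exact notPres_aux (h _ hv)

end Cfsg.Agent.H77.Uf
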