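import Mathlib
import Cfsg.Prelude.Def_Classical
import Cfsg.Agent.H77.UfDefs
import Cfsg.Agent.H77.UfDefs2
import Cfsg.Agent.H77.UfDefs3

/-! S2149: assemblies (helper77).  `lower` (abstract lower bound from the team pieces),
`n7` (Sylow 7-normalizers of `PSU₃(5)`), `lower35`, `main35`. -/

set_option autoImplicit false

universe u v

namespace Cfsg.Agent.H77.Uf

open Matrix

/-- LOWER: the abstract lower bound. -/
theorem lower (hTD : StTransDvd.{u, v}) (hSD : StSimpleDeg.{u}) (hS7 : StSyl7.{u})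
    (hAr : StArith) : StLower.{u, v} := by
  intro S _ _ Ω _ _ h2 hΩ hsimple hcard hN H hH
  by_contra hlt
  push Not at hlt
  have h1 := hTD h2 (by rw [hΩ]; norm_num) H
  rw [hΩ] at h1
  rcases h1 with h1 | h1
  · omega
  have h2' : H.index * Nat.card H = 126000 := by
    rw [mul_comm, Subgroup.card_mul_index, hcard]
  have h3 := hSD hsimple H hH
  rw [hcard] at h3
  have h4 := hAr H.index (Nat.card H) h2' h1 h3 hlt
  exact hS7 hN H h4

theorem coe_pow35' (x : SU35) (k : ℕ) : (x ^ k).1.1 = x.1.1 ^ k := by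
  induction k with
  | zero => rfl
  | succ k ih =>
    rw [pow_succ, pow_succ]
    show (x ^ k).1.1 * x.1.1 = _
    rw [ih]

/-- N7: every subgroup of order 7 of `PSU₃(5)` has normalizer of order dividing 21. -/
theorem n7 (hElem : StElem) (hOrd : StOrd) (hCent : StCent) (hNoInv : StNoInv)
    (hZ3 : StCenter3) (hG : StOrderG) (hAbsN : StAbsN.{0}) (hSylT : StSylT.{0}) : StN7 := by
  obtain ⟨a, ha⟩ := hElem
  obtain ⟨h7, h1, -⟩ := hOrd
  have ha7 : a ^ 7 = 1 := by
    apply Subtype.ext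
    apply Subtype.ext
    rw [coe_pow35', ha, h7]
    rfl
  have ha1 : a ≠ 1 := by
    intro h
    apply h1
    rw [← ha, h]
    rfl
  obtain ⟨X₀, hX0, hN0⟩ := hAbsN a ha7 ha1 hZ3 (hCent a ha) (fun n => hNoInv a n ha)
  intro X hX
  have hG' : Nat.card G35 = 7 * 18000 := by rw [hG]
  exact hSylT 18000 hG' (by norm_num) X₀ hX0 hN0 X hX

/-- LOWER35: the lower bound for `PSU₃(5)` over `F25`. -/
theorem lower35 (hLower : StLower.{0, 0}) (hTT : StTwoTrans) (hCard : StCard126)
    (hSimple : StSimple) (hG : StOrderG) (hN7 : StN7) : StLower35 :=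
  fun H hH => hLower hTT hCard hSimple hG hN7 H hH

/-- both halves over `F25`. -/
theorem main35 (hL : StLower35) (hE : StExists35) (hG : StOrderG) :
    (∀ H : Subgroup G35, H ≠ ⊤ → 50 ≤ H.index) ∧ (∃ H : Subgroup G35, H.index = 50) := by
  refine ⟨hL, ?_⟩
  obtain ⟨H, hH, hdvd⟩ := hE
  refine ⟨H, ?_⟩
  have h1 := hL H hH
  have h2 : Nat.card H * H.index = 126000 := by rw [Subgroup.card_mul_index, hG]
  obtain ⟨k, hk⟩ := hdvd
  rw [hk] at h2
  have h3 : k * H.index = 50 := by nlinarith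
  have hk1 : k = 1 := by
    rcases Nat.eq_zero_or_pos k with h0 | hpos
    · subst h0
      omega
    · nlinarith
  subst hk1
  omega

end Cfsg.Agent.H77.Uf
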