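import Mathlib

/-!
# Linear groups transitive on non-zero vectors: non-abelian normal subgroups are irreducible

`comm_of_reducible` : if `T ≤ GL(V)` is transitive on the non-zero vectors of a finite vector
space `V` and normalises `N ≤ GL(V)`, and `N` leaves a proper non-zero subspace invariant, then
`N` is commutative.  (All cyclic `N`-submodules are simple by transitivity; hence the ring of
endomorphisms `x` with `x v ∈ N-span of v` is a finite domain, so commutative by Wedderburn.)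

`centralizer_comm` : Schur + Wedderburn: elements of `GL(V)` centralising an irreducible `N`
commute with each other.
-/

set_option autoImplicit false

namespace Cfsg.Agent.H77.Zas

variable {K : Type*} [Field K] {V : Type*} [AddCommGroup V] [Module K V]

/-- the cyclic submodule generated by `v` under the linear group `N` -/
def cyc (N : Subgroup (V ≃ₗ[K] V)) (v : V) : Submodule K V :=
  Submodule.span K (Set.range fun n : N => (n : V ≃ₗ[K] V) v)

theorem self_mem_cyc (N : Subgroup (V ≃ₗ[K] V)) (v : V) : v ∈ cyc N v :=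
  Submodule.subset_span ⟨1, by simp⟩

theorem apply_mem_cyc (N : Subgroup (V ≃ₗ[K] V)) (n : V ≃ₗ[K] V) (hn : n ∈ N) (v : V) :
    n v ∈ cyc N v :=
  Submodule.subset_span ⟨⟨n, hn⟩, rfl⟩

theorem cyc_inv (N : Subgroup (V ≃ₗ[K] V)) (v : V) (n : V ≃ₗ[K] V) (hn : n ∈ N) (u : V)
    (hu : u ∈ cyc N v) : n u ∈ cyc N v := by
  unfold cyc at hu ⊢
  induction hu using Submodule.span_induction with
  | mem x hx =>
    obtain ⟨m, rfl⟩ := hx
    exact Submodule.subset_span ⟨⟨n * m, N.mul_mem hn m.2⟩, rfl⟩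
  | zero => simp
  | add x y _ _ hx hy => rw [map_add]; exact Submodule.add_mem _ hx hy
  | smul a x _ hx => rw [map_smul]; exact Submodule.smul_mem _ a hx

theorem cyc_le (N : Subgroup (V ≃ₗ[K] V)) (W : Submodule K V)
    (hW : ∀ n ∈ N, ∀ v ∈ W, n v ∈ W) (v : V) (hv : v ∈ W) : cyc N v ≤ W := by
  apply Submodule.span_le.mpr
  rintro _ ⟨n, rfl⟩
  exact hW n n.2 v hv

theorem cyc_mono (N : Subgroup (V ≃ₗ[K] V)) (v w : V) (hw : w ∈ cyc N v) :
    cyc N w ≤ cyc N v :=
  cyc_le N _ (fun n hn u hu => cyc_inv N v n hn u hu) w hw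

theorem cyc_conj (N : Subgroup (V ≃ₗ[K] V)) (h : V ≃ₗ[K] V)
    (hh : ∀ n ∈ N, h * n * h⁻¹ ∈ N) (v u : V) (hu : u ∈ cyc N v) : h u ∈ cyc N (h v) := by
  unfold cyc at hu ⊢
  induction hu using Submodule.span_induction with
  | mem x hx =>
    obtain ⟨m, rfl⟩ := hx
    refine Submodule.subset_span ⟨⟨h * m * h⁻¹, hh m m.2⟩, ?_⟩
    show (h * (m : V ≃ₗ[K] V) * h⁻¹) (h v) = h ((m : V ≃ₗ[K] V) v)
    have e : h⁻¹ (h v) = v := by
      have : (h⁻¹ * h) v = v := by rw [inv_mul_cancel]; rfl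
      exact this
    show h ((m : V ≃ₗ[K] V) (h⁻¹ (h v))) = h ((m : V ≃ₗ[K] V) v)
    rw [e]
  | zero => simp
  | add x y _ _ hx hy => rw [map_add]; exact Submodule.add_mem _ hx hy
  | smul a x _ hx => rw [map_smul]; exact Submodule.smul_mem _ a hx

/-- every non-zero vector generates a simple cyclic submodule -/
theorem all_simple [Finite V] (N T : Subgroup (V ≃ₗ[K] V))
    (hnorm : ∀ h ∈ T, ∀ n ∈ N, h * n * h⁻¹ ∈ N)
    (htr : ∀ v w : V, v ≠ 0 → w ≠ 0 → ∃ h ∈ T, h v = w)
    (v : V) (hv : v ≠ 0) (w : V) (hw : w ∈ cyc N v) (hw0 : w ≠ 0) : v ∈ cyc N w := by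
  classical
  have : Nonempty {u : V // u ≠ 0} := ⟨⟨v, hv⟩⟩
  obtain ⟨v0, hmin⟩ := Finite.exists_min (fun u : {u : V // u ≠ 0} => Nat.card (cyc N u.1))
  have hP0 : ∀ w ∈ cyc N v0.1, w ≠ 0 → v0.1 ∈ cyc N w := by
    intro w hw hw0
    have hle : cyc N w ≤ cyc N v0.1 := cyc_mono N _ _ hw
    have hcard : Nat.card (cyc N v0.1) ≤ Nat.card (cyc N w) := hmin ⟨w, hw0⟩
    have heq : cyc N w = cyc N v0.1 := by
      apply SetLike.coe_injective
      apply Set.eq_of_subset_of_ncard_le hle _ (Set.toFinite _)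
      rw [← Nat.card_coe_set_eq, ← Nat.card_coe_set_eq]; exact hcard
    rw [heq]; exact self_mem_cyc N _
  obtain ⟨h, hhT, hhv⟩ := htr v0.1 v v0.2 hv
  have hinvT : h⁻¹ ∈ T := T.inv_mem hhT
  have e1 : ∀ z : V, h⁻¹ (h z) = z := by
    intro z
    have : (h⁻¹ * h) z = z := by rw [inv_mul_cancel]; rfl
    exact this
  have e2 : ∀ z : V, h (h⁻¹ z) = z := by
    intro z
    have : (h * h⁻¹) z = z := by rw [mul_inv_cancel]; rfl
    exact this
  have h1 : h⁻¹ w ∈ cyc N v0.1 := by
    have := cyc_conj N h⁻¹ (hnorm h⁻¹ hinvT) v w hw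
    rwa [← hhv, e1] at this
  have h2 : h⁻¹ w ≠ 0 := by
    intro h0
    apply hw0
    rw [← e2 w, h0, map_zero]
  have h3 := hP0 _ h1 h2
  have h4 := cyc_conj N h (hnorm h hhT) _ _ h3
  rwa [hhv, e2] at h4

/-- the ring of endomorphisms preserving all cyclic submodules -/
def cycRing (N : Subgroup (V ≃ₗ[K] V)) : Subring (Module.End K V) where
  carrier := {x | ∀ v, x v ∈ cyc N v}
  mul_mem' := by
    intro x y hx hy v
    exact cyc_mono N v (y v) (hy v) (hx (y v))
  one_mem' := fun v => self_mem_cyc N v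
  add_mem' := by
    intro x y hx hy v
    exact Submodule.add_mem _ (hx v) (hy v)
  zero_mem' := fun v => Submodule.zero_mem _
  neg_mem' := by
    intro x hx v
    exact Submodule.neg_mem _ (hx v)

theorem key [Finite V] (N T : Subgroup (V ≃ₗ[K] V))
    (hnorm : ∀ h ∈ T, ∀ n ∈ N, h * n * h⁻¹ ∈ N)
    (htr : ∀ v w : V, v ≠ 0 → w ≠ 0 → ∃ h ∈ T, h v = w)
    (W : Submodule K V) (hW : ∀ n ∈ N, ∀ v ∈ W, n v ∈ W) (hWbot : W ≠ ⊥) (hWtop : W ≠ ⊤)
    (x : Module.End K V) (hx : ∀ v, x v ∈ cyc N v) (v : V) (hv : v ≠ 0) (hxv : x v = 0) :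
    x = 0 := by
  have P := all_simple N T hnorm htr
  -- Lemma A
  have A : ∀ v w : V, v ≠ 0 → (∀ u, u ∈ cyc N v → u ∈ cyc N w → u = 0) → x v = 0 → x w = 0 := by
    intro v w hv hdisj hxv
    by_contra hxw
    have hvw : v + w ≠ 0 := by
      intro h0
      have hwv : w = -v := eq_neg_of_add_eq_zero_right h0
      have m : v ∈ cyc N w := by
        have := Submodule.neg_mem _ (self_mem_cyc N w)
        rwa [hwv, neg_neg, ← hwv] at this
      exact hv (hdisj v (self_mem_cyc N v) m)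
    have e : x (v + w) = x w := by rw [map_add, hxv, zero_add]
    have m1 : x w ∈ cyc N (v + w) := e ▸ hx (v + w)
    have m2 : v + w ∈ cyc N (x w) := P (v + w) hvw (x w) m1 hxw
    have m3 : v + w ∈ cyc N w := cyc_mono N w (x w) (hx w) m2
    have m4 : v ∈ cyc N w := by
      have := Submodule.sub_mem _ m3 (self_mem_cyc N w)
      simpa using this
    exact hv (hdisj v (self_mem_cyc N v) m4)
  obtain ⟨a, haW, ha0⟩ := (Submodule.ne_bot_iff W).mp hWbot
  obtain ⟨b, hbW⟩ : ∃ b : V, b ∉ W := by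
    by_contra hall
    push Not at hall
    exact hWtop ((Submodule.eq_top_iff').mpr hall)
  have hb0 : b ≠ 0 := by
    rintro rfl
    exact hbW (Submodule.zero_mem W)
  have haWle : cyc N a ≤ W := cyc_le N W hW a haW
  have hab : ∀ u, u ∈ cyc N a → u ∈ cyc N b → u = 0 := by
    intro u hua hub
    by_contra hu0
    exact hbW (haWle (cyc_mono N a u hua (P b hb0 u hub hu0)))
  have hba : ∀ u, u ∈ cyc N b → u ∈ cyc N a → u = 0 := fun u h1 h2 => hab u h2 h1
  have G : ∀ z : V, z ≠ 0 → (∀ u, u ∈ cyc N z → u ∈ cyc N a → u = 0) ∨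
      (∀ u, u ∈ cyc N z → u ∈ cyc N b → u = 0) := by
    intro z hz
    by_cases h : ∀ u, u ∈ cyc N z → u ∈ cyc N a → u = 0
    · exact Or.inl h
    · right
      push Not at h
      obtain ⟨u, huz, hua, hu0⟩ := h
      have hza : z ∈ cyc N a := cyc_mono N a u hua (P z hz u huz hu0)
      intro u' hu'z hu'b
      by_contra hu'0
      have hb1 : b ∈ cyc N u' := P b hb0 u' hu'b hu'0
      exact hbW (haWle (cyc_mono N a z hza (cyc_mono N z u' hu'z hb1)))
  have hxab : x a = 0 ∧ x b = 0 := by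
    rcases G v hv with h | h
    · have h1 : x a = 0 := A v a hv h hxv
      exact ⟨h1, A a b ha0 hab h1⟩
    · have h1 : x b = 0 := A v b hv h hxv
      exact ⟨A b a hb0 hba h1, h1⟩
  apply LinearMap.ext
  intro w
  rw [LinearMap.zero_apply]
  by_cases hw : w = 0
  · rw [hw, map_zero]
  · rcases G w hw with h | h
    · exact A a w ha0 (fun u h1 h2 => h u h2 h1) hxab.1
    · exact A b w hb0 (fun u h1 h2 => h u h2 h1) hxab.2

/-- A subgroup `N` of `GL(V)` normalised by a group `T` transitive on non-zero vectors, and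
leaving invariant a proper non-zero subspace, is commutative. -/
theorem comm_of_reducible [Finite V] (N T : Subgroup (V ≃ₗ[K] V))
    (hnorm : ∀ h ∈ T, ∀ n ∈ N, h * n * h⁻¹ ∈ N)
    (htr : ∀ v w : V, v ≠ 0 → w ≠ 0 → ∃ h ∈ T, h v = w)
    (W : Submodule K V) (hW : ∀ n ∈ N, ∀ v ∈ W, n v ∈ W) (hWbot : W ≠ ⊥) (hWtop : W ≠ ⊤)
    (a b : V ≃ₗ[K] V) (ha : a ∈ N) (hb : b ∈ N) : a * b = b * a := by
  classical
  have : Finite (Module.End K V) :=
    Finite.of_injective (fun f : Module.End K V => (f : V → V)) DFunLike.coe_injective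
  obtain ⟨a0, ha0W, ha0⟩ := (Submodule.ne_bot_iff W).mp hWbot
  have : Nontrivial (cycRing N) := by
    refine ⟨⟨0, 1, ?_⟩⟩
    intro h01
    have h1 : (0 : Module.End K V) = 1 := congrArg Subtype.val h01
    have h2 : (0 : Module.End K V) a0 = (1 : Module.End K V) a0 := by rw [h1]
    exact ha0 h2.symm
  have : NoZeroDivisors (cycRing N) := by
    refine ⟨?_⟩
    intro x y hxy
    by_contra hne
    push Not at hne
    obtain ⟨hx0, hy0⟩ := hne
    have hy1 : ∃ v, y.1 v ≠ 0 := by
      by_contra hall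
      push Not at hall
      apply hy0
      apply Subtype.ext
      apply LinearMap.ext
      intro v
      exact hall v
    obtain ⟨v, hv⟩ := hy1
    have h1 : (x.1 * y.1) v = 0 := by
      have : x.1 * y.1 = 0 := congrArg Subtype.val hxy
      rw [this]; rfl
    have h2 : x.1 (y.1 v) = 0 := h1
    have h3 : x.1 = 0 := key N T hnorm htr W hW hWbot hWtop x.1 x.2 (y.1 v) hv h2
    exact hx0 (Subtype.ext h3)
  have : IsDomain (cycRing N) := NoZeroDivisors.to_isDomain _
  have hf := Finite.isDomain_to_isField (cycRing N)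
  have hc := hf.mul_comm ⟨(a : V →ₗ[K] V), fun v => apply_mem_cyc N a ha v⟩
    ⟨(b : V →ₗ[K] V), fun v => apply_mem_cyc N b hb v⟩
  have hc' : (a : V →ₗ[K] V) * (b : V →ₗ[K] V) = (b : V →ₗ[K] V) * (a : V →ₗ[K] V) :=
    congrArg Subtype.val hc
  ext v
  exact LinearMap.congr_fun hc' v

/-- the ring of endomorphisms commuting with `N` -/
def comRing (N : Subgroup (V ≃ₗ[K] V)) : Subring (Module.End K V) where
  carrier := {x | ∀ n ∈ N, ∀ v, x (n v) = n (x v)}
  mul_mem' := by
    intro x y hx hy n hn v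
    show x (y (n v)) = n (x (y v))
    rw [hy n hn v, hx n hn (y v)]
  one_mem' := fun n _ v => rfl
  add_mem' := by
    intro x y hx hy n hn v
    show x (n v) + y (n v) = n (x v + y v)
    rw [hx n hn v, hy n hn v, map_add]
  zero_mem' := by
    intro n _ v
    show (0 : V) = n 0
    rw [map_zero]
  neg_mem' := by
    intro x hx n hn v
    show -(x (n v)) = n (-(x v))
    rw [hx n hn v, map_neg]

/-- Schur + Wedderburn: elements centralising an irreducible linear group commute. -/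
theorem centralizer_comm [Finite V] (N : Subgroup (V ≃ₗ[K] V))
    (hirr : ∀ W : Submodule K V, (∀ n ∈ N, ∀ v ∈ W, n v ∈ W) → W = ⊥ ∨ W = ⊤)
    (c d : V ≃ₗ[K] V) (hc : ∀ n ∈ N, c * n = n * c) (hd : ∀ n ∈ N, d * n = n * d) :
    c * d = d * c := by
  classical
  rcases subsingleton_or_nontrivial V with hs | hnt
  · ext v
    exact Subsingleton.elim _ _
  have : Finite (Module.End K V) :=
    Finite.of_injective (fun f : Module.End K V => (f : V → V)) DFunLike.coe_injective
  obtain ⟨a0, ha0⟩ := exists_ne (0 : V)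
  have : Nontrivial (comRing N) := by
    refine ⟨⟨0, 1, ?_⟩⟩
    intro h01
    have h1 : (0 : Module.End K V) = 1 := congrArg Subtype.val h01
    have h2 : (0 : Module.End K V) a0 = (1 : Module.End K V) a0 := by rw [h1]
    exact ha0 h2.symm
  have : NoZeroDivisors (comRing N) := by
    refine ⟨?_⟩
    intro x y hxy
    by_contra hne
    push Not at hne
    obtain ⟨hx0, hy0⟩ := hne
    have hy1 : ∃ v, y.1 v ≠ 0 := by
      by_contra hall
      push Not at hall
      apply hy0
      apply Subtype.ext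
      apply LinearMap.ext
      intro v
      exact hall v
    obtain ⟨v, hv⟩ := hy1
    have h1 : (x.1 * y.1) v = 0 := by
      have : x.1 * y.1 = 0 := congrArg Subtype.val hxy
      rw [this]; rfl
    have h2 : x.1 (y.1 v) = 0 := h1
    have hker : LinearMap.ker x.1 = ⊥ ∨ LinearMap.ker x.1 = ⊤ := by
      apply hirr
      intro n hn u hu
      rw [LinearMap.mem_ker] at hu ⊢
      rw [x.2 n hn u, hu, map_zero]
    rcases hker with hk | hk
    · have : y.1 v ∈ LinearMap.ker x.1 := LinearMap.mem_ker.mpr h2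
      rw [hk, Submodule.mem_bot] at this
      exact hv this
    · apply hx0
      apply Subtype.ext
      exact LinearMap.ker_eq_top.mp hk
  have : IsDomain (comRing N) := NoZeroDivisors.to_isDomain _
  have hf := Finite.isDomain_to_isField (comRing N)
  have hmem : ∀ c : V ≃ₗ[K] V, (∀ n ∈ N, c * n = n * c) → (c : V →ₗ[K] V) ∈ comRing N := by
    intro c hc n hn v
    have := hc n hn
    exact LinearEquiv.congr_fun this v
  have hcd := hf.mul_comm ⟨(c : V →ₗ[K] V), hmem c hc⟩ ⟨(d : V →ₗ[K] V), hmem d hd⟩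
  have hc' : (c : V →ₗ[K] V) * (d : V →ₗ[K] V) = (d : V →ₗ[K] V) * (c : V →ₗ[K] V) :=
    congrArg Subtype.val hcd
  ext v
  exact LinearMap.congr_fun hc' v

end Cfsg.Agent.H77.Zas
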